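import Cfsg.Agent.H7.AM0

/-! The Monster from the amalgam `C, N, L` (S5586): lifting the `Y₅₅₃` generators (notes/AM.md, part Y). -/

set_option autoImplicit false
set_option linter.unusedSectionVars false

namespace H7.AM
open Cfsg H15 H19 H0 H0.Mo H0.Y Subgroup Function
open H14.Mn (Mon zM)

universe u

section
variable {G : Type*} [Group G]

/-- different and commuting -/
abbrev Dm (a b : G) : Prop := b ≠ a ∧ Commute a b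

/-- cliques -/
def Cq (E : Set G) (l : List G) : Prop := (∀ a ∈ l, a ∈ E) ∧ l.Pairwise Dm

/-- the elements of `E` commuting with and different from `a`, `b` -/
def X0 (E : Set G) (a b d : G) : Prop := d ∈ E ∧ Dm a d ∧ Dm b d

/-- the commuting graph on `X0 E a b` has diameter two, and quadrangles and pentagons split into triangles -/
structure Gr (E : Set G) (a b : G) : Prop where
  ex : ∃ x, X0 E a b x
  d2 : ∀ x y, X0 E a b x → X0 E a b y → ¬ Dm x y → ∃ w, X0 E a b w ∧ Dm x w ∧ Dm y w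
  mu : ∀ x y w w', X0 E a b x → X0 E a b y → X0 E a b w → X0 E a b w' → ¬ Commute x y → ¬ Commute w w' →
    Dm x w → Dm y w → Dm x w' → Dm y w' → ∃ v, X0 E a b v ∧ Dm x v ∧ Dm y v ∧ Dm w v ∧ Dm w' v
  pe : ∀ x y w, X0 E a b x → X0 E a b y → X0 E a b w → Dm y w → ¬ Commute x y → ¬ Commute x w →
    ∃ v, X0 E a b v ∧ Dm x v ∧ Dm y v ∧ Dm w v

/-- `a b₁ c₁ d₁ e₁ f₁ b₂ c₂ d₂ e₂ f₂ b₃ c₃ d₃` -/
def ed : List (ℕ × ℕ) := [(0,1),(1,2),(2,3),(3,4),(4,5),(0,6),(6,7),(7,8),(8,9),(9,10),(0,11),(11,12),(12,13)]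

def ex (i j : ℕ) : ℕ := if i = j then 1 else if (i, j) ∈ ed ∨ (j, i) ∈ ed then 3 else 2

/-- the relations of `Y₅₅₃` beyond the Coxeter relations -/
structure Xr (y : ℕ → G) : Prop where
  sp : (y 0 * y 1 * y 2 * y 0 * y 6 * y 7 * y 0 * y 11 * y 12) ^ 10 = 1
  f1 : y 5 = (y 0 * y 1 * y 6 * y 11 * y 2 * y 7 * y 3) ^ 9
  f1' : y 5 = (y 0 * y 1 * y 11 * y 6 * y 2 * y 12 * y 3) ^ 9
  f2 : y 10 = (y 0 * y 6 * y 1 * y 11 * y 7 * y 2 * y 8) ^ 9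
  f2' : y 10 = (y 0 * y 6 * y 11 * y 1 * y 7 * y 12 * y 8) ^ 9
  f3 : 1 = (y 0 * y 11 * y 1 * y 6 * y 12 * y 2 * y 13) ^ 9
  f3' : 1 = (y 0 * y 11 * y 6 * y 1 * y 12 * y 7 * y 13) ^ 9

end

/-- all products of triads of `l` are collinear with `w` -/
def Ba (w : Mon) (l : List Mon) : Prop := ∀ a ∈ l, ∀ b ∈ l, ∀ c ∈ l, a ≠ b → a ≠ c → b ≠ c → Nb w (a * (b * c))

/-- the transpositions `E` of `Nx = 3·Fi₂₄` in the Monster -/
structure Ft (E : Set Mon) (Nx : Subgroup Mon) : Prop where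
  sq : ∀ a ∈ E, a * a = 1
  mem : ∀ a ∈ E, a ∈ Nx
  cj : ∀ n ∈ Nx, ∀ a ∈ E, n * a * n⁻¹ ∈ E
  c2 : ∀ a b, Cq E [a, b] → A2 zM (a * b)
  b5 : ∀ l, Cq E l → l.length ≤ 5 → ∃ w, Ba w l
  o8 : ∀ l, Cq E l → l.length = 8 → l.prod = 1 → ∃ w, Ba w l
  tr : ∀ l l', Cq E l → Cq E l' → l.length = l'.length → l.length ≤ 5 → ∃ n ∈ Nx, l.map (fun y => n * y * n⁻¹) = l'
  gr : ∀ a b, Cq E [a, b] → Gr E a b
  core2 : ∀ a b c u (H : Subgroup Mon), Cq E [a, b, c] → Nx ⊓ (C[a] ⊓ (C[b] ⊓ C[c])) ≤ H → u ∈ H → u ∈ C[a] →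
    u ∈ C[a * (b * c)] → u * b * u⁻¹ ∉ Nx → C[a] ⊓ C[a * (b * c)] ≤ H
  core1 : ∀ a b c (H : Subgroup Mon), Cq E [a, b, c] → a ∈ H → C[a] ⊓ C[a * (b * c)] ≤ H →
    C[b] ⊓ C[a * (b * c)] ≤ H → C[a * (b * c)] ≤ H

/-- the nodes -/
structure Yn (E : Set Mon) (Nx : Subgroup Mon) (g : ℕ → Mon) : Prop where
  tp : ∀ i < 13, g i ∈ E
  ne : ∀ i < 13, ∀ j < 13, i ≠ j → g i ≠ g j
  cox : ∀ i < 14, ∀ j < 14, (g i * g j) ^ ex i j = 1
  xr : Xr g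
  gf : ∀ H : Subgroup Mon, (∀ i < 13, i ≠ 4 → i ≠ 9 → g i ∈ H) → Nx ⊓ (C[g 5] ⊓ C[g 10]) ≤ H
  oc : ∃ b c r, Cq E [g 5, b, c, g 10, g 3, g 1, g 7, r] ∧ [g 5, b, c, g 10, g 3, g 1, g 7, r].prod = 1 ∧
    g 13 ∈ C[g 5 * (b * c)] ∧ g 13 * b * (g 13)⁻¹ ∉ Nx

section
variable {Γ : Type u} [Group Γ] {P : Type u} [MulAction Γ P]

/-- `γ` maps the section to itself -/
def Ev (φ : Γ →* Mon) (E : Set Mon) (a b : Mon) (σ : Mon → P) (γ : Γ) : Prop :=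
  ∀ d, X0 E a b d → γ • σ d = σ (φ γ * d * (φ γ)⁻¹)

/-- a section over the involutions `a b d` -/
structure Sec (φ : Γ →* Mon) (pr : P → Mon) (sp : P → P → Prop) (E : Set Mon) (Nx : Subgroup Mon) (a b : Mon)
    (σ : Mon → P) : Prop where
  pr : ∀ d, X0 E a b d → pr (σ d) = a * (b * d)
  sp : ∀ d d', X0 E a b d → X0 E a b d' → Dm d d' → sp (σ d) (σ d')
  rig : ∀ γ : Γ, φ γ ∈ Nx ⊓ (C[a] ⊓ C[b]) → ∀ d, X0 E a b d → γ • σ d = σ (φ γ * d * (φ γ)⁻¹) → Ev φ E a b σ γ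

/-- the lifted nodes -/
structure Nd (φ : Γ →* Mon) (E : Set Mon) (g : ℕ → Mon) (σ : Mon → P) (y : ℕ → Γ) : Prop where
  im : ∀ i < 14, φ (y i) = g i
  cox : ∀ i < 14, ∀ j < 14, (y i * y j) ^ ex i j = 1
  xr : Xr y
  ev : ∀ i < 13, i ≠ 4 → i ≠ 9 → Ev φ E (g 5) (g 10) σ (y i)
  u : y 13 • σ (g 3) = σ (g 3)
  w1 : (y 4 * (y 3 * y 5) * y 4) • σ (g 3) = σ (g 3)
  w2 : (y 9 * (y 8 * y 10) * y 9) • σ (g 8) = σ (g 8)

/-- an equivariant family of points over the products of triads -/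
structure Sg (pr : P → Mon) (sp : P → P → Prop) (ψ : Mon →* Γ) (E : Set Mon) (Nx : Subgroup Mon)
    (S : Mon → Mon → Mon → P) : Prop where
  pr : ∀ a b c, Cq E [a, b, c] → pr (S a b c) = a * (b * c)
  eqv : ∀ n ∈ Nx, ∀ a b c, Cq E [a, b, c] → ψ n • S a b c = S (n * a * n⁻¹) (n * b * n⁻¹) (n * c * n⁻¹)
  s1 : ∀ a b c, Cq E [a, b, c] → S a b c = S b a c
  s2 : ∀ a b c, Cq E [a, b, c] → S a b c = S a c b
  sp : ∀ a b c d, Cq E [a, b, c, d] → sp (S a b c) (S a b d)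

end

/-! ### the pieces -/

def SG : Prop := ∀ (Γ : Type u) [Group Γ] (φ : Γ →* Mon) (P : Type u) [MulAction Γ P] (pr : P → Mon)
  (sp : P → P → Prop) (E : Set Mon) (Nx : Subgroup Mon) (a b : Mon), Sk φ pr sp → Ft E Nx → Cq E [a, b] →
  ∃ σ, Sec φ pr sp E Nx a b σ

def ND : Prop := ∀ (Γ : Type u) [Group Γ] (φ : Γ →* Mon) (P : Type u) [MulAction Γ P] (pr : P → Mon)
  (sp : P → P → Prop) (E : Set Mon) (Nx : Subgroup Mon) (g : ℕ → Mon) (σ : Mon → P), Sk φ pr sp → Ft E Nx →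
  Yn E Nx g → Sec φ pr sp E Nx (g 5) (g 10) σ → ∃ y, Nd φ E g σ y

def G1 : Prop := ∀ (Γ : Type u) [Group Γ] (φ : Γ →* Mon) (P : Type u) [MulAction Γ P] (pr : P → Mon)
  (sp : P → P → Prop) (E : Set Mon) (Nx : Subgroup Mon) (g : ℕ → Mon) (σ : Mon → P) (y : ℕ → Γ) (ψ : Mon →* Γ),
  Sk φ pr sp → Ft E Nx → Yn E Nx g → Sec φ pr sp E Nx (g 5) (g 10) σ → Nd φ E g σ y → (∀ m, φ (ψ m) = m) →
  (∀ i < 14, ψ (g i) = y i) → ∃ S, Sg pr sp ψ E Nx S ∧ S (g 5) (g 10) (g 3) = σ (g 3)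

def G2 : Prop := ∀ (Γ : Type u) [Group Γ] (φ : Γ →* Mon) (P : Type u) [MulAction Γ P] (pr : P → Mon)
  (ad : P → P → Prop) (E : Set Mon) (Nx : Subgroup Mon) (g : ℕ → Mon) (ψ : Mon →* Γ) (S : Mon → Mon → Mon → P),
  Cv φ pr ad → Sk φ pr (Sp pr ad) → Ft E Nx → Yn E Nx g → (∀ m, φ (ψ m) = m) → Sg pr (Sp pr ad) ψ E Nx S →
  ψ (g 13) • S (g 5) (g 10) (g 3) = S (g 5) (g 10) (g 3) → ∃ p q, Sp pr ad p q ∧ Full ψ pr p ∧ Full ψ pr q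

/-! ### kit -/

section
variable {G : Type*} [Group G] {E : Set G} {l l' : List G} {a b : G}

theorem Dm.symm (h : Dm a b) : Dm b a := ⟨h.1.symm, h.2.symm⟩

theorem Dm.cj (h : Dm a b) (n : G) : Dm (n * a * n⁻¹) (n * b * n⁻¹) := ⟨by simpa using h.1, h.2.conj n⟩

theorem Cq.cons : Cq E (a :: l) ↔ a ∈ E ∧ (∀ b ∈ l, Dm a b) ∧ Cq E l := by
  simp only [Cq, List.forall_mem_cons, List.pairwise_cons]; tauto

theorem Cq.sub (h : Cq E l) (s : l'.Sublist l) : Cq E l' := ⟨fun a m => h.1 a (s.subset m), h.2.sublist s⟩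

theorem Cq.perm (h : Cq E l) (p : l.Perm l') : Cq E l' :=
  ⟨fun a m => h.1 a (p.symm.subset m), (p.pairwise_iff fun k => k.symm).1 h.2⟩

theorem Cq.dm (h : Cq E l) (ha : a ∈ l) (hb : b ∈ l) (n : b ≠ a) : Dm a b :=
  have : Std.Symm (Dm (G := G)) := ⟨fun _ _ => Dm.symm⟩
  h.2.forall ha hb n.symm

end

theorem cm_of {G : Type*} [Group G] {y : ℕ → G} (h : ∀ i < 14, ∀ j < 14, (y i * y j) ^ ex i j = 1) {i j : ℕ}
    (hi : i < 14) (hj : j < 14) (e : ex i j ≠ 3) : y i * y i = 1 ∧ Commute (y i) (y j) := by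
  have s : ∀ i < 14, y i * y i = 1 := fun i hi => by simpa [ex] using h i hi i hi
  refine ⟨s i hi, ?_⟩
  by_cases q : i = j
  · rw [q]
  have := h i hi j hj
  rw [show ex i j = 2 by unfold ex at e ⊢; split_ifs at e ⊢ <;> simp_all] at this
  rwa [pow_two, mul_eq_one_iff_eq_inv, mul_inv_rev, inv_eq_of_mul_eq_one_right (s i hi),
    inv_eq_of_mul_eq_one_right (s j hj)] at this

theorem Nb.symm {a b : Mon} (h : Nb a b) : Nb b a :=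
  ⟨h.2.1, h.1, ((mgM.conj h.1).lp h.2.2.1 (h.1.symm.trans h.2.1) h.2.2.2).zQ, h.2.2.2.symm⟩

section
variable {Γ : Type u} [Group Γ] {P : Type u} [MulAction Γ P] {φ : Γ →* Mon} {pr : P → Mon} {sp : P → P → Prop}
  {p q : P} {γ : Γ}

/-- a fixed point propagates along `sp` -/
theorem Sk.fix (K : Sk φ pr sp) (h : γ • p = p) (s : sp p q) (c : φ γ ∈ C[pr q]) : γ • q = q :=
  K.uniq (h ▸ K.smul γ s) s (by rw [K.eqv, mem_cent1.1 c, mul_inv_cancel_right])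

/-- relations hold in a point stabilizer -/
theorem Pt.rel (K : Pt φ pr) {δ : Γ} (h : γ • p = p) (h' : δ • p = p) (e : φ γ = φ δ) : γ = δ :=
  mul_inv_eq_one.1 (K.inj _ p (by rw [mul_smul, inv_smul_eq_iff.2 h'.symm, h]) (by rw [map_mul, map_inv, e, mul_inv_cancel]))

end

end H7.AM
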