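import Cfsg.Agent.H7.AM1

/-! The Monster from the amalgam `C, N, L` (S5586): gluing the amalgam to that of the Monster. -/

set_option autoImplicit false
set_option linter.unusedSectionVars false

namespace H7.AM
open Cfsg H15 H19 H0 H0.Mo H0.Y Subgroup Function
open H14.Mn (Mon zM)

universe u

theorem btw {G : Type*} [Group G] {A B M : Subgroup G} {p : ℕ} (hp : p.Prime) (h : A.relIndex B = p)
    (l : A ⊓ B ≤ M) {x : G} (xM : x ∈ M) (xB : x ∈ B) (xA : x ∉ A) : B ≤ M := by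
  have e := relIndex_mul_relIndex (A ⊓ B) (M ⊓ B) B (le_inf l inf_le_right) inf_le_right
  rw [inf_relIndex_right, inf_relIndex_right, h] at e
  rcases (Nat.dvd_prime hp).1 (Dvd.intro_left _ e) with k | k
  · exact relIndex_eq_one.1 k
  · rw [k, mul_eq_right₀ hp.ne_zero, relIndex_eq_one] at e
    exact absurd (e ⟨xM, xB⟩).1 xA

/-- the elements inverting or centralizing `m` modulo `K` -/
def IS {A : Type*} [Group A] (K : Subgroup A) (m : A) (hm : m ∈ N(K)) : Subgroup A where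
  carrier := {x | x ∈ N(K) ∧ (x * m * x⁻¹ * m⁻¹ ∈ K ∨ x * m * x⁻¹ * m ∈ K)}
  one_mem' := ⟨one_mem _, .inl (by simp)⟩
  mul_mem' := fun {x y} ⟨a, b⟩ ⟨c, d⟩ => ⟨mul_mem a c, by
    have k := fun {w} (h : w ∈ K) => conj_mem_of_norm a h
    rcases b with b | b <;> rcases d with d | d
    · exact .inl (by convert mul_mem (k d) b using 1; group)
    · exact .inr (by convert mul_mem (k d) (conj_mem_of_norm' hm (inv_mem b)) using 1; group)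
    · exact .inr (by convert mul_mem (k d) b using 1; group)
    · exact .inl (by convert mul_mem (k d) (conj_mem_of_norm hm (inv_mem b)) using 1; group)⟩
  inv_mem' := fun {x} ⟨a, b⟩ => ⟨inv_mem a, by
    rcases b with b | b
    · exact .inl (by convert conj_mem_of_norm' a (inv_mem b) using 1; group)
    · exact .inr (by convert conj_mem_of_norm' a (conj_mem_of_norm hm b) using 1; group)⟩

/-- the identification of `C` with the centralizer in the Monster -/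
structure Rh {H : Type u} [Group H] (Q P : Subgroup H) (z s : H) (ρ : H →* Mon) : Prop where
  inj : Injective ρ
  sur : ∀ a, a ∈ C[zM] ↔ ∃ x, ρ x = a
  z : ρ z = zM
  nb : Nb zM (ρ s)
  Q : ∀ x, ρ x ∈ Qo zM ↔ x ∈ Q
  P : ∀ x, ρ x ∈ Qo (ρ s) ↔ x ∈ P

theorem rho (t0 : T0) (pb : PB.{u}) (nc : NC.{u}) (sl : SL.{u}) (ch : CH.{u}) {H : Type u} [Group H] [Finite H]
    {Q : Subgroup H} {z s : H} {f : C[z] →* Spor.Co1} {R : H → Lam → Prop} {δ : H → H} (T : Tri Q z s f R δ)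
    (hz : ∀ x, x ∈ C[z]) : ∃ ρ, Rh Q (Pd Q s δ) z s ρ := by
  obtain ⟨s₀, d₀, f₀, R₀, c, n, T₀, e⟩ := t0 Mon zM mgM
  obtain ⟨Γ, S, B⟩ := pb _ _ _ _ _ _ _ _ _ _ _ _ T₀.M T.M T₀.rs T.rs
  obtain ⟨S', l, l', nz, w⟩ := (sl _ _ _ _ _ _ _ _ _ _ _ _ _ _ T₀.M T.M B).resolve_left
    (nc _ _ _ _ _ _ _ _ _ _ _ _ _ _ _ _ T₀ T B)
  have zz := T.M.le.es.zz
  have z0 := T₀.M.le.es.zz
  have i2 : ∀ x, (1, x) ∈ S' → x = 1 := fun x h => ((B.k2 x).1 (l h)).resolve_right fun k => nz (k ▸ h)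
  have i1 : ∀ a, (a, 1) ∈ S' → a = 1 := fun a h => ((B.k1 a).1 (l h)).resolve_right fun k => nz (by
    simpa [k, z0] using mul_mem h (l' B.zz))
  have ex : ∀ x, ∃ a, (a, x) ∈ S' := fun x => by
    obtain ⟨a, h⟩ := B.t2 x (hz x)
    refine (w _ h).elim (⟨a, ·⟩) fun k => ⟨a * zM, ?_⟩
    simpa [mul_assoc, zz] using mul_mem k (l' B.zz)
  choose ρ hρ using ex
  have un : ∀ {a x}, (a, x) ∈ S' → ρ x = a := fun {a x} h =>
    mul_inv_eq_one.1 (i1 _ (by simpa using mul_mem (hρ x) (inv_mem h)))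
  have es := un (l' B.ss)
  refine ⟨.mk' ρ fun x y => un (mul_mem (hρ x) (hρ y)), fun x y (h : ρ x = ρ y) =>
    mul_inv_eq_one.1 (i2 _ (by simpa [h] using mul_mem (hρ x) (inv_mem (hρ y)))), fun a => ⟨fun h => ?_, fun ⟨x, h⟩ =>
      h ▸ B.m1 _ (l (hρ x))⟩, un (l' B.zz), show Nb zM (ρ s) from es.symm ▸ ⟨.refl _, c, T₀.M.mem T₀.rs, n⟩,
    fun x => ⟨fun h => ?_, fun h => ?_⟩, fun x => ?_⟩
  · obtain ⟨x, h⟩ := B.t1 a h
    exact (w _ h).elim (fun k => ⟨_, un k⟩) fun k => ⟨x * z, un (by simpa using k)⟩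
  · obtain ⟨y, k⟩ := B.g1 _ h
    rw [show x = y from mul_inv_eq_one.1 (i2 _ (by simpa using mul_mem (hρ x) (inv_mem (l' k))))]
    exact (B.gm _ k).2.1
  · obtain ⟨a, k⟩ := B.g2 _ h
    exact show ρ x ∈ _ from (un (l' k)).symm ▸ (B.gm _ k).1
  · refine Iff.trans ?_ (ch _ _ _ _ _ _ _ _ _ _ _ _ _ _ _ _ T₀ T B _ (l (hρ x)))
    rw [e]
    show ρ x ∈ Qo (ρ s) ↔ _
    rw [es]
    exact ⟨fun h => ⟨h, B.m1 _ (l (hρ x))⟩, And.left⟩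

section
variable {G : Type u} [Group G] {Gc Gn : Subgroup G}

/-- the local data in `C` -/
structure Lc (Gc Gn : Subgroup G) (z s : Gc) (d : G) (δ : Gc → Gc) : Prop where
  E : ES (pCore 2 Gc) z
  cz : ∀ x, x ∈ C[z]
  sQ : s ∈ pCore 2 Gc
  s2 : s * s = 1
  s1 : s ≠ 1
  sz : s ≠ z
  idx : Gc.relIndex Gn = 3
  dN : d ∈ Gn
  dC : d ∉ Gc
  dK : ∀ k ∈ C[s], (δ k).1 = d * k * d⁻¹
  dz : δ z = s
  ds : δ s = s * z
  P : ∀ y, y ∈ Pd (pCore 2 Gc) s δ ↔ ∃ x ∈ pCore 2 Gc ⊓ C[s], δ x = y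
  B : ∀ c : Gc, c.1 ∈ Gn ↔ c * s * c⁻¹ = s ∨ c * s * c⁻¹ = s * z
  nK : Gn ≤ N(C[s].map Gc.subtype)

namespace Lc
variable {z s : Gc} {d : G} {δ : Gc → Gc} (L : Lc Gc Gn z s d δ)
include L

theorem zs : s * z = z * s := L.E.cent s L.sQ
theorem dz' : d * z * d⁻¹ = s := by rw [← L.dK z (mem_cent1.2 L.zs.symm), L.dz]
theorem ds' : d * s * d⁻¹ = s * z := by rw [← L.dK s (mem_cent1_self s), L.ds]; rfl
theorem dw : d * (s * z) * d⁻¹ = z := by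
  rw [← conj_mul, L.dz', L.ds', mul_assoc, ← coe_mul, ← L.zs, coe_mul, ← mul_assoc, ← coe_mul, L.s2]; simp
theorem cz' {c : G} (h : c ∈ Gc) : c * z * c⁻¹ = z :=
  mul_inv_eq_iff_eq_mul.2 (congrArg Subtype.val (mem_cent1.1 (L.cz ⟨c, h⟩)))
theorem nz (n : G) (hn : n ∈ Gn) (h : n * z * n⁻¹ = z) : n ∈ Gc := by
  by_contra k
  have := btw (M := C[z.1]) Nat.prime_three L.idx (fun c hc => mem_cent1.2 (mul_inv_eq_iff_eq_mul.1 (L.cz' hc.1)))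
    (mem_cent1.2 (mul_inv_eq_iff_eq_mul.1 h)) hn k L.dN
  exact L.sz (Subtype.ext (by rw [← L.dz', mem_cent1.1 this, mul_inv_cancel_right]))
theorem QB : (pCore 2 Gc).map Gc.subtype ≤ Gn := by
  rintro _ ⟨q, h, rfl⟩; exact (L.B q).2 (L.E.conj_cases h L.sQ)

omit L in
/-- an element of `Q` moving `s`, and its image under the triality -/
structure Qp (Gn : Subgroup G) (z s q : Gc) (p : G) (κ : Gc → Gc) : Prop where
  qN : q.1 ∈ Gn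
  qs : q * s * q⁻¹ = s * z
  q2 : q * q ∈ C[s]
  pN : p ∈ Gn
  κ1 : ∀ k ∈ C[s], κ k ∈ C[s]
  κ2 : ∀ k ∈ C[s], (κ k).1 = p * k * p⁻¹
  κz : κ z = s * z
  κs : κ s = s
  pp : p * p = 1 ∨ p * p = s

theorem qp : ∃ q p κ, Qp Gn z s q p κ ∧ ∀ y ∈ Pd (pCore 2 Gc) s δ, y ∈ C[s] → κ y = y ∨ κ y = y * s := by
  obtain ⟨q, qQ, qs⟩ := L.E.exists_conj L.sQ fun h => (L.E.mem_zp.1 h).elim L.s1 L.sz
  have zz := L.E.zz
  have qN := (L.B q).2 (.inr qs)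
  have qz : q * z * q⁻¹ = z := mul_inv_eq_iff_eq_mul.2 (mem_cent1.1 (L.cz q))
  obtain ⟨p, hp⟩ : ∃ p, p = d * q * d⁻¹ := ⟨_, rfl⟩
  have pN : p ∈ Gn := hp ▸ mul_mem (mul_mem L.dN qN) (inv_mem L.dN)
  have pc : ∀ x : Gc, p * (d * x * d⁻¹) * p⁻¹ = d * (q * x * q⁻¹ : Gc) * d⁻¹ := fun x => by simp [hp]; group
  have pz : p * z * p⁻¹ = s * z := by
    have := pc (s * z)
    rwa [← conj_mul (b := q), qs, qz, mul_assoc s, zz, mul_one, L.ds', coe_mul, L.dw] at this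
  have κ0 : ∀ k ∈ C[s], ∃ k' ∈ C[s], k'.1 = p * k * p⁻¹ := fun k h =>
    conj_mem_of_norm (L.nK pN) (mem_map_of_mem Gc.subtype h)
  choose! κ κ1 κ2 using κ0
  refine ⟨q, p, κ, ⟨qN, qs, ?_, pN, κ1, κ2, Subtype.ext ((κ2 z (mem_cent1.2 L.zs.symm)).trans pz),
    Subtype.ext (by rw [κ2 s (mem_cent1_self s), ← L.dz', pc, qz]), ?_⟩, fun y h m => ?_⟩
  · rcases L.E.sq q qQ with e | e <;> rw [e]
    exacts [one_mem _, mem_cent1.2 L.zs.symm]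
  · rw [hp, conj_mul, ← coe_mul]
    exact (L.E.sq q qQ).imp (fun e => by simp [e]) fun e => by rw [e, L.dz']
  · obtain ⟨x, hx, rfl⟩ := (L.P y).1 h
    have := κ2 _ m
    rw [L.dK x hx.2, pc] at this
    refine (L.E.conj_cases qQ hx.1).imp (fun e => Subtype.ext ?_) fun e => Subtype.ext ?_
    · rw [this, e, L.dK x hx.2]
    · rw [this, e, coe_mul, ← conj_mul, L.dz', coe_mul, L.dK x hx.2]

variable {q : Gc} {p : G} {κ : Gc → Gc} (W : Qp Gn z s q p κ)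
include W

theorem nt {A : Type*} [Group A] {ρ : Gc →* A} (ri : Injective ρ) {t₀ : A}
    (ht : ∀ k ∈ C[s], ρ (κ k) = t₀ * ρ k * t₀⁻¹) (tt : ∃ k ∈ C[s], ρ k = t₀ * t₀ ∧ k.1 = p * p)
    (cV : ∀ y, (∀ k ∈ C[s], y * ρ k * y⁻¹ = ρ k) → V4 (ρ z) (ρ s) y) :
    ∃ Nt : Subgroup (A × G), (∀ x ∈ Nt, x.2 = 1 → x = 1) ∧ (∀ x ∈ Nt, x.2 ∈ Gn) ∧
      (∀ c : Gc, c.1 ∈ Gn → (ρ c, c.1) ∈ Nt) ∧ (t₀, p) ∈ Nt ∧ Nt ≤ N(C[s].map (ρ.prod Gc.subtype)) := by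
  have zz := L.E.zz
  have qs := W.qs
  have qz : q * z * q⁻¹ = z := mul_inv_eq_iff_eq_mul.2 (mem_cent1.1 (L.cz q))
  have zK : z ∈ C[s] := mem_cent1.2 L.zs.symm
  obtain ⟨j, hj⟩ : ∃ j, j = ρ.prod Gc.subtype := ⟨_, rfl⟩
  have j0 : ∀ c, j c = (ρ c, c.1) := fun c => hj ▸ rfl
  rw [← hj]
  obtain ⟨K, hK⟩ : ∃ K, K = C[s].map j := ⟨_, rfl⟩
  have mK : ∀ {x}, x ∈ K ↔ ∃ k ∈ C[s], j k = x := hK ▸ Iff.rfl
  rw [← hK]
  obtain ⟨t, ht'⟩ : ∃ t : A × G, t = (t₀, p) := ⟨_, rfl⟩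
  rw [← ht']
  have tk : ∀ k ∈ C[s], t * j k * t⁻¹ = j (κ k) := fun k h => by
    rw [ht', j0, j0]; exact Prod.ext (ht k h).symm (W.κ2 k h).symm
  have t2 : t * t ∈ K := let ⟨k, h, a, b⟩ := tt; mK.2 ⟨k, h, by rw [j0, ht']; exact Prod.ext a b⟩
  have nrm : ∀ x : A × G, x * x ∈ K → (∀ k ∈ C[s], x * j k * x⁻¹ ∈ K) → x ∈ N(K) := fun x h1 h2 => by
    have h3 : ∀ y ∈ K, x * y * x⁻¹ ∈ K := fun y h => by obtain ⟨k, hk, rfl⟩ := mK.1 h; exact h2 k hk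
    refine mem_normalizer_iff.2 fun y => ⟨h3 y, fun h => ?_⟩
    convert mul_mem (mul_mem (inv_mem h1) (h3 _ h)) h1 using 1; group
  have tN : t ∈ N(K) := nrm t t2 fun k h => mK.2 ⟨_, W.κ1 k h, (tk k h).symm⟩
  have qw : q * (s * z) * q⁻¹ = s := by rw [← conj_mul, qs, qz, mul_assoc, zz, mul_one]
  have q2 : j q * j q ∈ K := mK.2 ⟨q * q, W.q2, map_mul _ _ _⟩
  have qn : j q ∈ N(K) := nrm _ q2 fun k h => mK.2 ⟨q * k * q⁻¹, mem_cent1.2 (by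
    have : k * (s * z) = s * z * k := by rw [← mul_assoc, mem_cent1.1 h, mul_assoc, mem_cent1.1 (L.cz k), mul_assoc]
    rw [← qw, conj_mul, conj_mul, this]), by simp⟩
  have mN := mul_mem qn tN
  have KN : ∀ k ∈ C[s], j k ∈ IS K (j q * t) mN := fun k h => have m := mK.2 ⟨k, h, rfl⟩
    ⟨le_normalizer m, .inl (by convert mul_mem m (conj_mem_of_norm mN (inv_mem m)) using 1; group)⟩
  have qNt : j q ∈ IS K (j q * t) mN := ⟨qn, .inr (by convert mul_mem q2 t2 using 1; group)⟩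
  have tNt : t ∈ IS K (j q * t) mN := ⟨tN, .inr (by convert mul_mem (conj_mem_of_norm tN q2) t2 using 1; group)⟩
  have tz : t * j z * t⁻¹ = j (s * z) := by rw [tk z zK, W.κz]
  have ts : t * j s * t⁻¹ = j s := by rw [tk s (mem_cent1_self s), W.κs]
  have mz : j q * t * j z * (j q * t)⁻¹ = j s := by
    rw [show j q * t * j z * (j q * t)⁻¹ = j q * (t * j z * t⁻¹) * (j q)⁻¹ by group, tz, ← map_inv, ← map_mul,
      ← map_mul, qw]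
  have ms : j q * t * j s * (j q * t)⁻¹ = j (s * z) := by
    rw [show j q * t * j s * (j q * t)⁻¹ = j q * (t * j s * t⁻¹) * (j q)⁻¹ by group, ts, ← map_inv, ← map_mul,
      ← map_mul, qs]
  have one : ∀ x ∈ K, x.2 = 1 → x = 1 := fun x h e => by
    obtain ⟨k, -, rfl⟩ := mK.1 h
    rw [show k = 1 from Subtype.ext (j0 k ▸ e :), map_one]
  refine ⟨IS K (j q * t) mN ⊓ Gn.comap (MonoidHom.snd A G), fun x h e => ?_, fun x h => h.2, fun c h => ⟨?_, h⟩,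
    ⟨tNt, ht' ▸ W.pN⟩, fun x h => h.1.1⟩
  · have v := cV x.1 fun k hk => by
      have m := mK.2 ⟨k, hk, rfl⟩
      simpa [j0] using congrArg Prod.fst (mul_inv_eq_one.1 (one _ (mul_mem (conj_mem_of_norm h.1.1 m) (inv_mem m))
        (by simp [e])))
    have h := h.1.2
    generalize j q * t = m at h mz ms
    simp only [j0, Prod.ext_iff, Prod.fst_mul, Prod.fst_inv, Prod.snd_mul, Prod.snd_inv, map_mul, coe_mul] at mz ms
    rcases h with k | k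
    · have k := congrArg Prod.fst (one _ k (by simp [e]))
      have k : m.1 * x.1 * m.1⁻¹ = x.1 := by
        simp only [Prod.fst_mul, Prod.fst_inv, Prod.fst_one, one_mul, mul_inv_eq_iff_eq_mul] at k ⊢
        exact k.symm
      rcases v with v | v | v | v <;> rw [v] at k
      · exact Prod.ext v e
      · exact absurd (ri (mz.1.symm.trans k)) L.sz
      · exact absurd ((map_eq_one_iff _ ri).1 (mul_eq_left.1 (ms.1.symm.trans k))) L.E.z1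
      · rw [← conj_mul, mz.1, ms.1, mul_eq_left] at k
        exact absurd ((map_eq_one_iff _ ri).1 k) L.s1
    · obtain ⟨k, -, e'⟩ := mK.1 k
      have c := L.cz' k.2
      rw [show k.1 = m.2 * m.2 by simpa [e, j0] using congrArg Prod.snd e', show m.2 * m.2 * z * (m.2 * m.2)⁻¹ =
        m.2 * (m.2 * z * m.2⁻¹) * m.2⁻¹ by group, mz.2, ms.2, mul_eq_right] at c
      exact absurd (Subtype.ext c) L.s1
  · rw [← j0]
    rcases (L.B c).1 h with e | e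
    · exact KN c (mem_cent1.2 (mul_inv_eq_iff_eq_mul.1 e))
    · have := mul_mem qNt (KN (q⁻¹ * c) (mem_cent1.2 (mul_inv_eq_iff_eq_mul.1 (by
        rw [show q⁻¹ * c * s * (q⁻¹ * c)⁻¹ = q⁻¹ * (c * s * c⁻¹) * q by group, e, ← qs]; group))))
      rwa [← map_mul, mul_inv_cancel_left] at this

theorem adj {A : Type*} [Group A] {ρ : Gc →* A} {t₀ : A} (ht : ∀ k ∈ C[s], ρ (κ k) = t₀ * ρ k * t₀⁻¹)
    (t2 : t₀ * t₀ = 1 ∨ t₀ * t₀ = ρ s) : ∃ t₀ : A, (∀ k ∈ C[s], ρ (κ k) = t₀ * ρ k * t₀⁻¹) ∧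
      ∃ k ∈ C[s], ρ k = t₀ * t₀ ∧ k.1 = p * p := by
  have tz : t₀ * ρ z * t₀⁻¹ = ρ s * ρ z := by rw [← ht z (mem_cent1.2 L.zs.symm), W.κz, map_mul]
  have h2 : t₀ * ρ z * (t₀ * ρ z) = ρ s * (t₀ * t₀) := by
    have c : ρ z * (t₀ * t₀) = t₀ * t₀ * ρ z := by
      rcases t2 with e | e <;> rw [e]
      exacts [by simp, by rw [← map_mul, ← L.zs, map_mul]]
    rw [show t₀ * ρ z * (t₀ * ρ z) = t₀ * ρ z * t₀⁻¹ * (t₀ * t₀ * ρ z) by group, tz, ← c, mul_assoc, ← mul_assoc (ρ z),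
      ← map_mul, L.E.zz, map_one, one_mul]
  have h3 : ∀ k ∈ C[s], ρ (κ k) = t₀ * ρ z * ρ k * (t₀ * ρ z)⁻¹ := fun k h => by
    rw [ht k h, mul_assoc t₀ (ρ z), ← map_mul, ← mem_cent1.1 (L.cz k), map_mul]; group
  rcases W.pp with e | e <;> rcases t2 with e' | e'
  · exact ⟨_, ht, 1, one_mem _, by simp [e'], e.symm⟩
  · exact ⟨_, h3, 1, one_mem _, by rw [h2, e', ← map_mul, L.s2], e.symm⟩
  · exact ⟨_, h3, s, mem_cent1_self s, by rw [h2, e', mul_one], e.symm⟩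
  · exact ⟨_, ht, s, mem_cent1_self s, e'.symm, e.symm⟩

variable {ρ : Gc →* Mon} (r : Rh (pCore 2 Gc) (Pd (pCore 2 Gc) s δ) z s ρ)
include r

omit L W in
theorem k0 (a : Mon) : a ∈ C[zM] ⊓ C[ρ s] ↔ ∃ k ∈ C[s], ρ k = a := ⟨fun h => by
    obtain ⟨k, rfl⟩ := (r.sur a).1 h.1
    exact ⟨k, mem_cent1.2 (r.inj (by rw [map_mul, map_mul]; exact mem_cent1.1 h.2)), rfl⟩,
  fun ⟨k, h, e⟩ => ⟨(r.sur a).2 ⟨k, e⟩, mem_cent1.2 (by rw [← e, ← map_mul, mem_cent1.1 h, map_mul])⟩⟩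

theorem tee (ex : EX) (hP : ∀ y ∈ Pd (pCore 2 Gc) s δ, y ∈ C[s] → κ y = y ∨ κ y = y * s) :
    (∃ t₀, (∀ k ∈ C[s], ρ (κ k) = t₀ * ρ k * t₀⁻¹) ∧ (t₀ * t₀ = 1 ∨ t₀ * t₀ = ρ s)) ∧
      ∀ y, (∀ k ∈ C[s], y * ρ k * y⁻¹ = ρ k) → V4 (ρ z) (ρ s) y := by
  have iv := leftInverse_invFun r.inj
  have E0 := (mgM.conj r.nb.2.1).es
  obtain ⟨⟨t₀, tQ, ht⟩, cV⟩ := ex Mon zM (ρ s) (fun a => ρ (κ (invFun ρ a))) mgM r.nb.2.1 r.nb.2.2.1 r.nb.2.2.2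
    ⟨fun a h => by obtain ⟨k, hk, rfl⟩ := (k0 r a).1 h; exact (k0 r _).2 ⟨_, by rw [iv]; exact W.κ1 k hk, rfl⟩,
      fun a h b h' => by
        obtain ⟨k, hk, rfl⟩ := (k0 r a).1 h
        obtain ⟨k', hk', rfl⟩ := (k0 r b).1 h'
        rw [← map_mul, iv, iv, iv, ← map_mul]
        exact congrArg ρ (Subtype.ext (by
          rw [coe_mul, W.κ2 _ (mul_mem hk hk'), W.κ2 _ hk, W.κ2 _ hk', conj_mul, coe_mul])),
      fun a h e => by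
        obtain ⟨k, hk, rfl⟩ := (k0 r a).1 h
        rw [iv, map_eq_one_iff _ r.inj] at e
        have := W.κ2 k hk
        rw [e, eq_comm, coe_one, conj_eq_one_iff] at this
        rw [show k = 1 from Subtype.ext this, map_one]⟩
    (by rw [← r.z, iv, ← map_mul, W.κz]) fun a h => by
      obtain ⟨y, rfl⟩ := (r.sur a).1 h.2
      rw [iv, ← map_mul]
      exact (hP y ((r.P y).1 h.1) (mem_cent1.2 (r.inj (by rw [map_mul, map_mul]; exact E0.cent _ h.1)))).imp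
        (congrArg ρ) (congrArg ρ)
  refine ⟨⟨t₀, fun k h => by simpa only [iv k] using ht _ ((k0 r _).2 ⟨k, h, rfl⟩), E0.sq _ tQ⟩, fun y h => ?_⟩
  rw [r.z]
  exact cV y (mem_centralizer_iff.2 fun a ha => by
    obtain ⟨k, hk, rfl⟩ := (k0 r a).1 ha
    exact (mul_inv_eq_iff_eq_mul.1 (h k hk)).symm)

omit W in
theorem ga (ex : EX) : ∃ Ct Nt t, GA Gc Gn ((pCore 2 Gc).map Gc.subtype) z (s * z) (ρ s * zM) Ct Nt t := by
  obtain ⟨q, p, κ, W, hP⟩ := L.qp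
  obtain ⟨⟨t₀, ht, t2⟩, cV⟩ := L.tee W r ex hP
  obtain ⟨t₀, ht, tt⟩ := L.adj W ht t2
  obtain ⟨Nt, n2, n3, BN, tN, nK⟩ := L.nt W r.inj ht tt cV
  have zK : z ∈ C[s] := mem_cent1.2 L.zs.symm
  have tz : t₀ * zM * t₀⁻¹ = ρ s * zM := by rw [← r.z, ← ht z zK, W.κz, map_mul]
  have pz : p * z * p⁻¹ = s * z := by rw [← W.κ2 z zK, W.κz, coe_mul]
  have mC : ∀ {x}, x ∈ (ρ.prod Gc.subtype).range ↔ ∃ c : Gc, (ρ c, c.1) = x := Iff.rfl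
  refine ⟨(ρ.prod Gc.subtype).range, Nt, (t₀, p), mul_mem r.nb.2.2.1 mgM.es.zQ, isConj_iff.2 ⟨t₀, tz⟩,
    fun e => (mgM.conj r.nb.2.1).es.z1 (mul_eq_right.1 e), ?_, ?_, ?_, ?_, n2,
    le_antisymm (fun _ ⟨_, h, e⟩ => e ▸ n3 _ h) (btw Nat.prime_three L.idx (fun c h => ⟨_, BN ⟨c, h.1⟩ h.2, rfl⟩)
      ⟨_, tN, rfl⟩ W.pN fun h => L.s1 (Subtype.ext (mul_eq_right.1 (pz.symm.trans (L.cz' h))))),
    fun x h e => ⟨⟨_, e⟩, mul_inv_eq_one.1 (n2 _ (mul_mem (BN ⟨_, e⟩ (n3 _ h)) (inv_mem h)) (mul_inv_cancel x.2))⟩,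
    by rintro _ ⟨c, rfl⟩ h; exact BN c h, L.nz, ⟨z, Prod.ext r.z rfl⟩,
    ⟨s * z, Prod.ext ((map_mul ρ s z).trans (r.z ▸ rfl)) rfl⟩, map_subtype_le _, ?_, ?_, tN, Prod.ext tz pz, ?_⟩
  · rintro _ ⟨c, rfl⟩ e; rw [(map_eq_one_iff _ r.inj).1 e, map_one]
  · rintro _ ⟨c, rfl⟩ e; rw [show c = 1 from Subtype.ext e, map_one]
  · ext a; rw [r.sur]
    exact ⟨fun ⟨_, ⟨c, h⟩, e⟩ => ⟨c, by rw [← e, ← h]; rfl⟩, fun ⟨c, e⟩ => ⟨_, ⟨c, rfl⟩, e⟩⟩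
  · ext a
    exact ⟨fun ⟨_, ⟨c, h⟩, e⟩ => by rw [← e, ← h]; exact c.2, fun h => ⟨_, ⟨⟨a, h⟩, rfl⟩, rfl⟩⟩
  · rintro _ ⟨c, rfl⟩
    exact (r.Q c).trans ⟨mem_map_of_mem _, fun ⟨_, h, e⟩ => Subtype.ext e ▸ h⟩
  · rintro n h _ ⟨c, rfl⟩ e
    refine map_le_range _ _ (conj_mem_of_norm (nK h) (mem_map_of_mem _ (mem_cent1.2 (r.inj ?_))))
    have a : ρ c * (ρ s * zM) = ρ s * zM * ρ c := mem_cent1.1 e
    have b := mem_cent1.1 ((r.sur _).2 ⟨c, rfl⟩)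
    rw [map_mul, map_mul]
    exact mul_right_cancel (b := zM) (by rw [mul_assoc, a, mul_assoc, mul_assoc, b])
  · refine Prod.ext (show t₀ * (ρ s * zM) * t₀⁻¹ = zM from ?_) (show p * (s * z) * p⁻¹ = z from ?_)
    · rw [← conj_mul, tz, ← ht s (mem_cent1_self s), W.κs, ← mul_assoc, ← map_mul, L.s2, map_one, one_mul]
    · rw [← conj_mul, pz, ← W.κ2 s (mem_cent1_self s), W.κs, ← mul_assoc, ← coe_mul, L.s2, coe_one, one_mul]

end Lc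
end

end H7.AM
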