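import Cfsg.Agent.H7.AM2
import Cfsg.Agent.H0.U.E

/-! The Monster from the amalgam `C, N, L` (S5586): the local data, and the reduction to coverings. -/

set_option autoImplicit false
set_option linter.unusedSectionVars false

namespace H7.AM
open Cfsg H15 H19 H0 H0.Mo H0.Y Subgroup Function
open H14.Mn (Mon zM)

universe u
variable {G : Type u} [Group G] {Gc Gn Gl : Subgroup G}

theorem fin_ext {H : Type*} [Group H] (Q : Subgroup H) [Finite Q] [Finite (H ⧸ Q)] : Finite H :=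
  Finite.of_equiv _ (Subgroup.groupEquivQuotientProdSubgroup (s := Q)).symm

theorem fin_rel {A B : Subgroup G} [Finite A] (h : A.relIndex B ≠ 0) : Finite B := by
  have : Finite (A.subgroupOf B) := Finite.of_injective (fun x : A.subgroupOf B => (⟨x.1.1, x.2⟩ : A))
    fun _ _ k => Subtype.ext (Subtype.ext (congrArg Subtype.val k :))
  have : Finite (B ⧸ A.subgroupOf B) := Nat.finite_of_card_ne_zero h
  exact fin_ext (A.subgroupOf B)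

theorem mt0 (hQ : IsExtraspecial 2 ((pCore 2 Gc).map Gc.subtype)) (hc : #((pCore 2 Gc).map Gc.subtype) = 2 ^ 25)
    (hcc : Gc ⊓ C((pCore 2 Gc).map Gc.subtype) ≤ (pCore 2 Gc).map Gc.subtype) (hCo : Spor.IsoCo1 (Gc ⧸ pCore 2 Gc)) :
    Finite Gc ∧ ∃ (z : Gc) (f : _) (R : _), MT (pCore 2 Gc) z f R ∧ ∀ x, x ∈ C[z] := by
  obtain ⟨e⟩ := hCo
  have : Finite ((pCore 2 Gc).map Gc.subtype) := Nat.finite_of_card_ne_zero (by rw [hc]; norm_num)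
  rw [card_map_of_injective Gc.subtype_injective] at hc
  have : Finite (pCore 2 Gc) := Nat.finite_of_card_ne_zero (by rw [hc]; norm_num)
  have := Finite.of_equiv _ e.symm.toEquiv
  have := fin_ext (pCore 2 Gc)
  obtain ⟨z, E⟩ := exists_ES_top hQ
  have E := E.map (inclusion (map_subtype_le _)) fun x _ h => inclusion_injective _ (h.trans (map_one _).symm)
  rw [show (⊤ : Subgroup _).map (inclusion (map_subtype_le (pCore 2 Gc))) = pCore 2 Gc from le_antisymm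
    (by rintro _ ⟨⟨_, x, h, rfl⟩, -, rfl⟩; exact h) fun x h => ⟨⟨_, x, h, rfl⟩, trivial, rfl⟩] at E
  generalize inclusion _ z = z at E
  have cz : ∀ x, x ∈ C[z] := fun x => E.norm_le (by rw [normalizer_eq_top]; trivial)
  obtain ⟨R, M⟩ := U.mt_of (f := e.toMonoidHom.comp ((QuotientGroup.mk' _).comp C[z].subtype))
    ⟨E, fun x h => by
      obtain ⟨y, a, b⟩ := hcc ⟨x.2, by rintro _ ⟨y, k, rfl⟩; exact congrArg Subtype.val (h y k)⟩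
      exact Subtype.ext b ▸ a, by rw [normalizer_eq_top]; exact le_top⟩ hc
    (e.surjective.comp ((QuotientGroup.mk'_surjective _).comp fun x => ⟨⟨x, cz x⟩, rfl⟩))
    fun h => by simp [QuotientGroup.eq_one_iff]
  exact ⟨this, z, _, R, M, cz⟩

open Classical in
/-- conjugation by `d`, where it is defined -/
noncomputable def dl (Gc : Subgroup G) (d : G) (x : Gc) : Gc := if h : d * x * d⁻¹ ∈ Gc then ⟨_, h⟩ else 1

theorem nrm_of {A B : Subgroup G} (h : B ≤ N(A)) : B.subgroupOf Gc ≤ N(A.subgroupOf Gc) := fun _ k =>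
  mem_normalizer_iff.2 fun x => mem_normalizer_iff.1 (h k) x

section
variable {K R : Subgroup G} {d : G} (h : NS Gc Gn K R d)
include h

theorem NS.dl {x : Gc} (m : x.1 ∈ K) : (dl Gc d x).1 = d * x * d⁻¹ := by
  rw [AM.dl, dif_pos (show _ ∈ Gc from (h.KB (conj_mem_of_norm (h.nK h.dN) m)).1)]

theorem NS.xx : XX (R.subgroupOf Gc) (AM.dl Gc d) = (XX R (cn d)).subgroupOf Gc := by
  have e : (XX (R.subgroupOf Gc) (AM.dl Gc d)).map Gc.subtype = XX R (cn d) := by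
    rw [XX, MonoidHom.map_closure]
    congr 1; ext y
    exact ⟨by rintro ⟨_, ⟨r, m, rfl⟩, rfl⟩; exact ⟨r, m, by simp [h.dl (h.RK m)]⟩,
      by rintro ⟨r, m, rfl⟩; exact ⟨_, ⟨⟨r, (h.KB (h.RK m)).1⟩, m, rfl⟩, by simp [h.dl (x := ⟨r, _⟩) (h.RK m)]⟩⟩
  rw [← e]; exact (comap_map_eq_self_of_injective Gc.subtype_injective _).symm

theorem NS.hs {z : Gc} (cz : ∀ x, x ∈ C[z]) :
    HS z (Gn.subgroupOf Gc) (K.subgroupOf Gc) (R.subgroupOf Gc) (AM.dl Gc d) := by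
  have m : ∀ x ∈ K.subgroupOf Gc, AM.dl Gc d x ∈ K.subgroupOf Gc := fun x k =>
    mem_subgroupOf.2 (h.dl k ▸ conj_mem_of_norm (h.nK h.dN) k)
  obtain ⟨π, s, k⟩ := h.pi
  have l := h.KB.trans inf_le_left
  refine ⟨fun x _ => cz x, fun x k => (h.KB k).2, nrm_of h.nK, ?_, fun x k => h.RK k, nrm_of h.nR,
    h.pR.comap_subtype, ⟨π.comp (subgroupOfEquivOfLe l).toMonoidHom, s.comp (subgroupOfEquivOfLe l).surjective,
      fun x => k _⟩, ⟨m, fun x a y b => Subtype.ext (by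
        rw [coe_mul, h.dl a, h.dl b, h.dl (x := x * y) (mul_mem a b), conj_mul, coe_mul]), fun x a e => Subtype.ext (by
        have := h.dl a; rwa [e, eq_comm, coe_one, conj_eq_one_iff] at this)⟩, fun x a => Subtype.ext (by
      rw [h.dl (m _ (m _ a)), h.dl (m _ a), h.dl a, show d * (d * (d * x * d⁻¹) * d⁻¹) * d⁻¹ = d ^ 3 * x * (d ^ 3)⁻¹ by
        simp [pow_succ, mul_assoc], h.d3]; simp),
    fun x a => mem_subgroupOf.2 (by rw [coe_mul, h.dl a]; exact h.dK _ a), h.xx ▸ nrm_of h.nX⟩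
  rw [← inf_subgroupOf_left Gn, relIndex_subgroupOf inf_le_left, h.idx]

end

theorem loc (n0 : N0.{u}) (l0 : L0.{u}) (ld : LD.{u}) (cp : CP.{u}) (b1 : B1.{u}) (s1 : S1.{u}) (s2 : S2.{u})
    (t1 : T1.{u}) [Finite Gc] {z : Gc} {f : C[z] →* Spor.Co1} {R : Gc → Lam → Prop} (M : MT (pCore 2 Gc) z f R)
    (cz : ∀ x, x ∈ C[z]) (hN : Nonempty (Gn ⧸ pCore 2 Gn ≃* Equiv.Perm (Fin 3) × M24))
    (hL : ∃ A B : Subgroup (Gl ⧸ pCore 2 Gl), A.Normal ∧ B.Normal ∧ A ⊓ B = ⊥ ∧ A ⊔ B = ⊤ ∧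
      Nonempty (A ≃* SL3) ∧ Nat.card B = 2160 ∧
      ∃ (T : Subgroup B) (_ : T.Normal), Nat.card T = 3 ∧ Nonempty (B ⧸ T ≃* Equiv.Perm (Fin 6)) ∧
        (centralizer (T : Set B)).index = 2)
    (h1 : Gc.relIndex Gn = 3) (h2 : Gn.relIndex Gl = 7) (h3 : Gc.relIndex Gl = 7) (h4 : (Gn ⊓ Gc).relIndex Gl = 21) :
    ∃ s d δ f R T, Lc Gc Gn z s d δ ∧ Tri (pCore 2 Gc) z s f R δ ∧ d ∈ Gl ∧ Ts Gc Gn Gl T := by
  have : Finite Gl := fin_rel (A := Gc) (by omega)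
  obtain ⟨K, R', ρ, n, ns⟩ := n0 G Gc Gn ‹_› hN h1
  obtain ⟨lam, l⟩ := l0 Gl hL
  obtain ⟨⟨d, dL, d3, d1, d2, nz⟩, T, ts⟩ := ld G Gc Gn Gl K R' ρ lam ‹_› n l h1 h2 h3 h4
  have h := ns d d3 d1 d2
  have H := h.hs cz
  obtain ⟨xR, g, gK, tw⟩ := cp _ _ _ _ _ _ H
  have nQ : ¬ XX (R'.subgroupOf Gc) (dl Gc d) ≤ pCore 2 Gc := fun l => nz z (Subtype.ext_iff.1 M.le.es.zz)
    (fun c k => Subtype.ext_iff.1 (mem_cent1.1 (cz ⟨c, k.1⟩))) fun x k => by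
      have xC : x ∈ Gc := (h.KB (h.RK ((closure_le _).2 (by rintro _ ⟨r, m, rfl⟩; exact h.dK r (h.RK m)) k))).1
      have k : (⟨x, xC⟩ : Gc) ∈ XX (R'.subgroupOf Gc) (dl Gc d) := h.xx ▸ k
      rcases b1 _ _ _ _ _ _ _ _ M (cz g) tw l with e | ⟨a, b⟩
      · rw [e, mem_bot] at k; exact .inl (congrArg Subtype.val k)
      · have a := H.RK (xR a)
        exact (b _ k).imp Subtype.ext_iff.1 (.imp Subtype.ext_iff.1 (.imp
          (fun e => (Subtype.ext_iff.1 e).trans (h.dl a)) fun e => (Subtype.ext_iff.1 e).trans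
            ((h.dl (H.au.mem _ a)).trans (by rw [h.dl a]))))
  obtain ⟨f, R, M, i1, i2, i3, i4⟩ := s1 _ _ _ _ _ _ _ _ _ M H nQ
  obtain ⟨tr, QB, eK⟩ := s2 _ _ _ _ _ _ _ _ _ M H i1 i2 i3 i4
  have tf := t1 _ _ _ _ _ _ _ tr
  have ds := tr.ds
  have rs := tr.rs
  generalize hs : dl Gc d z = s at *
  have eK : K.subgroupOf Gc = C[s] := eK.trans (inf_of_le_right fun x _ => cz x)
  have nE := nz_of (v := lE) (norm_e8 _) (by norm_num)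
  have k := fun m => nE ((M.rk rs).1 m)
  refine ⟨s, d, _, f, R, T, ⟨M.le.es, cz, M.mem rs, sq4 M rs, fun e => k (e ▸ one_mem _), fun e => k (e ▸ mem_zpowers _),
    h1, h.dN, h.dC, fun x m => h.dl (eK.ge m), hs, ds, tf.mem, fun c => ?_, ?_⟩, tr, dL, ts⟩
  · obtain ⟨g, a⟩ := A.tot (f := f) (cz c)
    rw [show _ ∨ _ ↔ g ∈ NN from ((M.uniq rs (M.act a rs)).symm.trans ⟨.symm, .symm⟩).trans stab_E, ← i4, mem_img]
    exact ⟨fun m => ⟨c, m, a⟩, fun ⟨b, m, e⟩ => by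
      simpa [mem_subgroupOf] using mul_mem (QB ((M.aker (a.mul e.inv)).2 (by simp))) m⟩
  · rw [← eK, map_subgroupOf_eq_of_le (h.KB.trans inf_le_left)]; exact h.nK

namespace Lc
variable {z s : Gc} {d : G} {δ : Gc → Gc} (L : Lc Gc Gn z s d δ)
include L

theorem pl (lo : LO.{u}) [Finite Gc] (dL : d ∈ Gl) {T : Subgroup G} (ts : Ts Gc Gn Gl T) (h2 : Gn.relIndex Gl = 7)
    (h3 : Gc.relIndex Gl = 7) (h4 : (Gn ⊓ Gc).relIndex Gl = 21) :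
    ∃ e, Pl Gc Gn Gl ((pCore 2 Gc).map Gc.subtype) T z (s * z) e := by
  have zz : z.1 * z = 1 := congrArg Subtype.val L.E.zz
  have ss : s.1 * s = 1 := congrArg Subtype.val L.s2
  have zs : s.1 * z = z * s := congrArg Subtype.val L.zs
  have wz : s.1 * z * z = s := by rw [mul_assoc, zz, mul_one]
  have s1 : s.1 ≠ 1 := fun e => L.s1 (Subtype.ext e)
  have sz : s.1 ≠ z := fun e => L.sz (Subtype.ext e)
  have z1 : z.1 ≠ 1 := fun e => L.E.z1 (Subtype.ext e)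
  have B : ∀ c ∈ Gc, c ∈ Gn ↔ c * s * c⁻¹ = s ∨ c * s * c⁻¹ = s * z := fun c h =>
    (L.B ⟨c, h⟩).trans (or_congr Subtype.ext_iff Subtype.ext_iff)
  have w1 : s.1 * z ≠ 1 := fun e => sz (by rw [← wz, e, one_mul])
  have m4 := fun x => mem_four (x := x) zz ss zs.symm
  have mU : ∀ x, x ∈ zpowers z.1 ⊔ zpowers s.1 ↔ V4 z.1 (s * z) x := fun x => by rw [V4, wz, m4, ← zs]; tauto
  have : Finite (zpowers z.1 ⊔ zpowers s.1 : Subgroup G) :=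
    (Set.toFinite {1, z.1, s.1, z.1 * s}).subset fun x h => (m4 x).1 h
  have n4 : ∀ n, V4 z.1 (s * z) (n * z * n⁻¹) → V4 z.1 (s * z) (n * s * n⁻¹) → n ∈ N(zpowers z.1 ⊔ zpowers s.1) :=
    fun n a b => mem_normalizer_fintype fun x h => by
      rcases (m4 x).1 h with rfl | rfl | rfl | rfl
      exacts [by simp, (mU _).2 a, (mU _).2 b, by rw [← conj_mul]; exact mul_mem ((mU _).2 a) ((mU _).2 b)]
  have nU := btw Nat.prime_three L.idx (fun c h => n4 c (by simp [V4, L.cz' h.1])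
    (by rcases (B c h.1).1 h.2 with e | e <;> simp [V4, e, wz])) (n4 d (by simp [V4, L.dz', wz]) (by simp [V4, L.ds']))
    L.dN L.dC
  refine lo G Gc Gn Gl _ T z (s * z) ‹_› (L.E.map Gc.subtype fun x _ h => Subtype.ext h)
    (fun c h => mem_cent1.2 (mul_inv_eq_iff_eq_mul.1 (L.cz' h))) ?_ ⟨s * z, mul_mem L.sQ L.E.zQ, rfl⟩
    (by rw [mul_assoc, ← mul_assoc z.1, ← zs, wz, ss]) ⟨d, dL, .inr ⟨by rw [wz, L.dz'], L.dw⟩⟩ (fun c h => ?_)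
    (fun n h => ⟨(mU _).1 (conj_mem_of_norm (nU h) ((mU _).2 (by simp [V4]))),
      (mU _).1 (conj_mem_of_norm (nU h) ((mU _).2 (by simp [V4])))⟩) w1 (by simpa using s1) ts h2 h3 h4
  · simpa [normalizer_eq_top, ← MonoidHom.range_eq_map] using le_normalizer_map (H := pCore 2 Gc) Gc.subtype
  · have k : ∀ a b : G, a * z = b ↔ a = b * z := fun a b => by
      rw [← eq_mul_inv_iff_mul_eq, inv_eq_of_mul_eq_one_right zz]
    rw [B c h, V4, ← conj_mul, L.cz' h, wz, k, k, k, k, wz, zz, one_mul, conj_eq_one_iff]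
    refine ⟨fun k => .inr (.inr k), fun k => (k.resolve_left fun e => sz ?_).resolve_left s1⟩
    rw [← L.cz' h] at e
    simpa using e

end Lc

/-- the result of lifting the `Y₅₅₃` presentation -/
def YM : Prop := ∀ (Γ : Type u) [Group Γ] (φ : Γ →* Mon) (P : Type u) [MulAction Γ P] (pr : P → Mon)
  (ad : P → P → Prop), Cv φ pr ad → Sk φ pr (Sp pr ad) →
  ∃ (ψ : Mon →* Γ) (p q : P), (∀ m, φ (ψ m) = m) ∧ Sp pr ad p q ∧ Full ψ pr p ∧ Full ψ pr q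

namespace GA
variable {Q : Subgroup G} {z w : G} {w₀ : Mon} {Ct Nt : Subgroup (Mon × G)} {t : Mon × G}
  (A : GA Gc Gn Q z w w₀ Ct Nt t)
include A

theorem fx {n : Mon × G} (h : n ∈ Nt) (e : n * (zM, z) * n⁻¹ = (zM, z)) : n ∈ Ct :=
  A.nc n h (A.nz _ (A.nm2 ▸ mem_map_of_mem _ h) (congrArg Prod.snd e))

theorem ext {x y : Mon × G} (a : x ∈ Ct) (b : y ∈ Ct) (e : x.1 = y.1) : x = y :=
  mul_inv_eq_one.1 (A.c1 _ (mul_mem a (inv_mem b)) (by simp [e]))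

theorem line (QN : Q ≤ Gn) :
    ∃ c ∈ Ct, c.1 * w₀ * c.1⁻¹ = w₀ * zM ∧ ∃ c₁ ∈ Ct, ∃ c₂ ∈ Ct, t⁻¹ * c * t = c₁ * t * c₂ := by
  have E := mgM.es
  obtain ⟨q, qQ, e⟩ := E.exists_conj A.wQ fun h => (E.mem_zp.1 h).elim (mgM.conj A.wc).es.z1 A.wn
  obtain ⟨c, m, rfl⟩ : q ∈ Ct.map (MonoidHom.fst Mon G) := A.cm1 ▸ mem_cent1.2 (E.cent _ qQ)
  have cN := A.cn c m (QN ((A.cQ c m).1 qQ))
  have cw : c * (w₀, w) * c⁻¹ = (w₀, w) * (zM, z) := A.ext (mul_mem (mul_mem m A.ww) (inv_mem m)) (mul_mem A.ww A.zz) e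
  have wz : (zM, z) * (w₀, w) = (w₀, w) * (zM, z) := A.ext (mul_mem A.zz A.ww) (mul_mem A.ww A.zz) (E.cent _ A.wQ).symm
  refine ⟨c, m, e, c, m, (c * t)⁻¹ * (t⁻¹ * c * t), A.fx (mul_mem (inv_mem (mul_mem cN A.tN))
    (mul_mem (mul_mem (inv_mem A.tN) cN) A.tN)) ?_, by group⟩
  have k : t⁻¹ * ((w₀, w) * (zM, z)) * t = (w₀, w) * (zM, z) := by
    have : t * ((w₀, w) * (zM, z)) * t⁻¹ = (w₀, w) * (zM, z) := by rw [← conj_mul, A.tw, A.tz, wz]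
    conv_lhs => rw [← this]
    group
  rw [show ∀ x, (c * t)⁻¹ * (t⁻¹ * c * t) * x * ((c * t)⁻¹ * (t⁻¹ * c * t))⁻¹ =
    (c * t)⁻¹ * (t⁻¹ * (c * (t * x * t⁻¹) * c⁻¹) * t) * (c * t) from fun x => by group, A.tz, cw, k, ← cw, ← A.tz]
  group

theorem iso (cv : CV.{u}) (sk : SK.{u}) (ym : YM.{u}) (fn : FN.{u}) (QN : Q ≤ Gn)
    (pl : ∃ c ∈ Ct, c.1 * w₀ * c.1⁻¹ ∈ Qo w₀ ∧ ¬ V4 zM w₀ (c.1 * w₀ * c.1⁻¹) ∧
      ∃ c₁ ∈ Ct, ∃ c₂ ∈ Ct, t⁻¹ * c * t = c₁ * t * c₂) (h1 : Gc.relIndex Gn = 3) (h3 : Gc.relIndex Gl = 7) {d : G}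
    (dN : d ∈ Gn) (dL : d ∈ Gl) (dC : d ∉ Gc) (gen : Gc ⊔ Gn ⊔ Gl = ⊤) (z1 : z ≠ 1) : Nonempty (G ≃* Mon) := by
  let Γ := closure (insert t (Ct : Set (Mon × G)))
  have tΓ : t ∈ Γ := subset_closure (.inl rfl)
  have CΓ : Ct ≤ Γ := fun x h => subset_closure (.inr h)
  obtain ⟨c, m, e, c₁, m₁, c₂, m₂, e'⟩ := A.line QN
  obtain ⟨b, n, f, f', b₁, n₁, b₂, n₂, f''⟩ := pl
  obtain ⟨P, _, pr, ad, V⟩ := cv Γ ((MonoidHom.fst Mon G).comp Γ.subtype) (Ct.subgroupOf Γ) ⟨t, tΓ⟩ w₀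
    ⟨A.wQ, A.wc, A.wn, fun c h e => Subtype.ext (A.c1 _ h e), by rw [← map_map, map_subgroupOf_eq_of_le CΓ, A.cm1],
      congrArg Prod.fst A.tz, A.fx (n := t * t) (mul_mem A.tN A.tN) (by
        rw [show ∀ x, t * t * x * (t * t)⁻¹ = t * (t * x * t⁻¹) * t⁻¹ from fun x => by group, A.tz, A.tw]),
      fun c h e => A.nK t A.tN c h e, by
        convert closure_closure_coe_preimage (k := insert t (Ct : Set (Mon × G))) using 2
        ext x; simp [Subtype.ext_iff, mem_subgroupOf],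
      ⟨⟨c, CΓ m⟩, m, e, ⟨c₁, CΓ m₁⟩, m₁, ⟨c₂, CΓ m₂⟩, m₂, Subtype.ext e'⟩,
      ⟨⟨b, CΓ n⟩, n, f, f', ⟨b₁, CΓ n₁⟩, n₁, ⟨b₂, CΓ n₂⟩, n₂, Subtype.ext f''⟩⟩
  obtain ⟨ψ, p, q, s, a1, a2, a3⟩ := ym _ _ _ _ _ V (sk _ _ _ _ _ V)
  have inj := fn _ _ _ _ _ _ _ _ V s a1 a2 a3
  let θ := ((MonoidHom.snd Mon G).comp Γ.subtype).comp ψ
  have k : ∀ x ∈ Γ, x.2 ∈ θ.range := fun x h => ⟨x.1, congrArg (fun y : Γ => y.1.2) (inj (s x.1) : ψ x.1 = ⟨x, h⟩)⟩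
  have kC : Gc ≤ θ.range := A.cm2 ▸ fun _ ⟨x, h, e⟩ => e ▸ k x (CΓ h)
  have kN := btw Nat.prime_three h1 (inf_le_left.trans kC) (k t tΓ) (A.nm2 ▸ mem_map_of_mem _ A.tN) fun h => A.wn (by
    have := mem_cent1.1 (A.cm1 ▸ mem_map_of_mem (MonoidHom.fst Mon G) (A.nc t A.tN h))
    exact (congrArg Prod.fst A.tz).symm.trans (mul_inv_eq_iff_eq_mul.2 this))
  have sur : Surjective θ := MonoidHom.range_eq_top.1 (top_le_iff.1 (gen ▸ sup_le (sup_le kC kN)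
    (btw Nat.prime_seven h3 (inf_le_left.trans kC) (kN dN) dL dC)))
  have := H14.Mn.simple_Mon
  refine ⟨(MulEquiv.ofBijective θ ⟨θ.ker_eq_bot_iff.1 ((IsSimpleGroup.eq_bot_or_eq_top_of_normal _ θ.normal_ker).resolve_right
    fun e => z1 ?_), sur⟩).symm⟩
  obtain ⟨x, rfl⟩ := sur z
  exact (e ▸ mem_top x : x ∈ θ.ker)

end GA

theorem main (n0 : N0.{u}) (l0 : L0.{u}) (ld : LD.{u}) (lo : LO.{u}) (cp : CP.{u}) (b1 : B1.{u}) (s1 : S1.{u})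
    (s2 : S2.{u}) (t1 : T1.{u}) (t0 : T0) (pb : PB.{u}) (nc : NC.{u}) (sl : SL.{u}) (ch : CH.{u}) (ex : EX)
    (lt : LT.{u}) (cv : CV.{u}) (sk : SK.{u}) (ym : YM.{u}) (fn : FN.{u}) (gen : Gc ⊔ Gn ⊔ Gl = ⊤)
    (hQ : IsExtraspecial 2 ((pCore 2 Gc).map Gc.subtype)) (hc : #((pCore 2 Gc).map Gc.subtype) = 2 ^ 25)
    (hcc : Gc ⊓ C((pCore 2 Gc).map Gc.subtype) ≤ (pCore 2 Gc).map Gc.subtype) (hCo : Spor.IsoCo1 (Gc ⧸ pCore 2 Gc))
    (hN : Nonempty (Gn ⧸ pCore 2 Gn ≃* Equiv.Perm (Fin 3) × M24))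
    (hL : ∃ A B : Subgroup (Gl ⧸ pCore 2 Gl), A.Normal ∧ B.Normal ∧ A ⊓ B = ⊥ ∧ A ⊔ B = ⊤ ∧
      Nonempty (A ≃* SL3) ∧ Nat.card B = 2160 ∧
      ∃ (T : Subgroup B) (_ : T.Normal), Nat.card T = 3 ∧ Nonempty (B ⧸ T ≃* Equiv.Perm (Fin 6)) ∧
        (centralizer (T : Set B)).index = 2)
    (h1 : Gc.relIndex Gn = 3) (h2 : Gn.relIndex Gl = 7) (h3 : Gc.relIndex Gl = 7) (h4 : (Gn ⊓ Gc).relIndex Gl = 21) :
    Nonempty (G ≃* Mon) := by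
  obtain ⟨_, z, f, R, M, cz⟩ := mt0 hQ hc hcc hCo
  obtain ⟨s, d, δ, f, R, T, L, tr, dL, ts⟩ := loc n0 l0 ld cp b1 s1 s2 t1 M cz hN hL h1 h2 h3 h4
  obtain ⟨ρ, r⟩ := rho t0 pb nc sl ch tr cz
  obtain ⟨Ct, Nt, t, A⟩ := L.ga r ex
  obtain ⟨e, P⟩ := L.pl lo dL ts h2 h3 h4
  exact A.iso cv sk ym fn L.QB (lt _ _ _ _ _ _ _ _ _ _ _ _ _ A (ts.le.trans inf_le_left) P) h1 h3 L.dN dL L.dC gen
    fun e => L.E.z1 (Subtype.ext e)

end H7.AM
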