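import Cfsg.Agent.H10.Taussky
import Cfsg.Agent.H10.Count

/-! A finite group is bounded by the centralizers of the involutions of a four-subgroup. -/

set_option autoImplicit false
open Subgroup
open scoped commutatorElement

namespace H7

universe u
variable {G : Type*} [Group G] [Finite G]

local notation "cc" s => Nat.card (centralizer ({s} : Set _))

/-- Brauer–Fowler: an element with a small class. -/
theorem exists_small_class {t : G} (ht : orderOf t = 2) :
    ∃ x : G, x ≠ 1 ∧ (centralizer ({x} : Set G)).index ≤ 2 * (cc t) ^ 2 := by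
  classical
  have := Fintype.ofFinite G
  by_contra hno
  push Not at hno
  set c := cc t with hc
  set g := Nat.card G with hg
  set n := Nat.card {t : G // orderOf t = 2} with hn
  have hc0 : 0 < c := Nat.card_pos
  have h4 := H10.card_isConj_mul_card_centralizer t
  have h5 : Nat.card {y : G // IsConj t y} ≤ n :=
    Nat.card_le_card_of_injective (fun y => ⟨y.1, (H10.orderOf_eq_of_isConj y.2).symm.trans ht⟩)
      (fun a b h => Subtype.ext (congrArg Subtype.val h :))
  have h6 := hno t (H10.ne_one_of_orderOf_two ht)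
  rw [← H10.card_isConj_eq_index] at h6
  have h8 : g ≤ n * c := h4.ge.trans (Nat.mul_le_mul_right _ h5)
  have hb : ∀ x : G, 2 * c ^ 2 * H10.pairCount x ≤ g + if x = 1 then 2 * c ^ 2 * n else 0 := by
    intro x
    split_ifs with h1
    · subst h1; rw [H10.pairCount_one, ← hn]; omega
    · have h2 := H10.pairCount_le x
      have h3 := hno x h1
      have h7 := (centralizer ({x} : Set G)).index_mul_card
      nlinarith
  have hs := Finset.sum_le_sum (s := Finset.univ) fun x _ => hb x
  simp only [Finset.sum_add_distrib, ← Finset.mul_sum, H10.sum_pairCount, Finset.sum_ite_eq',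
    Finset.mem_univ, if_true, Finset.sum_const, smul_eq_mul, Finset.card_univ,
    ← Nat.card_eq_fintype_card, ← hg, ← hn] at hs
  have h9 : g * g ≤ (n * c) * (n * c) := Nat.mul_le_mul h8 h8
  have h10 : 2 < n := by nlinarith
  have h11 : c ^ 2 * n * n ≤ c ^ 2 * n * 2 := by nlinarith
  have h12 := Nat.le_of_mul_le_mul_left h11 (by positivity)
  omega

theorem index_normalCore_le (H : Subgroup G) : H.normalCore.index ≤ H.index.factorial := by
  rw [normalCore_eq_ker, index_ker, index, ← Nat.card_perm]
  exact card_le_card_group _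

/-- if the centralizer does not shrink in `G ⧸ N`, the involution inverts `N` -/
theorem inverts_of_card_centralizer_le (N : Subgroup G) [hN : N.Normal] {s : G} (hs : s * s = 1)
    (h : (cc s) ≤ cc (s : G ⧸ N)) {n : G} (hn : n ∈ N) : s * n * s⁻¹ = n⁻¹ := by
  set D := (centralizer ({(s : G ⧸ N)} : Set (G ⧸ N))).comap (QuotientGroup.mk' N) with hD
  have h0 : (fun d => ⁅d, s⁆) '' (D : Set G) ⊆ N := by
    rintro _ ⟨d, hd, rfl⟩
    simp only [hD, SetLike.mem_coe, mem_comap, QuotientGroup.mk'_apply,
      mem_centralizer_singleton_iff] at hd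
    rw [SetLike.mem_coe, ← QuotientGroup.eq_one_iff]
    simp only [commutatorElement_def, QuotientGroup.mk_mul, QuotientGroup.mk_inv]
    rw [hd]; group
  have h1 := H4.relIndex_centralizer_eq D s
  have h2 := H4.card_comap_mk N (centralizer ({(s : G ⧸ N)} : Set (G ⧸ N)))
  have h3 := H4.card_inf_mul_relIndex D (centralizer ({s} : Set G))
  have h4 : Nat.card (D ⊓ centralizer ({s} : Set G) : Subgroup G) ≤ cc s :=
    card_le_of_le inf_le_right
  rw [← hD] at h2
  have h5 : 0 < cc (s : G ⧸ N) := Nat.card_pos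
  have h6 : Nat.card N ≤ (centralizer ({s} : Set G)).relIndex D := by
    refine Nat.le_of_mul_le_mul_right ?_ h5
    rw [← h2, ← h3, mul_comm]
    exact Nat.mul_le_mul_left _ (h4.trans h)
  rw [h1] at h6
  have h7 := Set.eq_of_subset_of_ncard_le h0 h6
  obtain ⟨d, -, hd⟩ : n ∈ (fun d => ⁅d, s⁆) '' (D : Set G) := h7 ▸ hn
  have h8 : s⁻¹ = s := inv_eq_of_mul_eq_one_right hs
  rw [← hd]
  simp only [commutatorElement_def, mul_inv_rev, inv_inv, h8, mul_assoc, hs, mul_one]

theorem card_le_of_sq_eq_one {A : Subgroup G} (h : ∀ a ∈ A, a * a = 1) :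
    Nat.card A ≤ 2 ^ (Nat.card G).factorization 2 := by
  have h1 : IsPGroup 2 A := fun a => ⟨1, Subtype.ext (by simpa [pow_two] using h a a.2)⟩
  obtain ⟨k, hk⟩ := IsPGroup.iff_card.1 h1
  rw [hk]
  exact Nat.pow_le_pow_right two_pos ((Nat.prime_two.pow_dvd_iff_le_factorization
    Nat.card_pos.ne').1 (hk ▸ card_subgroup_dvd_card A))

theorem card_abelian_le {A : Subgroup G} [hA : A.Normal] (hc : ∀ a ∈ A, ∀ b ∈ A, a * b = b * a)
    {s t : G} (hs : s * s = 1) (ht : t * t = 1) (hst : s * t = t * s) :
    Nat.card A ≤ (cc s) * (cc t) * (cc (s * t)) * 2 ^ (Nat.card G).factorization 2 := by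
  have key : ∀ r : G, r * r = 1 → ∃ f : A →* centralizer ({r} : Set G),
      ∀ a : A, (f a : G) = a * (r * a * r⁻¹) := fun r hr => by
    have h8 : r⁻¹ = r := inv_eq_of_mul_eq_one_right hr
    refine ⟨MonoidHom.mk' (fun a => ⟨a * (r * a * r⁻¹), ?_⟩) fun a b => Subtype.ext ?_,
      fun _ => rfl⟩
    · rw [mem_centralizer_singleton_iff]
      calc a * (r * a * r⁻¹) * r = a * r * a := by group
        _ = r * (r * a * r⁻¹ * a) := by rw [h8]; simp only [← mul_assoc, hr, one_mul]
        _ = _ := by rw [hc _ (hA.conj_mem _ a.2 r) a a.2]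
    · have := hc b b.2 _ (hA.conj_mem _ a.2 r)
      simp only [coe_mul]
      calc a * b * (r * (a * b) * r⁻¹) = a * (b * (r * a * r⁻¹)) * (r * b * r⁻¹) := by group
        _ = _ := by rw [this]; group
  have hst2 : s * t * (s * t) = 1 := by
    rw [mul_assoc, ← mul_assoc t, ← hst, mul_assoc, ht, mul_one, hs]
  obtain ⟨f1, h1⟩ := key s hs
  obtain ⟨f2, h2⟩ := key t ht
  obtain ⟨f3, h3⟩ := key _ hst2
  have h4 := ((f1.prod f2).prod f3).ker.card_mul_index
  have h5 : ((f1.prod f2).prod f3).ker.index ≤ (cc s) * (cc t) * (cc (s * t)) := by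
    rw [index_ker, ← Nat.card_prod, ← Nat.card_prod]
    exact card_le_card_group _
  have h6 : Nat.card (((f1.prod f2).prod f3).ker.map A.subtype) ≤ _ :=
    card_le_of_sq_eq_one (by
      rintro _ ⟨a, ha, rfl⟩
      simp only [SetLike.mem_coe, MonoidHom.mem_ker, MonoidHom.prod_apply, Prod.mk_eq_one,
        Subtype.ext_iff, h1, h2, h3, coe_one, mul_eq_one_iff_inv_eq] at ha
      obtain ⟨⟨e1, e2⟩, e3⟩ := ha
      have e4 : (a : G)⁻¹ = a := by
        calc (a : G)⁻¹ = s * (t * a * t⁻¹) * s⁻¹ := by rw [e3]; group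
          _ = (s * a * s⁻¹)⁻¹ := by rw [← e2]; group
          _ = a := by rw [← e1, inv_inv]
      exact mul_eq_one_iff_inv_eq.2 e4)
  rw [card_map_of_injective A.subtype_injective] at h6
  rw [← h4, mul_comm]
  exact Nat.mul_le_mul h5 h6

theorem exists_small_normal {s t : G} (hs : orderOf s = 2) (ht : t * t = 1)
    (hst : s * t = t * s) : ∃ N : Subgroup G, N.Normal ∧ N ≠ ⊥ ∧ Nat.card N ≤
      (2 * (cc s) ^ 2).factorial +
        (cc s) * (cc t) * (cc (s * t)) * 2 ^ (Nat.card G).factorization 2 := by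
  obtain ⟨x, hx1, hx⟩ := exists_small_class hs
  set K := (centralizer ({x} : Set G)).normalCore with hK
  set N := normalClosure ({x} : Set G) with hN
  have hxN : x ∈ N := subset_normalClosure rfl
  have h1 : N ≤ centralizer (K : Set G) := normalClosure_le_normal (by
    rintro _ rfl k hk
    exact (mem_centralizer_singleton_iff.1 (normalCore_le _ hk)))
  by_cases h : K ⊓ N = ⊥
  · refine ⟨N, inferInstance, fun h2 => hx1 (by simpa [h2] using hxN), le_add_right ?_⟩
    have h2 : K.relIndex N = Nat.card N := by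
      rw [← inf_relIndex_right, h, relIndex_bot_left]
    rw [← h2]
    exact (Nat.le_of_dvd (Nat.pos_of_ne_zero index_ne_zero_of_finite)
      (relIndex_dvd_index_of_normal K N)).trans
      ((index_normalCore_le _).trans (Nat.factorial_le hx))
  · exact ⟨K ⊓ N, inferInstance, h, le_add_left (card_abelian_le (A := K ⊓ N)
      (fun a ha b hb => h1 hb.2 a ha.1) (by rw [← pow_two, ← hs, pow_orderOf_eq_one]) ht hst)⟩

theorem four_bound (m : ℕ) : ∃ N : ℕ, ∀ (G : Type u) [Group G] [Finite G] (s t : G), s * s = 1 →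
    t * t = 1 → s * t = t * s →
    (cc s) + (cc t) + (cc (s * t)) + (Nat.card G).factorization 2 ≤ m → Nat.card G ≤ N := by
  induction m with
  | zero =>
    refine ⟨0, fun G _ _ s t _ _ _ h => ?_⟩
    have : 0 < cc s := Nat.card_pos
    omega
  | succ m ih =>
    obtain ⟨N, hN⟩ := ih
    refine ⟨(m + 1) + ((2 * (m + 1) ^ 2).factorial + (m + 1) * (m + 1) * (m + 1) * 2 ^ (m + 1)) * N,
      fun G _ _ s t hs ht hst h => ?_⟩
    by_cases hs1 : s = 1
    · refine le_add_right (le_trans ?_ (show (cc s) ≤ m + 1 by omega))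
      rw [hs1, centralizer_eq_top_iff_subset.2 (by simp), card_top]
    obtain ⟨K, hK, hK1, hK2⟩ := exists_small_normal (H10.orderOf_two_of hs hs1) ht hst
    refine le_add_left ?_
    rw [← K.card_mul_index]
    refine Nat.mul_le_mul (hK2.trans ?_) ?_
    · gcongr <;> omega
    refine hN (G ⧸ K) s t (by rw [← QuotientGroup.mk_mul, hs]; rfl)
      (by rw [← QuotientGroup.mk_mul, ht]; rfl)
      (by rw [← QuotientGroup.mk_mul, hst]; rfl) ?_
    have h1 := H10.card_centralizer_quotient_le K s
    have h2 := H10.card_centralizer_quotient_le K t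
    have h3 := H10.card_centralizer_quotient_le K (s * t)
    have h4 : (Nat.card G).factorization 2 = (Nat.card K).factorization 2 +
        (Nat.card (G ⧸ K)).factorization 2 := by
      rw [← K.card_mul_index, Nat.factorization_mul Nat.card_pos.ne' index_ne_zero_of_finite]
      rfl
    rw [← QuotientGroup.mk_mul]
    by_contra h5
    have hst2 : s * t * (s * t) = 1 := by
      rw [mul_assoc, ← mul_assoc t, ← hst, mul_assoc, ht, mul_one, hs]
    obtain ⟨a, ha, ha1⟩ := (K.bot_or_exists_ne_one).resolve_left hK1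
    have e1 := inverts_of_card_centralizer_le K hs (by omega) ha
    have e2 := inverts_of_card_centralizer_le K ht (by omega) ha
    have e3 := inverts_of_card_centralizer_le K hst2 (by omega) ha
    have e4 : a⁻¹ = a := by
      calc a⁻¹ = s * (t * a * t⁻¹) * s⁻¹ := by rw [← e3]; group
        _ = (s * a * s⁻¹)⁻¹ := by rw [e2]; group
        _ = a := by rw [e1, inv_inv]
    have h6 := H10.even_card_of_mem (H10.orderOf_two_of (mul_eq_one_iff_inv_eq.2 e4) ha1) ha
    have h7 := Nat.Prime.factorization_pos_of_dvd Nat.prime_two Nat.card_pos.ne' h6.two_dvd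
    omega

end H7
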