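import Mathlib.Data.Nat.Choose.Basic
import Mathlib.Data.Nat.Factorial.BigOperators
import Mathlib.Data.Nat.Prime.Basic
import Mathlib.Tactic

set_option autoImplicit false
set_option linter.style.longLine false

namespace H7.Hall
open Nat

/-- no prime at most `b` divides `C` -/
def Rough (b C : ℕ) : Prop := ∀ p, p.Prime → p ≤ b → ¬ p ∣ C

theorem Rough.of_dvd {b C D : ℕ} (h : Rough b D) (hd : C ∣ D) : Rough b C :=
  fun p hp hb hc => h p hp hb (hc.trans hd)

theorem Rough.cop {b C m : ℕ} (h : Rough b C) (hm : ∀ p, p.Prime → p ∣ m → p ≤ b) : m.Coprime C := by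
  apply Nat.Coprime.symm
  apply Nat.coprime_of_dvd
  intro p hp h1 h2
  exact h p hp (hm p hp h2) h1

theorem le_of_np {m b : ℕ} (hm : ¬ m.Prime) (h0 : 0 < m) (hb : m ≤ b + 1) : ∀ p, p.Prime → p ∣ m → p ≤ b := by
  intro p hp hd
  have := Nat.le_of_dvd h0 hd
  rcases Nat.lt_or_ge p m with h | h
  · omega
  · have : p = m := by omega
    subst this; exact absurd hp hm

theorem le_of_np2 {m b : ℕ} (hm : ¬ m.Prime) (h0 : 0 < m) (hb : m ≤ 2 * b + 1) : ∀ p, p.Prime → p ∣ m → p ≤ b := by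
  intro p hp hd
  obtain ⟨k, rfl⟩ := hd
  have hk : 2 ≤ k := by
    rcases k with _ | _ | k
    · omega
    · simp at hm; exact absurd hp hm
    · omega
  have : p * 2 ≤ p * k := Nat.mul_le_mul_left _ hk
  omega

theorem np_of_even {m : ℕ} (h : m % 2 = 0) (h2 : 2 < m) : ¬ m.Prime := fun hp => by
  have := hp.eq_two_or_odd; omega

theorem L1 {s b : ℕ} (h3 : 3 ≤ s) (hb : s ≤ b) (h : Rough b ((2 * s - 1).choose (s - 1))) : s = 4 ∧ b = 4 := by
  obtain ⟨k, rfl⟩ : ∃ k, s = k + 3 := ⟨s - 3, by omega⟩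
  have e1 : 2 * (k + 3) - 1 = 2 * k + 5 := by omega
  have e2 : k + 3 - 1 = k + 2 := by omega
  rw [e1, e2] at h
  set C := (2 * k + 5).choose (k + 2) with hC
  have i1 : C * (k + 2) = (2 * k + 5).choose (k + 1) * (k + 4) := by
    have := Nat.choose_succ_right_eq (2 * k + 5) (k + 1)
    rw [show 2 * k + 5 - (k + 1) = k + 4 by omega] at this; exact this
  have i2 : (2 * k + 5).choose (k + 1) * (k + 1) = (2 * k + 5).choose k * (k + 5) := by
    have := Nat.choose_succ_right_eq (2 * k + 5) k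
    rw [show 2 * k + 5 - k = k + 5 by omega] at this; exact this
  have hp : (k + 4).Prime := by
    by_contra hn
    have hc := h.cop (le_of_np hn (by omega) (by omega))
    have : k + 4 ∣ C * (k + 2) := ⟨_, by rw [i1, mul_comm]⟩
    have := Nat.le_of_dvd (by omega) (hc.dvd_of_dvd_mul_left this)
    omega
  have hodd : (k + 5) % 2 = 0 := by have := hp.eq_two_or_odd; omega
  have hc := h.cop (le_of_np2 (np_of_even hodd (by omega)) (by omega) (by omega : k + 5 ≤ 2 * b + 1))
  have hd : k + 5 ∣ C * ((k + 2) * (k + 1)) := by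
    refine ⟨(2 * k + 5).choose k * (k + 4), ?_⟩
    rw [← mul_assoc, i1, mul_right_comm, i2]; ring
  have hd2 := hc.dvd_of_dvd_mul_left hd
  have hd3 : k + 5 ∣ 12 := by
    have : k + 5 ∣ (k + 2) * (k + 1) + 2 * (k + 5) := Dvd.dvd.add hd2 (Dvd.intro_left _ rfl)
    rw [show (k + 2) * (k + 1) + 2 * (k + 5) = (k + 5) * k + 12 by ring] at this
    exact (Nat.dvd_add_right (Dvd.intro _ rfl)).1 this
  have hk := Nat.le_of_dvd (by norm_num) hd3
  have hk7 : k ≤ 7 := by omega
  interval_cases k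
  all_goals first
    | omega
    | skip
  · refine ⟨rfl, ?_⟩
    by_contra hb'
    exact h 5 (by norm_num) (by omega) (by rw [hC]; decide)
  · exact absurd (by rw [hC]; decide) (h 2 (by norm_num) (by omega))

theorem L2 {b c : ℕ} (h1 : 1 ≤ c) (hb : c < b) (h : Rough b ((b + c).choose c)) :
    (c = 1 ∧ (b + 1).Prime) ∨ (b = 4 ∧ c = 3) := by
  obtain ⟨k, rfl⟩ : ∃ k, c = k + 1 := ⟨c - 1, by omega⟩
  set C := (b + (k + 1)).choose (k + 1) with hC
  have i1 : C * (k + 1) = (b + (k + 1)).choose k * (b + 1) := by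
    have := Nat.choose_succ_right_eq (b + (k + 1)) k
    rw [show b + (k + 1) - k = b + 1 by omega] at this; exact this
  have hp : (b + 1).Prime := by
    by_contra hn
    have hc := h.cop (le_of_np hn (by omega) (by omega))
    have : b + 1 ∣ C * (k + 1) := ⟨_, by rw [i1, mul_comm]⟩
    have := Nat.le_of_dvd (by omega) (hc.dvd_of_dvd_mul_left this)
    omega
  rcases k with _ | k
  · exact Or.inl ⟨rfl, hp⟩
  right
  have hb2 : b % 2 = 0 := by have := hp.eq_two_or_odd; omega
  have i2 : (b + (k + 1 + 1)).choose (k + 1) * (k + 1) = (b + (k + 1 + 1)).choose k * (b + 2) := by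
    have := Nat.choose_succ_right_eq (b + (k + 1 + 1)) k
    rw [show b + (k + 1 + 1) - k = b + 2 by omega] at this; exact this
  have i3 : (b + k + 2) * (b + k + 1).choose (k + 1) = C * (k + 2) := by
    have := Nat.add_one_mul_choose_eq (b + k + 1) (k + 1)
    exact this
  have i4 : (b + k + 1) * (b + k).choose k = (b + k + 1).choose (k + 1) * (k + 1) :=
    Nat.add_one_mul_choose_eq (b + k) k
  have i5 : (b + (k + 1 + 1)).choose (k + 3) * (k + 3) = C * b := by
    have := Nat.choose_succ_right_eq (b + (k + 1 + 1)) (k + 2)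
    rw [show b + (k + 1 + 1) - (k + 2) = b by omega] at this; exact this
  have hn : (b + k + 2).Prime := by
    by_contra hn
    have hc := h.cop (le_of_np2 hn (by omega) (by omega))
    have : b + k + 2 ∣ C * (k + 2) := ⟨_, i3.symm⟩
    have := Nat.le_of_dvd (by omega) (hc.dvd_of_dvd_mul_left this)
    omega
  have hk2 : k % 2 = 1 := by have := hn.eq_two_or_odd; omega
  have d1 : k + 3 ∣ b := by
    have hc : (k + 3).Coprime C := h.cop (fun p _ hd => (Nat.le_of_dvd (by omega) hd).trans (by omega))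
    exact hc.dvd_of_dvd_mul_left ⟨_, by rw [← i5, mul_comm]⟩
  have d2 : b + 2 ∣ (k + 2) * (k + 1) := by
    have hc := h.cop (le_of_np2 (np_of_even (by omega : (b + 2) % 2 = 0) (by omega)) (by omega) (by omega : b + 2 ≤ 2 * b + 1))
    refine hc.dvd_of_dvd_mul_left ⟨(b + (k + 1 + 1)).choose k * (b + 1), ?_⟩
    rw [← mul_assoc, i1, mul_right_comm, i2]; ring
  have d3 : b + k + 1 ∣ (k + 2) * (k + 1) := by
    have hc := h.cop (le_of_np2 (np_of_even (by omega : (b + k + 1) % 2 = 0) (by omega)) (by omega) (by omega : b + k + 1 ≤ 2 * b + 1))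
    refine hc.dvd_of_dvd_mul_left ⟨(b + k).choose k * (b + k + 2), ?_⟩
    rw [← mul_assoc, ← i3, mul_assoc, ← i4]; ring
  obtain ⟨t, rfl⟩ := d1
  obtain ⟨u, hu⟩ := d2
  have hu1 : 1 ≤ u := by
    rcases u with _ | u
    · simp at hu
    · omega
  rcases t with _ | _ | t
  · omega
  · have : k + 5 ∣ 12 := by
      have h0 : k + 5 ∣ (k + 2) * (k + 1) := ⟨u, by rw [hu]; ring⟩
      have : k + 5 ∣ (k + 2) * (k + 1) + 2 * (k + 5) := Dvd.dvd.add h0 (Dvd.intro_left _ rfl)
      rw [show (k + 2) * (k + 1) + 2 * (k + 5) = (k + 5) * k + 12 by ring] at this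
      exact (Nat.dvd_add_right (Dvd.intro _ rfl)).1 this
    have hk := Nat.le_of_dvd (by norm_num) this
    have hk7 : k ≤ 7 := by omega
    interval_cases k
    all_goals first
      | omega
      | skip
    exact absurd (by rw [hC]; decide) (h 2 (by norm_num) (by omega))
  · exfalso
    obtain ⟨v, rfl⟩ : ∃ v, u = v + 1 := ⟨u - 1, by omega⟩
    have hd : k + 3 ∣ 2 * v := by
      have e : (k + 3) * k = (k + 3) * ((t + 2) * (v + 1)) + 2 * v := by nlinarith
      exact (Nat.dvd_add_right (Dvd.intro _ rfl)).1 (e ▸ Dvd.intro _ rfl)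
    have hv : 2 * v < k + 3 := by
      have e : (k + 3) * k = (k + 3) * ((t + 2) * (v + 1)) + 2 * v := by nlinarith
      have e2 : (t + 2) * (v + 1) ≤ k := Nat.le_of_mul_le_mul_left (by omega) (by omega : 0 < k + 3)
      nlinarith
    have hv0 : v = 0 := by
      rcases Nat.eq_zero_or_pos v with h0 | h0
      · exact h0
      · have := Nat.le_of_dvd (by omega) hd; omega
    subst hv0
    have hk : k = t + 2 := by nlinarith
    subst hk
    have := Nat.le_of_dvd (by positivity) d3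
    nlinarith

theorem wr_dvd0 (s m : ℕ) (hs : 0 < s) : (s !) ^ (m + 1) * (m + 1)! * ((m + 1) * s - 1).choose (s - 1) * (m * s)! =
    (s !) ^ m * m ! * ((m + 1) * s)! := by
  have h1 := Nat.add_choose_mul_factorial_mul_factorial (m * s) s
  have h2 := Nat.choose_mul_add (m := m) hs.ne'
  rw [show (m + 1) * s = m * s + s by ring, ← h1, h2, Nat.factorial_succ]; ring

theorem wr_dvd1 (s m : ℕ) (hs : 0 < s) : (s !) ^ m * m ! ∣ (m * s)! := by
  induction m with
  | zero => simp
  | succ m ih =>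
    obtain ⟨c, hc⟩ := ih
    have h := wr_dvd0 s m hs
    refine ⟨((m + 1) * s - 1).choose (s - 1) * c, ?_⟩
    have h0 : 0 < (s !) ^ m * m ! := by positivity
    apply Nat.eq_of_mul_eq_mul_left h0
    rw [← h, hc]; ring

theorem wr_dvd (s m j : ℕ) (hs : 0 < s) (hj : 1 ≤ j) (hjm : j ≤ m) :
    (s !) ^ m * m ! * (j * s - 1).choose (s - 1) ∣ (m * s)! := by
  induction m with
  | zero => omega
  | succ m ih =>
    have h := wr_dvd0 s m hs
    have h0 : 0 < (s !) ^ m * m ! := by positivity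
    rcases Nat.lt_or_ge m j with hm | hm
    · have : j = m + 1 := by omega
      subst this
      obtain ⟨c, hc⟩ := wr_dvd1 s m hs
      refine ⟨c, ?_⟩
      apply Nat.eq_of_mul_eq_mul_left h0
      rw [← h, hc]; ring
    · obtain ⟨c, hc⟩ := ih hm
      refine ⟨((m + 1) * s - 1).choose (s - 1) * c, ?_⟩
      apply Nat.eq_of_mul_eq_mul_left h0
      rw [← h, hc]; ring

theorem prod_choose_dvd {ι : Type*} [DecidableEq ι] (S : Finset ι) (a : ι → ℕ) {s t : ι} (hs : s ∈ S) (ht : t ∈ S) (hst : s ≠ t) :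
    (∏ i ∈ S, (a i)!) * (a s + a t).choose (a t) ∣ (∑ i ∈ S, a i)! := by
  have ht' : t ∈ S.erase s := Finset.mem_erase.2 ⟨hst.symm, ht⟩
  rw [← Finset.mul_prod_erase S _ hs, ← Finset.mul_prod_erase _ _ ht', ← Finset.add_sum_erase S _ hs, ← Finset.add_sum_erase _ _ ht', ← add_assoc]
  have h1 := Nat.add_choose_mul_factorial_mul_factorial (a s) (a t)
  have h2 := Nat.prod_factorial_dvd_factorial_sum ((S.erase s).erase t) a
  refine dvd_trans ?_ (Nat.factorial_mul_factorial_dvd_factorial_add _ _)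
  rw [← h1]
  obtain ⟨c, hc⟩ := h2
  exact ⟨c, by rw [hc]; ring⟩

end H7.Hall
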