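import Cfsg.Agent.H7.Hall1
import Mathlib.GroupTheory.Perm.DomMulAct
import Mathlib.GroupTheory.SpecificGroups.Alternating
import Mathlib.GroupTheory.Sylow

set_option autoImplicit false
set_option linter.style.longLine false
set_option linter.unusedSectionVars false

namespace H7.Hall
open Equiv Finset Nat

variable {α β : Type*} [Fintype α] [DecidableEq α]

/-- permutations preserving the partition into fibres of `f` -/
def K (f : α → β) : Subgroup (Perm α) where
  carrier := {g | ∀ x y, f (g x) = f (g y) ↔ f x = f y}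
  mul_mem' := by
    intro a b ha hb x y
    simp only [Perm.coe_mul, Function.comp_apply]
    rw [ha, hb]
  one_mem' := by intro x y; simp
  inv_mem' := by
    intro a ha x y
    have := ha (a⁻¹ x) (a⁻¹ y)
    simpa using this.symm

/-- permutations preserving each fibre of `f` -/
def St (f : α → β) : Subgroup (Perm α) where
  carrier := {g | ∀ x, f (g x) = f x}
  mul_mem' := by
    intro a b ha hb x
    simp only [Perm.coe_mul, Function.comp_apply]
    rw [ha, hb]
  one_mem' := by intro x; simp
  inv_mem' := by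
    intro a ha x
    have := ha (a⁻¹ x)
    simpa using this.symm

theorem mem_K {f : α → β} {g : Perm α} : g ∈ K f ↔ ∀ x y, f (g x) = f (g y) ↔ f x = f y := Iff.rfl
theorem mem_St {f : α → β} {g : Perm α} : g ∈ St f ↔ ∀ x, f (g x) = f x := Iff.rfl

theorem St_le_K (f : α → β) : St f ≤ K f := fun g hg x y => by rw [hg x, hg y]

variable [DecidableEq β]

/-- size of a fibre -/
def fib (f : α → β) (b : β) : ℕ := (univ.filter (fun x => f x = b)).card

theorem card_St (f : α → β) : Nat.card (St f) = ∏ b ∈ univ.image f, (fib f b)! := by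
  have := DomMulAct.stabilizer_card' f
  rw [← Nat.card_eq_fintype_card] at this
  rw [Nat.card_congr (Equiv.subtypeEquivRight (q := fun g : Perm α => f ∘ g = f) (fun g => ?_)), this]
  · refine Finset.prod_congr rfl fun b _ => ?_
    rw [Fintype.card_subtype]; rfl
  · exact ⟨fun h => funext h, fun h x => congrFun h x⟩

/-- the action of `K f` on the fibres -/
noncomputable def phi (f : α → β) (hf : Function.Surjective f) : K f →* Perm β :=
  MonoidHom.mk' (fun g =>
    { toFun := fun b => f (g.1 (Function.surjInv hf b))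
      invFun := fun b => f (g.1⁻¹ (Function.surjInv hf b))
      left_inv := fun b => by
        have h := (g⁻¹).2 (Function.surjInv hf (f (g.1 (Function.surjInv hf b)))) (g.1 (Function.surjInv hf b))
        have h2 := h.2 (Function.surjInv_eq hf _)
        simp only [InvMemClass.coe_inv] at h2
        simp only [h2]
        simp [Function.surjInv_eq]
      right_inv := fun b => by
        have h := g.2 (Function.surjInv hf (f (g.1⁻¹ (Function.surjInv hf b)))) (g.1⁻¹ (Function.surjInv hf b))
        have h2 := h.2 (Function.surjInv_eq hf _)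
        simp only [h2]
        simp [Function.surjInv_eq] })
    (fun a b => by
      ext c
      exact ((a.2 _ _).2 (Function.surjInv_eq hf _)).symm)

theorem phi_apply (f : α → β) (hf : Function.Surjective f) (g : K f) (x : α) : phi f hf g (f x) = f (g.1 x) :=
  (g.2 _ _).2 (Function.surjInv_eq hf _)

theorem phi_ker (f : α → β) (hf : Function.Surjective f) : (phi f hf).ker = (St f).subgroupOf (K f) := by
  ext g
  rw [MonoidHom.mem_ker, Subgroup.mem_subgroupOf, mem_St]
  constructor
  · intro h x; rw [← phi_apply f hf, h]; rfl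
  · intro h; ext b; obtain ⟨x, rfl⟩ := hf b; rw [phi_apply, h]; rfl

theorem fib_K {f : α → β} {g : Perm α} (hg : g ∈ K f) (x : α) : fib f (f (g x)) = fib f (f x) := by
  symm
  refine Finset.card_bij (fun y _ => g y) ?_ ?_ ?_
  · intro y hy; simp only [mem_filter, mem_univ, true_and] at hy ⊢; exact (hg _ _).2 hy
  · intro a _ b _ h; exact g.injective h
  · intro y hy
    simp only [mem_filter, mem_univ, true_and] at hy
    refine ⟨g⁻¹ y, ?_, by simp⟩
    simp only [mem_filter, mem_univ, true_and]
    rw [← hg]; simpa using hy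

theorem card_K_eq (f : α → β) (hf : Function.Surjective f) :
    Nat.card (K f) = Nat.card (St f) * Nat.card (phi f hf).range := by
  rw [← Subgroup.index_ker, phi_ker, ← Nat.card_congr (Subgroup.subgroupOfEquivOfLe (St_le_K f)).toEquiv,
    Subgroup.card_mul_index]

variable [Fintype β]

theorem card_K_dvd (f : α → β) (hf : Function.Surjective f) :
    Nat.card (K f) ∣ (∏ b, (fib f b)!) * ∏ s ∈ univ.image (fib f), (fib (fib f) s)! := by
  rw [card_K_eq f hf, card_St, Finset.image_univ_of_surjective hf, ← card_St]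
  refine Nat.mul_dvd_mul_left _ (Subgroup.card_dvd_of_le ?_)
  rintro _ ⟨g, rfl⟩ b
  obtain ⟨x, rfl⟩ := hf b
  rw [phi_apply, fib_K g.2]

theorem prime_K (f : α → β) (hf : Function.Surjective f) {p : ℕ} (hp : p.Prime) (h : p ∣ Nat.card (K f)) :
    (∃ b, p ≤ fib f b) ∨ ∃ s, p ≤ fib (fib f) s := by
  rcases (Nat.Prime.dvd_mul hp).1 (h.trans (card_K_dvd f hf)) with h | h
  · obtain ⟨b, -, hb⟩ := (Prime.dvd_finsetProd_iff hp.prime _).1 h
    exact Or.inl ⟨b, (hp.dvd_factorial).1 hb⟩
  · obtain ⟨b, -, hb⟩ := (Prime.dvd_finsetProd_iff hp.prime _).1 h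
    exact Or.inr ⟨b, (hp.dvd_factorial).1 hb⟩

omit [Fintype β] in
theorem fib_le (f : α → β) (b : β) : fib f b ≤ Fintype.card α := Finset.card_le_univ _

omit [Fintype β] in
theorem fib_pos (f : α → β) (x : α) : 0 < fib f (f x) := Finset.card_pos.2 ⟨x, by simp⟩

theorem sum_fib (f : α → β) : ∑ b, fib f b = Fintype.card α := by
  rw [← Finset.card_univ, Finset.card_eq_sum_card_fiberwise (f := f) (t := univ) (by simp)]; rfl

theorem sum_fib2 (f : α → β) : ∑ s ∈ univ.image (fib f), fib (fib f) s * s = Fintype.card α := by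
  rw [← sum_fib f, ← Finset.sum_fiberwise_of_maps_to (g := fib f) (t := univ.image (fib f)) (by simp)]
  refine Finset.sum_congr rfl fun s _ => ?_
  rw [Finset.sum_congr rfl (g := fun _ => s) (fun x hx => by simpa using hx)]
  simp [fib]

theorem prod_fib2 (f : α → β) : (∏ b, (fib f b)!) * ∏ s ∈ univ.image (fib f), (fib (fib f) s)! =
    ∏ s ∈ univ.image (fib f), (s !) ^ (fib (fib f) s) * (fib (fib f) s)! := by
  rw [Finset.prod_mul_distrib, ← Finset.prod_fiberwise_of_maps_to (g := fib f) (t := univ.image (fib f)) (by simp)]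
  congr 1
  refine Finset.prod_congr rfl fun s _ => ?_
  rw [Finset.prod_congr rfl (g := fun _ => s !) (fun x hx => by rw [show fib f x = s by simpa using hx])]
  simp [fib]

theorem dvd_index (f : α → β) (hf : Function.Surjective f) {C : ℕ}
    (h : (∏ s ∈ univ.image (fib f), (s !) ^ (fib (fib f) s) * (fib (fib f) s)!) * C ∣ (Fintype.card α)!) :
    C ∣ (K f).index := by
  have h1 := card_K_dvd f hf
  rw [prod_fib2] at h1
  have h2 := (K f).card_mul_index
  rw [Nat.card_perm, Nat.card_eq_fintype_card (α := α)] at h2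
  have h3 := (Nat.mul_dvd_mul_right h1 C).trans h
  rw [← h2] at h3
  exact Nat.dvd_of_mul_dvd_mul_left Nat.card_pos h3

theorem pos_of_mem (f : α → β) (hf : Function.Surjective f) {s : ℕ} (hs : s ∈ univ.image (fib f)) : 0 < s := by
  obtain ⟨b, -, rfl⟩ := Finset.mem_image.1 hs
  obtain ⟨x, rfl⟩ := hf b
  exact fib_pos f x

theorem dvd_index1 (f : α → β) (hf : Function.Surjective f) {s j : ℕ} (hs : s ∈ univ.image (fib f)) (hj : 1 ≤ j)
    (hjm : j ≤ fib (fib f) s) : (j * s - 1).choose (s - 1) ∣ (K f).index := by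
  apply dvd_index f hf
  rw [← sum_fib2 f]
  refine dvd_trans ?_ (Nat.prod_factorial_dvd_factorial_sum _ _)
  rw [← Finset.mul_prod_erase _ _ hs, ← Finset.mul_prod_erase _ (fun s => (fib (fib f) s * s)!) hs, mul_right_comm]
  refine Nat.mul_dvd_mul (wr_dvd _ _ _ (pos_of_mem f hf hs) hj hjm) (Finset.prod_dvd_prod_of_dvd _ _ fun t ht => ?_)
  exact wr_dvd1 _ _ (pos_of_mem f hf (Finset.mem_of_mem_erase ht))

theorem dvd_index2 (f : α → β) (hf : Function.Surjective f) {s t : ℕ} (hs : s ∈ univ.image (fib f))
    (ht : t ∈ univ.image (fib f)) (hst : s ≠ t) :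
    (fib (fib f) s * s + fib (fib f) t * t).choose (fib (fib f) t * t) ∣ (K f).index := by
  apply dvd_index f hf
  rw [← sum_fib2 f]
  refine dvd_trans ?_ (prod_choose_dvd _ (fun s => fib (fib f) s * s) hs ht hst)
  refine Nat.mul_dvd_mul_right (Finset.prod_dvd_prod_of_dvd _ _ fun t ht => ?_) _
  exact wr_dvd1 _ _ (pos_of_mem f hf ht)

/-- the numerical classification of partitions -/
theorem shape (f : α → β) (hf : Function.Surjective f) (B : β) (hB : ∀ c, fib f c ≤ fib f B) (h3 : 3 ≤ fib f B)
    (hs : ∀ c d, fib f c ≤ 2 → fib f d ≤ 2 → c = d) (hn : fib f B < Fintype.card α)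
    (hr : Rough (fib f B) (K f).index) :
    (∀ c d, c ≠ B → d ≠ B → c = d) ∧
      (((Fintype.card α).Prime ∧ fib f B + 1 = Fintype.card α) ∨
        (fib f B = 4 ∧ (Fintype.card α = 7 ∨ Fintype.card α = 8))) := by
  have hmem : ∀ c, fib f c ∈ univ.image (fib f) := fun c => Finset.mem_image_of_mem _ (mem_univ _)
  have hone : ∀ c, 1 ≤ fib (fib f) (fib f c) := fun c => fib_pos (fib f) c
  have hpos : ∀ c, 1 ≤ fib f c := fun c => pos_of_mem f hf (hmem c)
  have htwo : ∀ c, 2 ≤ fib (fib f) (fib f c) → fib f c = 4 ∧ fib f B = 4 := by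
    intro c hc
    have h3c : 3 ≤ fib f c := by
      by_contra h
      obtain ⟨x, hx, y, hy, hxy⟩ := Finset.one_lt_card.1 hc
      simp only [mem_filter, mem_univ, true_and] at hx hy
      exact hxy (hs _ _ (by omega) (by omega))
    exact L1 h3c (hB c) (hr.of_dvd (dvd_index1 f hf (hmem c) (by norm_num) hc))
  have hge : ∀ c d, c ≠ d → fib f c = fib f d → 2 ≤ fib (fib f) (fib f c) := by
    intro c d hcd h
    exact Finset.one_lt_card.2 ⟨c, by simp, d, by simp [h], hcd⟩
  have hsum : ∀ c, c ≠ B → (∀ d, d ≠ B → d = c) → fib f B + fib f c = Fintype.card α := by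
    intro c hc h
    rw [← sum_fib f, ← Finset.add_sum_erase _ _ (mem_univ B)]
    congr 1
    rw [Finset.sum_eq_single c]
    · intro d hd hdc; exact absurd (h d (Finset.mem_erase.1 hd).1) hdc
    · intro h; exact absurd (Finset.mem_erase.2 ⟨hc, mem_univ _⟩) h
  obtain ⟨c0, hc0⟩ : ∃ c, c ≠ B := by
    by_contra h
    push Not at h
    rw [← sum_fib f, Finset.sum_eq_single B (fun d _ hd => absurd (h d) hd) (by simp)] at hn
    omega
  by_cases h2 : 2 ≤ fib (fib f) (fib f B)
  · have hB4 := (htwo B h2).1
    have hm : fib (fib f) (fib f B) = 2 := by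
      by_contra hne
      have := dvd_index1 f hf (hmem B) (j := 3) (by norm_num) (by omega)
      rw [hB4] at this
      exact hr 3 (by norm_num) (by omega) (dvd_trans (by decide) this)
    have hall : ∀ c, fib f c = 4 := by
      intro c
      by_contra hc
      have h1 : fib (fib f) (fib f c) = 1 := by
        have := hone c
        by_contra h
        exact hc (htwo c (by omega)).1
      have := dvd_index2 f hf (hmem B) (hmem c) (by omega)
      rw [hm, h1, hB4] at this
      have h4 := hB c
      have h5 := hpos c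
      refine hr 3 (by norm_num) (by omega) (dvd_trans ?_ this)
      generalize fib f c = t at *
      have : t ≤ 3 := by omega
      interval_cases t <;> decide
    have huniq : ∀ c d, c ≠ B → d ≠ B → c = d := by
      intro c d hc hd
      by_contra hcd
      have : 2 < fib (fib f) (fib f B) :=
        Finset.two_lt_card_iff.2 ⟨c, d, B, by simp [hall], by simp [hall], by simp, hcd, hc, hd⟩
      omega
    refine ⟨huniq, Or.inr ⟨hB4, Or.inr ?_⟩⟩
    rw [← hsum c0 hc0 (fun d hd => huniq d c0 hd hc0), hall, hall]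
  · have hall : ∀ c, fib (fib f) (fib f c) = 1 := by
      intro c
      have := hone c
      by_contra h
      have h4 := htwo c (by omega)
      rw [h4.2, ← h4.1] at h2
      omega
    have hinj : ∀ c d, fib f c = fib f d → c = d := by
      intro c d h
      by_contra hcd
      have := hge c d hcd h
      rw [hall] at this; omega
    have hL : ∀ c, c ≠ B → (fib f c = 1 ∧ (fib f B + 1).Prime) ∨ (fib f B = 4 ∧ fib f c = 3) := by
      intro c hc
      have hne : fib f B ≠ fib f c := fun h => hc (hinj _ _ h).symm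
      have := dvd_index2 f hf (hmem B) (hmem c) hne
      rw [hall, hall, one_mul, one_mul] at this
      exact L2 (hpos c) (lt_of_le_of_ne (hB c) hne.symm) (hr.of_dvd this)
    have huniq : ∀ c d, c ≠ B → d ≠ B → c = d := by
      intro c d hc hd
      by_contra hcd
      have hne : fib f c ≠ fib f d := fun h => hcd (hinj _ _ h)
      have := dvd_index2 f hf (hmem c) (hmem d) hne
      rw [hall, hall, one_mul, one_mul] at this
      refine hr 2 (by norm_num) (by omega) (dvd_trans ?_ this)
      rcases hL c hc with h | h <;> rcases hL d hd with h' | h'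
      · omega
      · rw [h.1, h'.2]; decide
      · rw [h.2, h'.1]; decide
      · omega
    refine ⟨huniq, ?_⟩
    have := hsum c0 hc0 (fun d hd => huniq d c0 hd hc0)
    rcases hL c0 hc0 with h | h
    · left; rw [← this, h.1]; exact ⟨h.2, rfl⟩
    · right; exact ⟨h.1, Or.inl (by omega)⟩

end H7.Hall
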