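import Cfsg.Agent.H7.Hall2
import Mathlib.GroupTheory.Perm.Cycle.Concrete
import Mathlib.GroupTheory.Perm.ViaEmbedding

set_option autoImplicit false
set_option linter.style.longLine false
set_option linter.unusedSectionVars false

namespace H7.Hall
open Equiv Finset

theorem conj_into {G : Type*} [Group G] [Finite G] (H M E : Subgroup G) {p : ℕ} (hp : p.Prime) (hE : IsPGroup p E)
    (hEM : E ≤ M) (h : ¬ p ∣ H.relIndex M) : ∃ g ∈ M, ∀ e ∈ E, g * e * g⁻¹ ∈ H := by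
  haveI := Fact.mk hp
  have hE' : IsPGroup p (E.subgroupOf M) := hE.of_equiv (Subgroup.subgroupOfEquivOfLe hEM).symm
  obtain ⟨x, hx⟩ := hE'.nonempty_fixed_point_of_prime_not_dvd_card (M ⧸ H.subgroupOf M) h
  obtain ⟨g, rfl⟩ := QuotientGroup.mk_surjective x
  refine ⟨(g⁻¹ : M), (g⁻¹).2, fun e he => ?_⟩
  have := hx ⟨⟨e, hEM he⟩, he⟩
  change ((((⟨e, hEM he⟩ : M) * g : M)) : M ⧸ H.subgroupOf M) = g at this
  have h2 := QuotientGroup.eq.1 this.symm
  rw [Subgroup.mem_subgroupOf] at h2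
  simpa [mul_assoc] using h2

variable {α : Type*} [Fintype α] [DecidableEq α]

theorem cover (H E : Subgroup (Perm α)) {p : ℕ} (hp : p.Prime) (h : ¬ p ∣ H.relIndex (alternatingGroup α))
    (T : α → Prop) (hT : ∀ g ∈ H, ∀ x, T x → T (g x)) (hE : IsPGroup p E) (hEA : E ≤ alternatingGroup α)
    (hET : ∀ e ∈ E, ∀ x, T x → e x = x) : ∃ g : Perm α, (∀ x, T (g x) ↔ T x) ∧ ∀ e ∈ E, g * e * g⁻¹ ∈ H := by
  have hH : H ≤ St T := fun g hg x => propext ⟨fun h => by simpa using hT _ (H.inv_mem hg) _ h, hT g hg x⟩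
  have hE2 : E ≤ St T := by
    intro e he x
    by_cases hx : T x
    · rw [hET e he x hx]
    · refine propext ⟨fun h => ?_, fun h => absurd h hx⟩
      have := hET e he _ h
      rw [e.injective this] at h; exact h
  have hd : H.relIndex (St T ⊓ alternatingGroup α) ∣ H.relIndex (alternatingGroup α) := by
    have h1 := Subgroup.relIndex_mul_relIndex (H ⊓ alternatingGroup α) (St T ⊓ alternatingGroup α) (alternatingGroup α)
      (inf_le_inf_right _ hH) inf_le_right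
    rw [Subgroup.inf_relIndex_right H] at h1
    have h2 : (H ⊓ alternatingGroup α).relIndex (St T ⊓ alternatingGroup α) = H.relIndex (St T ⊓ alternatingGroup α) := by
      rw [← Subgroup.inf_relIndex_right (H ⊓ alternatingGroup α), ← Subgroup.inf_relIndex_right H]
      congr 1
      rw [inf_assoc, inf_comm (alternatingGroup α), inf_assoc, inf_idem]
    rw [← h1, h2]; exact Dvd.intro _ rfl
  obtain ⟨g, hg, hge⟩ := conj_into H (St T ⊓ alternatingGroup α) E hp hE (le_inf hE2 hEA) (fun h' => h (h'.trans hd))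
  exact ⟨g, fun x => by rw [hg.1 x], hge⟩

theorem exists_cycle (s : Finset α) (hs : 2 ≤ s.card) : ∃ c : Perm α, c.IsCycle ∧ c.support = s := by
  refine ⟨s.toList.formPerm, List.isCycle_formPerm s.nodup_toList (by simpa using hs), ?_⟩
  rw [List.support_formPerm_of_nodup _ s.nodup_toList, Finset.toList_toFinset]
  intro x hx
  have := congrArg List.length hx
  simp at this; omega

theorem cycle_mem_alt {c : Perm α} (hc : c.IsCycle) (h : Odd c.support.card) : c ∈ alternatingGroup α := by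
  rw [Perm.mem_alternatingGroup, hc.sign, h.neg_one_pow]; simp

/-- `x` is moved by a `p`-cycle of `H` -/
def Cyc (H : Subgroup (Perm α)) (p : ℕ) (x : α) : Prop := ∃ c ∈ H, c.IsCycle ∧ c.support.card = p ∧ c x ≠ x

theorem Cyc.smul {H : Subgroup (Perm α)} {p : ℕ} {x : α} (h : Cyc H p x) {g : Perm α} (hg : g ∈ H) : Cyc H p (g x) := by
  obtain ⟨c, hc, h1, h2, h3⟩ := h
  exact ⟨g * c * g⁻¹, H.mul_mem (H.mul_mem hg hc) (H.inv_mem hg), h1.conj, by rw [Perm.card_support_conj, h2], by simpa using h3⟩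

theorem cyc_cover (H : Subgroup (Perm α)) {p : ℕ} (hp : p.Prime) (h2 : p ≠ 2) (h : ¬ p ∣ H.relIndex (alternatingGroup α))
    (s : Finset α) (hs : p ≤ s.card) : ∃ x ∈ s, Cyc H p x := by
  by_contra hn
  push Not at hn
  obtain ⟨t, hts, ht⟩ := Finset.exists_subset_card_eq hs
  obtain ⟨c, hc, hct⟩ := exists_cycle t (ht ▸ hp.two_le)
  have hE : IsPGroup p (Subgroup.zpowers c) := IsPGroup.of_card (n := 1) (by rw [Nat.card_zpowers, hc.orderOf, hct, ht, pow_one])
  obtain ⟨g, hg, hge⟩ := cover H (Subgroup.zpowers c) hp h (Cyc H p) (fun g hg x hx => hx.smul hg) hE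
    (by rw [Subgroup.zpowers_le]; exact cycle_mem_alt hc (by rw [hct, ht]; exact hp.odd_of_ne_two h2))
    (by
      rintro _ ⟨i, rfl⟩ x hx
      have : c x = x := by
        by_contra h'
        exact hn x (hts (hct ▸ Perm.mem_support.2 h')) hx
      exact Perm.zpow_apply_eq_self_of_apply_eq_self this i)
  obtain ⟨x, hx⟩ : t.Nonempty := Finset.card_pos.1 (ht ▸ hp.pos)
  refine hn x (hts hx) ((hg x).1 ⟨g * c * g⁻¹, hge c (Subgroup.mem_zpowers c), hc.conj, by rw [Perm.card_support_conj, hct, ht], ?_⟩)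
  simpa using Perm.mem_support.1 (hct ▸ hx)

/-- `S` is the support of a four-group of `H` -/
def Kl4 (H : Subgroup (Perm α)) (S : Finset α) : Prop :=
  S.card = 4 ∧ ∀ a ∈ S, ∀ b ∈ S, ∃ h ∈ H, h a = b ∧ h b = a ∧ ∀ z, z ∉ S → h z = z

theorem Kl4.conj {H H' : Subgroup (Perm α)} {S : Finset α} (h : Kl4 H S) (g : Perm α) (hg : ∀ e ∈ H, g * e * g⁻¹ ∈ H') :
    Kl4 H' (S.map g.toEmbedding) := by
  refine ⟨by rw [Finset.card_map, h.1], fun a ha b hb => ?_⟩
  rw [Finset.mem_map_equiv] at ha hb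
  obtain ⟨k, hk, h1, h2, h3⟩ := h.2 _ ha _ hb
  refine ⟨g * k * g⁻¹, hg k hk, ?_, ?_, fun z hz => ?_⟩
  · simp only [Perm.coe_mul, Function.comp_apply, Perm.inv_def, h1]; simp
  · simp only [Perm.coe_mul, Function.comp_apply, Perm.inv_def, h2]; simp
  · rw [Finset.mem_map_equiv] at hz
    simp only [Perm.coe_mul, Function.comp_apply, Perm.inv_def, h3 _ hz]; simp

/-- the four-group of `S₄` -/
def V4 : Subgroup (Perm (Fin 4)) where
  carrier := {g | g * g = 1 ∧ Perm.sign g = 1}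
  mul_mem' := by
    intro a b; simp only [Set.mem_ofPred_eq]; revert a b; decide +kernel
  one_mem' := by simp
  inv_mem' := by
    intro a; simp only [Set.mem_ofPred_eq]; revert a; decide +kernel

theorem V4_tr : ∀ a b : Fin 4, ∃ h : Perm (Fin 4), (h * h = 1 ∧ Perm.sign h = 1) ∧ h a = b ∧ h b = a := by decide +kernel

theorem sign_via {γ : Type*} [Fintype γ] [DecidableEq γ] (ι : γ ↪ α) (g : Perm γ) :
    Perm.sign (Perm.viaEmbeddingHom ι g) = Perm.sign g := by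
  exact @Perm.sign_extendDomain _ _ _ _ _ _ g _ (fun _ => Classical.propDecidable _) (Equiv.ofInjective ι.1 ι.2)

theorem kl_cover (H : Subgroup (Perm α)) (h : ¬ 2 ∣ H.relIndex (alternatingGroup α))
    (s : Finset α) (hs : 4 ≤ s.card) : ∃ x ∈ s, ∃ S, Kl4 H S ∧ x ∈ S := by
  by_contra hn
  push Not at hn
  obtain ⟨t, hts, ht⟩ := Finset.exists_subset_card_eq hs
  let ι : Fin 4 ↪ α := ((t.equivFinOfCardEq ht).symm.toEmbedding).trans (Function.Embedding.subtype _)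
  have hι : ∀ x, x ∈ Set.range ι ↔ x ∈ t := by
    intro x
    constructor
    · rintro ⟨i, rfl⟩; exact ((t.equivFinOfCardEq ht).symm i).2
    · intro hx; exact ⟨t.equivFinOfCardEq ht ⟨x, hx⟩, by simp [ι]⟩
  let E := V4.map (Perm.viaEmbeddingHom ι)
  have hE : IsPGroup 2 E := IsPGroup.map (fun g => ⟨1, Subtype.ext (by simpa [pow_two] using g.2.1)⟩) _
  have hK : Kl4 E t := by
    refine ⟨ht, fun a ha b hb => ?_⟩
    obtain ⟨i, rfl⟩ := (hι a).2 ha
    obtain ⟨j, rfl⟩ := (hι b).2 hb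
    obtain ⟨k, hk, h1, h2⟩ := V4_tr i j
    refine ⟨Perm.viaEmbeddingHom ι k, ⟨k, hk, rfl⟩, ?_, ?_, fun z hz => ?_⟩
    · rw [Perm.viaEmbeddingHom_apply, Perm.viaEmbedding_apply, h1]
    · rw [Perm.viaEmbeddingHom_apply, Perm.viaEmbedding_apply, h2]
    · rw [Perm.viaEmbeddingHom_apply, Perm.viaEmbedding_apply_of_notMem _ _ _ (fun h => hz ((hι z).1 h))]
  obtain ⟨g, hg, hge⟩ := cover H E Nat.prime_two h (fun x => ∃ S, Kl4 H S ∧ x ∈ S)
    (fun g hg x ⟨S, hS, hx⟩ => ⟨_, hS.conj g (fun e he => H.mul_mem (H.mul_mem hg he) (H.inv_mem hg)), by simpa using hx⟩) hE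
    (by rintro _ ⟨k, hk, rfl⟩; rw [Perm.mem_alternatingGroup, sign_via]; exact hk.2)
    (by
      rintro _ ⟨k, hk, rfl⟩ x ⟨S, hS, hx⟩
      rw [Perm.viaEmbeddingHom_apply, Perm.viaEmbedding_apply_of_notMem _ _ _ (fun h => hn x (hts ((hι x).1 h)) S hS hx)])
  obtain ⟨x, hx⟩ : t.Nonempty := Finset.card_pos.1 (by omega)
  obtain ⟨S, hS, hxS⟩ := (hg x).1 ⟨_, hK.conj g hge, by simpa using hx⟩
  exact hn x (hts hx) S hS hxS

theorem cyc_block {σ : Perm α} (hc : σ.IsCycle) (hq : σ.support.card.Prime) (S : α → Prop) {x y : α} (hx : S x) (hy : S y)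
    (hxy : x ≠ y) (hσ : σ x ≠ x) (h : ∀ i : ℕ, (∃ z, S z ∧ S ((σ ^ i) z)) → ∀ z, S z → S ((σ ^ i) z)) :
    ∀ z, σ z ≠ z → S z := by
  have key : ∀ (τ : Perm α), τ.IsCycle → τ x ≠ x → (∀ z, S z → S (τ z)) → ∀ z, τ z ≠ z → S z := by
    intro τ hτ h1 h2 z hz
    obtain ⟨i, rfl⟩ := hτ.exists_pow_eq h1 hz
    clear hz
    induction i with
    | zero => simpa using hx
    | succ i ih => rw [pow_succ', Perm.mul_apply]; exact h2 _ ih
  by_cases hy' : σ y = y
  · exact key σ hc hσ (by simpa using h 1 ⟨y, hy, by simpa [hy'] using hy⟩)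
  · obtain ⟨i, hi⟩ := hc.exists_pow_eq hσ hy'
    have hne : (σ ^ i) x ≠ x := by rw [hi]; exact hxy.symm
    have hnd : ¬ orderOf σ ∣ i := by
      rw [orderOf_dvd_iff_pow_eq_one]; intro h1; rw [h1] at hne; exact hne rfl
    have hsup := hc.support_pow_eq_iff.2 hnd
    have hcyc : (σ ^ i).IsCycle := hc.pow_iff.2 (by
      rw [hc.orderOf] at hnd ⊢; exact ((Nat.Prime.coprime_iff_not_dvd hq).2 hnd).symm)
    intro z hz
    refine key _ hcyc hne (h i ⟨x, hx, hi ▸ hy⟩) z ?_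
    rw [← Perm.mem_support, hsup, Perm.mem_support]; exact hz

theorem dvd_of_orbit (H : Subgroup (Perm α)) {z : Perm α} (hz : z ∈ H) {a : α} {p : ℕ} (hp : p.Prime) (h1 : z a ≠ a)
    (h2 : (z ^ p) a = a) : p ∣ Nat.card H := by
  refine dvd_trans ?_ (H.orderOf_dvd_natCard hz)
  by_contra hn
  obtain ⟨m, -, hm⟩ := Nat.exists_mul_mod_eq_one_of_coprime ((Nat.Prime.coprime_iff_not_dvd hp).2 hn) (by
    by_contra h
    have h0 := orderOf_pos z
    have : orderOf z = 1 := by omega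
    rw [orderOf_eq_one_iff.1 this] at h1; exact h1 rfl)
  have h3 : z ^ (p * m) = z := by rw [← pow_mod_orderOf, hm, pow_one]
  apply h1
  rw [← h3, pow_mul]
  exact Perm.pow_apply_eq_self_of_apply_eq_self h2 m

theorem caseB (H : Subgroup (Perm α)) (h : ¬ 2 ∣ H.relIndex (alternatingGroup α)) {q : ℕ} (hq : q.Prime) (h5 : 5 ≤ q)
    (hq' : ¬ q ∣ H.relIndex (alternatingGroup α)) (hn : q ≤ Fintype.card α) : 3 ∣ Nat.card H := by
  obtain ⟨-, -, σ, hσ, hc, hs, -⟩ := cyc_cover H hq (by omega) hq' univ hn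
  obtain ⟨x, hx, S, hS, hxS⟩ := kl_cover H h σ.support (by omega)
  obtain ⟨y, hyS, hy⟩ := Finset.exists_mem_ne (s := S) (by rw [hS.1]; norm_num) x
  by_contra h3
  have := cyc_block hc (hs ▸ hq) (· ∈ S) hxS hyS hy.symm (Perm.mem_support.1 hx) (by
    rintro i ⟨z, hz, hz'⟩ w hw
    by_contra hw'
    set g := σ ^ i with hg
    have hgH : g ∈ H := H.pow_mem hσ i
    have hS' := hS.conj g (fun e he => H.mul_mem (H.mul_mem hgH he) (H.inv_mem hgH))
    obtain ⟨b, hb, hb'⟩ : ∃ b ∈ S, b ∉ S.map g.toEmbedding := by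
      by_contra hcon
      push Not at hcon
      have := Finset.eq_of_subset_of_card_le (s := S) (t := S.map g.toEmbedding) hcon (by simp)
      exact hw' (this ▸ (by simpa using hw))
    obtain ⟨u, hu, u1, u2, u3⟩ := hS.2 _ hz' _ hb
    obtain ⟨v, hv, v1, v2, v3⟩ := hS'.2 (g z) (by simpa using hz) (g w) (by simpa using hw)
    refine h3 (dvd_of_orbit H (H.mul_mem hu hv) (a := g z) Nat.prime_three ?_ ?_)
    · rw [Perm.mul_apply, v1, u3 _ hw']
      intro h; exact hw' (h ▸ hz')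
    · simp only [pow_succ, pow_zero, one_mul, Perm.mul_apply, v1, u3 _ hw', v2, u1, v3 _ hb', u2])
  have h4 : σ.support ⊆ S := fun z hz => this z (Perm.mem_support.1 hz)
  have := Finset.card_le_card h4
  rw [hS.1] at this; omega

/-- Jordan sets -/
def Jor (H : Subgroup (Perm α)) (S : Finset α) : Prop :=
  ∀ a ∈ S, ∀ b ∈ S, ∃ h ∈ H, h a = b ∧ ∀ z, z ∉ S → h z = z

theorem Jor.conj {H : Subgroup (Perm α)} {S : Finset α} (h : Jor H S) {g : Perm α} (hg : g ∈ H) :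
    Jor H (S.map g.toEmbedding) := by
  intro a ha b hb
  rw [Finset.mem_map_equiv] at ha hb
  obtain ⟨k, hk, h1, h3⟩ := h _ ha _ hb
  refine ⟨g * k * g⁻¹, H.mul_mem (H.mul_mem hg hk) (H.inv_mem hg), ?_, fun z hz => ?_⟩
  · simp only [Perm.coe_mul, Function.comp_apply, Perm.inv_def, h1]; simp
  · rw [Finset.mem_map_equiv] at hz
    simp only [Perm.coe_mul, Function.comp_apply, Perm.inv_def, h3 _ hz]; simp

theorem Jor.union {H : Subgroup (Perm α)} {S T : Finset α} (hS : Jor H S) (hT : Jor H T) {x : α} (h1 : x ∈ S) (h2 : x ∈ T) :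
    Jor H (S ∪ T) := by
  have key : ∀ a ∈ S ∪ T, ∃ h ∈ H, h x = a ∧ ∀ z, z ∉ S ∪ T → h z = z := by
    intro a ha
    rcases Finset.mem_union.1 ha with ha | ha
    · obtain ⟨k, hk, h3, h4⟩ := hS _ h1 _ ha
      exact ⟨k, hk, h3, fun z hz => h4 z (fun h => hz (Finset.mem_union_left _ h))⟩
    · obtain ⟨k, hk, h3, h4⟩ := hT _ h2 _ ha
      exact ⟨k, hk, h3, fun z hz => h4 z (fun h => hz (Finset.mem_union_right _ h))⟩
  intro a ha b hb
  obtain ⟨k, hk, k1, k2⟩ := key a ha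
  obtain ⟨l, hl, l1, l2⟩ := key b hb
  refine ⟨l * k⁻¹, H.mul_mem hl (H.inv_mem hk), by rw [← k1, ← l1]; simp, fun z hz => ?_⟩
  rw [Perm.mul_apply, Perm.inv_eq_iff_eq.2 (k2 z hz).symm, l2 z hz]

theorem Jor.of_cycle {H : Subgroup (Perm α)} {c : Perm α} (hc : c.IsCycle) (h : c ∈ H) : Jor H c.support := by
  intro a ha b hb
  obtain ⟨i, hi⟩ := hc.exists_pow_eq (Perm.mem_support.1 ha) (Perm.mem_support.1 hb)
  exact ⟨c ^ i, H.pow_mem h i, hi, fun z hz => Perm.pow_apply_eq_self_of_apply_eq_self (Perm.notMem_support.1 hz) i⟩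

theorem caseA (H : Subgroup (Perm α)) {p q : ℕ} (hp : p.Prime) (h2 : p ≠ 2) (h : ¬ p ∣ H.relIndex (alternatingGroup α))
    (hq : q.Prime) (hpq : p < q) (hq' : ¬ q ∣ H.relIndex (alternatingGroup α)) (hn : q ≤ Fintype.card α) :
    2 ∣ Nat.card H := by
  classical
  have hp2 := hp.two_le
  obtain ⟨-, -, σ, hσ, hc, hs, -⟩ := cyc_cover H hq (by omega) hq' univ hn
  obtain ⟨x, hx, τ, hτ, htc, hts, hxτ⟩ := cyc_cover H hp h2 h σ.support (by omega)
  rw [← Perm.mem_support] at hxτ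
  set U := σ.support ∪ τ.support with hU
  have hJU : Jor H U := (Jor.of_cycle hc hσ).union (Jor.of_cycle htc hτ) hx hxτ
  have hUq : q ≤ U.card := hs ▸ Finset.card_le_card Finset.subset_union_left
  obtain ⟨Γ, hΓ, hmax⟩ := Finset.exists_max_image (univ.filter (fun Γ : Finset α => Γ ⊆ U ∧ Γ ≠ U ∧ τ.support ⊆ Γ ∧ Jor H Γ))
    Finset.card ⟨τ.support, by
      simp only [mem_filter, mem_univ, true_and]
      exact ⟨Finset.subset_union_right, fun h => by rw [← h] at hUq; omega, subset_rfl, Jor.of_cycle htc hτ⟩⟩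
  simp only [mem_filter, mem_univ, true_and] at hΓ hmax
  obtain ⟨hΓU, hΓne, hτΓ, hJ⟩ := hΓ
  have hσU : ∀ i : ℕ, ∀ z, z ∈ U → (σ ^ i) z ∈ U := by
    intro i z hz
    by_cases h : z ∈ σ.support
    · exact Finset.mem_union_left _ (Perm.pow_apply_mem_support.2 h)
    · rw [Perm.pow_apply_eq_self_of_apply_eq_self (Perm.notMem_support.1 h)]; exact hz
  have hmapU : ∀ i : ℕ, Γ.map (σ ^ i).toEmbedding ⊆ U := by
    intro i z hz
    obtain ⟨w, hw, rfl⟩ := Finset.mem_map.1 hz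
    exact hσU i w (hΓU hw)
  have dich : ∀ i : ℕ, (∃ z, z ∈ Γ ∧ (σ ^ i) z ∈ Γ) → (∀ z, z ∈ Γ → (σ ^ i) z ∈ Γ) ∨ Γ ∪ Γ.map (σ ^ i).toEmbedding = U := by
    rintro i ⟨z, hz, hz'⟩
    by_contra hcon
    push Not at hcon
    obtain ⟨⟨w, hw, hw'⟩, hne⟩ := hcon
    have := hmax _ ⟨Finset.union_subset hΓU (hmapU i), hne, hτΓ.trans Finset.subset_union_left,
      hJ.union (hJ.conj (H.pow_mem hσ i)) hz' (by simpa using hz)⟩
    have h3 := Finset.eq_of_subset_of_card_le (Finset.subset_union_left (s₁ := Γ) (s₂ := Γ.map (σ ^ i).toEmbedding)) this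
    exact hw' (h3 ▸ Finset.mem_union_right _ (by simpa using hw))
  have hnot : ¬ σ.support ⊆ Γ := fun h => hΓne (subset_antisymm hΓU (Finset.union_subset h hτΓ))
  obtain ⟨y, hyτ, hy⟩ := Finset.exists_mem_ne (s := τ.support) (by omega) x
  have hbig : U.card < 2 * Γ.card := by
    by_contra hle
    refine hnot (fun z hz => cyc_block hc (hs ▸ hq) (· ∈ Γ) (hτΓ hxτ) (hτΓ hyτ) hy.symm (Perm.mem_support.1 hx) ?_ z (Perm.mem_support.1 hz))
    intro i hi
    rcases dich i hi with h | h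
    · exact h
    · obtain ⟨z, hz, hz'⟩ := hi
      have h1 := Finset.card_union_add_card_inter Γ (Γ.map (σ ^ i).toEmbedding)
      have h2 : 0 < (Γ ∩ Γ.map (σ ^ i).toEmbedding).card := Finset.card_pos.2 ⟨_, Finset.mem_inter.2 ⟨hz', by simpa using hz⟩⟩
      rw [h, Finset.card_map] at h1; omega
  have hmeet : ∀ i : ℕ, ∃ z, z ∈ Γ ∧ (σ ^ i) z ∈ Γ := by
    intro i
    have h1 := Finset.card_union_add_card_inter Γ (Γ.map (σ ^ i).toEmbedding)
    have h2 := Finset.card_le_card (Finset.union_subset hΓU (hmapU i))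
    rw [Finset.card_map] at h1
    obtain ⟨z, hz⟩ := Finset.card_pos.1 (by omega : 0 < (Γ ∩ Γ.map (σ ^ i).toEmbedding).card)
    obtain ⟨w, hw, rfl⟩ := Finset.mem_map.1 (Finset.mem_inter.1 hz).2
    exact ⟨w, hw, (Finset.mem_inter.1 hz).1⟩
  obtain ⟨u, huU, huΓ⟩ : ∃ u ∈ U, u ∉ Γ := by
    by_contra hcon
    push Not at hcon
    exact hΓne (subset_antisymm hΓU hcon)
  have huniq : ∀ v ∈ U, v ∉ Γ → v = u := by
    intro v hvU hvΓ
    by_contra hne
    have huσ : u ∈ σ.support := (Finset.mem_union.1 huU).resolve_right (fun h => huΓ (hτΓ h))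
    have := cyc_block hc (hs ▸ hq) (fun z => z ∈ U ∧ z ∉ Γ) ⟨huU, huΓ⟩ ⟨hvU, hvΓ⟩ (Ne.symm hne) (Perm.mem_support.1 huσ) (by
      rintro i ⟨z, hz, hz'⟩ w hw
      refine ⟨hσU i w hw.1, fun hw' => ?_⟩
      rcases dich i (hmeet i) with h | h
      · have h3 : Γ.map (σ ^ i).toEmbedding = Γ := Finset.eq_of_subset_of_card_le (fun a ha => by
          obtain ⟨b, hb, rfl⟩ := Finset.mem_map.1 ha; exact h b hb) (by simp)
        rw [← h3] at hw'
        exact hw.2 (by simpa using hw')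
      · have := h ▸ hz'.1
        rcases Finset.mem_union.1 this with h4 | h4
        · exact hz'.2 h4
        · exact hz.2 (by simpa using h4)) x (Perm.mem_support.1 hx)
    exact this.2 (hτΓ hxτ)
  obtain ⟨k, hk, k1, k2⟩ := hJU x (hΓU (hτΓ hxτ)) u huU
  have hxu : x ≠ u := fun h => huΓ (h ▸ hτΓ hxτ)
  have hku : k u ∈ Γ := by
    by_contra hcon
    by_cases hU' : k u ∈ U
    · exact hxu (k.injective (k1.trans (huniq _ hU' hcon).symm))
    · have := k.injective (k2 _ hU'); exact hU' (this.symm ▸ huU)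
  obtain ⟨l, hl, l1, l2⟩ := hJ _ hku x (hτΓ hxτ)
  refine dvd_of_orbit H (H.mul_mem hl hk) (a := u) Nat.prime_two ?_ ?_
  · rw [Perm.mul_apply, l1]; exact hxu
  · simp only [pow_succ, pow_zero, one_mul, Perm.mul_apply, l1, k1, l2 u huΓ]

end H7.Hall
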