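import Cfsg.Agent.H7.Hall3

set_option autoImplicit false
set_option linter.style.longLine false
set_option linter.unusedSectionVars false

namespace H7.Hall
open Equiv Finset

variable {α : Type*} [Fintype α] [DecidableEq α] {H : Subgroup (Perm α)}

/-- the 3-cycle `(x y z)` lies in `H` -/
def R3 (H : Subgroup (Perm α)) (x y z : α) : Prop :=
  x ≠ y ∧ y ≠ z ∧ x ≠ z ∧ ∃ c ∈ H, c x = y ∧ c y = z ∧ c z = x ∧ ∀ w, w ≠ x → w ≠ y → w ≠ z → c w = w

theorem R3.rot {x y z : α} (h : R3 H x y z) : R3 H y z x := by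
  obtain ⟨h1, h2, h3, c, hc, c1, c2, c3, c4⟩ := h
  exact ⟨h2, h3.symm, h1.symm, c, hc, c2, c3, c1, fun w a b d => c4 w d a b⟩

theorem R3.swp {x y z : α} (h : R3 H x y z) : R3 H x z y := by
  obtain ⟨h1, h2, h3, c, hc, c1, c2, c3, c4⟩ := h
  exact ⟨h3, h2.symm, h1, c⁻¹, H.inv_mem hc, Perm.inv_eq_iff_eq.2 c3.symm, Perm.inv_eq_iff_eq.2 c2.symm,
    Perm.inv_eq_iff_eq.2 c1.symm, fun w a b d => Perm.inv_eq_iff_eq.2 (c4 w a d b).symm⟩

theorem R3.conj {x y z : α} (h : R3 H x y z) {g : Perm α} (hg : g ∈ H) : R3 H (g x) (g y) (g z) := by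
  obtain ⟨h1, h2, h3, c, hc, c1, c2, c3, c4⟩ := h
  refine ⟨g.injective.ne h1, g.injective.ne h2, g.injective.ne h3, g * c * g⁻¹, H.mul_mem (H.mul_mem hg hc) (H.inv_mem hg),
    by simp [c1], by simp [c2], by simp [c3], fun w a b d => ?_⟩
  rw [Perm.mul_apply, Perm.mul_apply, c4 _ (fun h => a (Perm.inv_eq_iff_eq.1 h)) (fun h => b (Perm.inv_eq_iff_eq.1 h))
    (fun h => d (Perm.inv_eq_iff_eq.1 h))]
  simp

theorem R3.act {x y z a b c : α} (h : R3 H x y z) (h' : R3 H a b c) :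
    ∃ g : Perm α, R3 H (g x) (g y) (g z) ∧ g a = b ∧ g b = c ∧ g c = a ∧ ∀ w, w ≠ a → w ≠ b → w ≠ c → g w = w := by
  obtain ⟨-, -, -, g, hg, h1⟩ := h'
  exact ⟨g, h.conj hg, h1⟩

theorem cyc3_iff {x : α} : Cyc H 3 x ↔ ∃ y z, R3 H x y z := by
  constructor
  · rintro ⟨c, hc, -, h3, hx⟩
    have h3' := card_support_eq_three_iff.1 h3
    have hx' := Perm.mem_support.2 hx
    have hn := h3'.nodup_iff_mem_support.2 hx'
    have hs := h3'.support_eq_iff_mem_support.2 hx'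
    simp only [List.nodup_cons, List.mem_cons, List.not_mem_nil, or_false, not_or, not_false_eq_true, List.nodup_nil, and_self, and_true] at hn
    refine ⟨c x, c (c x), hn.1.1, hn.2, hn.1.2, c, hc, rfl, rfl, ?_, fun w a b d => ?_⟩
    · have := pow_orderOf_eq_one c
      rw [h3'.orderOf] at this
      have := congrArg (fun g : Perm α => g x) this
      simpa [pow_succ] using this
    · rw [← Perm.notMem_support, hs]; simp [a, b, d]
  · rintro ⟨y, z, h1, h2, h3, c, hc, c1, c2, c3, c4⟩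
    have hs : c.support = {x, y, z} := by
      ext w
      simp only [Perm.mem_support, mem_insert, mem_singleton]
      constructor
      · intro h; by_contra h'; push Not at h'; exact h (c4 w h'.1 h'.2.1 h'.2.2)
      · rintro (rfl | rfl | rfl)
        · rw [c1]; exact h1.symm
        · rw [c2]; exact h2.symm
        · rw [c3]; exact h3
    have h4 : c.support.card = 3 := by rw [hs]; exact Finset.card_eq_three.2 ⟨x, y, z, h1, h3, h2, rfl⟩
    exact ⟨c, hc, (card_support_eq_three_iff.1 h4).isCycle, h4, by rw [c1]; exact h1.symm⟩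

theorem R3.trans {x y z u v : α} (h1 : R3 H x y u) (h2 : R3 H y z v) (hxz : x ≠ z) : ∃ w, R3 H x z w := by
  by_cases hz : z = u
  · subst hz; exact ⟨_, h1.swp⟩
  obtain ⟨g, hg, g1, g2, g3, g4⟩ := h2.act h1.swp
  rw [g3, g4 z hxz.symm hz h2.1.symm] at hg
  exact ⟨_, hg⟩

theorem R3.full {x y z u v : α} (h1 : R3 H x y u) (h2 : R3 H x z v) (hyz : y ≠ z) : R3 H x y z := by
  by_cases hz : z = u
  · subst hz; exact h1
  obtain ⟨w, hw⟩ := h1.rot.rot.trans h2 (Ne.symm hz)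
  by_cases hwx : w = x
  · subst hwx
    obtain ⟨g, hg, g1, g2, g3, g4⟩ := h1.act hw
    rw [g3, g4 y h1.2.1 hyz h1.1.symm, g1] at hg
    obtain ⟨k, hk, k1, k2, k3, k4⟩ := hg.act h1.swp
    rw [k2, k3, k4 z h2.1.symm hz hyz.symm] at hk
    exact hk.rot.swp
  by_cases hwy : w = y
  · subst hwy
    obtain ⟨g, hg, g1, g2, g3, g4⟩ := h1.act hw
    rw [g4 x h1.2.2.1 h2.1 h1.1, g3, g1] at hg
    obtain ⟨k, hk, k1, k2, k3, k4⟩ := hg.act h1
    rw [k1, k3, k4 z h2.1.symm hyz.symm hz] at hk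
    exact hk.swp.rot.rot
  obtain ⟨g, hg, g1, g2, g3, g4⟩ := h1.act hw
  rwa [g4 x h1.2.2.1 h2.1 (Ne.symm hwx), g4 y h1.2.1 hyz (Ne.symm hwy), g1] at hg

/-- the blocks -/
def blk (H : Subgroup (Perm α)) : Setoid α where
  r x y := x = y ∨ (∃ z, R3 H x y z) ∨ (¬ Cyc H 3 x ∧ ¬ Cyc H 3 y)
  iseqv :=
    { refl := fun x => Or.inl rfl
      symm := by
        rintro x y (h | ⟨z, h⟩ | h)
        · exact Or.inl h.symm
        · exact Or.inr (Or.inl ⟨z, h.rot.swp⟩)
        · exact Or.inr (Or.inr h.symm)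
      trans := by
        rintro x y z (h | ⟨u, h⟩ | h) (h' | ⟨v, h'⟩ | h')
        · exact Or.inl (h.trans h')
        · exact Or.inr (Or.inl ⟨v, h ▸ h'⟩)
        · exact Or.inr (Or.inr (h ▸ h'))
        · exact Or.inr (Or.inl ⟨u, h' ▸ h⟩)
        · by_cases hxz : x = z
          · exact Or.inl hxz
          · exact Or.inr (Or.inl (h.trans h' hxz))
        · exact absurd (cyc3_iff.2 ⟨_, _, h.rot⟩) h'.1
        · exact Or.inr (Or.inr (h' ▸ h))
        · exact absurd (cyc3_iff.2 ⟨_, _, h'⟩) h.2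
        · exact Or.inr (Or.inr ⟨h.1, h'.2⟩) }

/-- the block of a point -/
def bl (H : Subgroup (Perm α)) (x : α) : Quotient (blk H) := Quotient.mk _ x

theorem bl_eq {x y : α} : bl H x = bl H y ↔ x = y ∨ (∃ z, R3 H x y z) ∨ (¬ Cyc H 3 x ∧ ¬ Cyc H 3 y) := Quotient.eq

theorem bl_surj : Function.Surjective (bl H) := Quotient.mk_surjective

theorem le_K_bl : H ≤ K (bl H) := by
  have key : ∀ g ∈ H, ∀ x y, bl H x = bl H y → bl H (g x) = bl H (g y) := by
    intro g hg x y h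
    rw [bl_eq] at h ⊢
    rcases h with h | ⟨z, h⟩ | h
    · exact Or.inl (by rw [h])
    · exact Or.inr (Or.inl ⟨_, h.conj hg⟩)
    · exact Or.inr (Or.inr ⟨fun h' => h.1 (by simpa using h'.smul (H.inv_mem hg)), fun h' => h.2 (by simpa using h'.smul (H.inv_mem hg))⟩)
  intro g hg x y
  exact ⟨fun h => by simpa using key _ (H.inv_mem hg) _ _ h, key g hg x y⟩

theorem R3.of_bl {x y z w : α} (hw : Cyc H 3 w) (hx : bl H x = bl H w) (hy : bl H y = bl H w) (hz : bl H z = bl H w)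
    (h1 : x ≠ y) (h2 : y ≠ z) (h3 : x ≠ z) : R3 H x y z := by
  have hcx : Cyc H 3 x := by
    rcases bl_eq.1 hx with h | ⟨u, h⟩ | h
    · exact h ▸ hw
    · exact cyc3_iff.2 ⟨_, _, h⟩
    · exact absurd hw h.2
  rcases bl_eq.1 (hx.trans hy.symm) with h | ⟨u, h⟩ | h
  · exact absurd h h1
  · rcases bl_eq.1 (hx.trans hz.symm) with h' | ⟨v, h'⟩ | h'
    · exact absurd h' h3
    · exact h.full h' h2
    · exact absurd hcx h'.1
  · exact absurd hcx h.1

theorem prime_dvd_alt {γ : Type*} [Fintype γ] [DecidableEq γ] {r : ℕ} (hr : r.Prime) (h : r ≤ Fintype.card γ)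
    (h2 : r = 2 → 4 ≤ Fintype.card γ) : r ∣ Nat.card (alternatingGroup γ) := by
  haveI : Nontrivial γ := Fintype.one_lt_card_iff_nontrivial.1 (lt_of_lt_of_le hr.one_lt h)
  have h1 := two_mul_nat_card_alternatingGroup (α := γ)
  rw [Nat.card_perm, Nat.card_eq_fintype_card (α := γ)] at h1
  by_cases hr2 : r = 2
  · have h4 : 2 * 2 ∣ (Fintype.card γ).factorial := Nat.dvd_factorial (by norm_num) (h2 hr2)
    rw [← h1] at h4
    rw [hr2]; exact Nat.dvd_of_mul_dvd_mul_left (by norm_num) h4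
  · have h4 := hr.dvd_factorial.2 h
    rw [← h1] at h4
    exact ((Nat.coprime_primes hr Nat.prime_two).2 hr2).dvd_of_dvd_mul_left h4

theorem le_of_dvd_alt {r : ℕ} (hr : r.Prime) (h : r ∣ Nat.card (alternatingGroup α)) : r ≤ Fintype.card α := by
  have := h.trans (alternatingGroup α).card_subgroup_dvd_card
  rw [Nat.card_perm, Nat.card_eq_fintype_card] at this
  exact hr.dvd_factorial.1 this

open scoped Classical in
theorem prime_dvd_of_bl {w : α} (hw : Cyc H 3 w) {r : ℕ} (hr : r.Prime) (h : r ≤ fib (bl H) (bl H w))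
    (h2 : r = 2 → 4 ≤ fib (bl H) (bl H w)) : r ∣ Nat.card H := by
  have hc : Fintype.card {x // bl H x = bl H w} = fib (bl H) (bl H w) := by rw [Fintype.card_subtype]; rfl
  have h1 := prime_dvd_alt (γ := {x // bl H x = bl H w}) hr (hc ▸ h) (hc ▸ h2)
  have h3 : (alternatingGroup {x // bl H x = bl H w}).map Perm.ofSubtype ≤ H := by
    rw [← Perm.closure_three_cycles_eq_alternating, MonoidHom.map_closure, Subgroup.closure_le]
    rintro _ ⟨c, hc, rfl⟩
    obtain ⟨x, hx⟩ := hc.isCycle.nonempty_support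
    obtain ⟨y, z, h1, h2, h3, d, hd, d1, d2, d3, d4⟩ := (cyc3_iff (H := Subgroup.zpowers c) (x := x)).1
      ⟨c, Subgroup.mem_zpowers c, hc.isCycle, hc.card_support, Perm.mem_support.1 hx⟩
    obtain ⟨-, -, -, e, he, e1, e2, e3, e4⟩ := R3.of_bl hw x.2 y.2 z.2 (Subtype.val_injective.ne h1) (Subtype.val_injective.ne h2)
      (Subtype.val_injective.ne h3)
    have hde : Perm.ofSubtype d = e := by
      ext t
      by_cases ht : bl H t = bl H w
      · rw [Perm.ofSubtype_apply_of_mem d ht]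
        by_cases a : t = x
        · subst a; rw [e1, ← d1]
        by_cases b : t = y
        · subst b; rw [e2, ← d2]
        by_cases c : t = z
        · subst c; rw [e3, ← d3]
        rw [e4 t a b c, d4 _ (fun h => a (congrArg Subtype.val h)) (fun h => b (congrArg Subtype.val h)) (fun h => c (congrArg Subtype.val h))]
      · rw [Perm.ofSubtype_apply_of_not_mem d ht, e4 t (fun h => ht (h ▸ x.2)) (fun h => ht (h ▸ y.2)) (fun h => ht (h ▸ z.2))]
    have hd1 : d ≠ 1 := fun h => h1 (by rw [← d1, h]; rfl)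
    have : c ∈ Subgroup.zpowers d := by
      haveI : Fact (Nat.Prime 3) := ⟨Nat.prime_three⟩
      have h5 : Nat.card (Subgroup.zpowers c) = 3 := by rw [Nat.card_zpowers, hc.orderOf]
      have h6 := (mem_zpowers_of_prime_card h5 (g := (⟨d, hd⟩ : Subgroup.zpowers c)) (g' := ⟨c, Subgroup.mem_zpowers c⟩)
        (fun h => hd1 (congrArg Subtype.val h)))
      obtain ⟨i, hi⟩ := h6
      exact ⟨i, congrArg Subtype.val hi⟩
    obtain ⟨i, rfl⟩ := this
    simp only [SetLike.mem_coe, map_zpow, hde]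
    exact H.zpow_mem he i
  refine h1.trans (dvd_trans ?_ (Subgroup.card_dvd_of_le h3))
  rw [Subgroup.card_map_of_injective Perm.ofSubtype_injective]

theorem index_dvd_relIndex {L : Subgroup (Perm α)} (hL : H ≤ L) {x y : α} (hxy : x ≠ y) (h : swap x y ∈ L) :
    L.index ∣ H.relIndex (alternatingGroup α) := by
  haveI : Nontrivial α := ⟨x, y, hxy⟩
  have h1 := Subgroup.relIndex_mul_index (H := L ⊓ alternatingGroup α) inf_le_right
  have h2 := Subgroup.relIndex_mul_index (H := L ⊓ alternatingGroup α) inf_le_left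
  have h3 : (alternatingGroup α).relIndex L = 2 := by
    rw [Subgroup.relIndex_eq_two_iff_exists_notMem_and]
    refine ⟨swap x y, h, by simp [Perm.mem_alternatingGroup, hxy], fun b _ => ?_⟩
    rcases Int.units_eq_one_or (Perm.sign b) with hb | hb <;> simp [Perm.mem_alternatingGroup, hxy, hb]
  rw [Subgroup.inf_relIndex_right, alternatingGroup.index_eq_two] at h1
  rw [Subgroup.inf_relIndex_left, h3, ← h1] at h2
  have : L.index = L.relIndex (alternatingGroup α) := by omega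
  rw [this]
  exact Subgroup.relIndex_dvd_of_le_left _ hL

/-- stabiliser of the partition `{B, Bᶜ}` -/
def KB (B : Finset α) : Subgroup (Perm α) := K (fun x => decide (x ∈ B))

/-- the exceptional types -/
def Typ (π : Set ℕ) (n k : ℕ) : Prop :=
  (n.Prime ∧ k + 1 = n ∧ ∀ r : ℕ, r.Prime → r ≤ n → (r ∈ π ↔ r < n)) ∨
    (k = 4 ∧ (n = 7 ∨ n = 8) ∧ ∀ r : ℕ, r.Prime → r ≤ n → (r ∈ π ↔ (r = 2 ∨ r = 3)))

theorem main (H : Subgroup (Perm α)) (π : Set ℕ) (hπ : ∀ p, p.Prime → p ∣ Nat.card H → p ∈ π)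
    (hH : ∀ p, p.Prime → p ∈ π → ¬ p ∣ H.relIndex (alternatingGroup α))
    (h2 : ∃ r s : ℕ, r.Prime ∧ s.Prime ∧ r ≠ s ∧ r ∈ π ∧ s ∈ π ∧ r ≤ Fintype.card α ∧ s ≤ Fintype.card α)
    (hns : ∃ r : ℕ, r.Prime ∧ r ≤ Fintype.card α ∧ r ∉ π) :
    ∃ B : Finset α, H ≤ KB B ∧ Typ π (Fintype.card α) B.card := by
  classical
  obtain ⟨r, s, hr, hs, hrs, hrπ, hsπ, hrn, hsn⟩ : ∃ r s : ℕ, r.Prime ∧ s.Prime ∧ r < s ∧ r ∈ π ∧ s ∈ π ∧ r ≤ Fintype.card α ∧ s ≤ Fintype.card α := by
    obtain ⟨r, s, hr, hs, hrs, hrπ, hsπ, hrn, hsn⟩ := h2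
    rcases lt_or_gt_of_ne hrs with h | h
    · exact ⟨r, s, hr, hs, h, hrπ, hsπ, hrn, hsn⟩
    · exact ⟨s, r, hs, hr, h, hsπ, hrπ, hsn, hrn⟩
  have hr2 := hr.two_le
  have h2π : 2 ∈ π := by
    by_contra h
    exact h (hπ 2 Nat.prime_two (caseA H hr (fun h' => h (h' ▸ hrπ)) (hH r hr hrπ) hs hrs (hH s hs hsπ) hsn))
  have h3π : 3 ∈ π := by
    by_contra h
    have h3 : s ≠ 3 := fun h' => h (h' ▸ hsπ)
    have h4 : s ≠ 4 := fun h' => by rw [h'] at hs; exact absurd hs (by norm_num)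
    exact h (hπ 3 Nat.prime_three (caseB H (hH 2 Nat.prime_two h2π) hs (by omega) (hH s hs hsπ) hsn))
  have hcov := cyc_cover H Nat.prime_three (by norm_num) (hH 3 Nat.prime_three h3π)
  have hc3 : ∀ w, Cyc H 3 w → 3 ≤ fib (bl H) (bl H w) := by
    intro w hw
    obtain ⟨y, z, h⟩ := cyc3_iff.1 hw
    exact Finset.two_lt_card_iff.2 ⟨w, y, z, by simp, by simpa using (bl_eq.2 (Or.inr (Or.inl ⟨z, h⟩))).symm,
      by simpa using (bl_eq.2 (Or.inr (Or.inl ⟨y, h.swp⟩))).symm, h.1, h.2.2.1, h.2.1⟩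
  have hc3' : ∀ w, 3 ≤ fib (bl H) (bl H w) → Cyc H 3 w := by
    intro w hw
    obtain ⟨x, hx, hx'⟩ := hcov _ hw
    simp only [mem_filter, mem_univ, true_and] at hx
    rcases bl_eq.1 hx.symm with h | ⟨u, h⟩ | h
    · exact h ▸ hx'
    · exact cyc3_iff.2 ⟨_, _, h⟩
    · exact absurd hx' h.2
  obtain ⟨w0, -, hw0⟩ := hcov univ (by rw [Finset.card_univ]; omega)
  obtain ⟨B, -, hB⟩ := Finset.exists_max_image (univ : Finset (Quotient (blk H))) (fib (bl H)) ⟨bl H w0, mem_univ _⟩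
  obtain ⟨w, rfl⟩ := bl_surj B
  have hB3 : 3 ≤ fib (bl H) (bl H w) := (hc3 w0 hw0).trans (hB _ (mem_univ _))
  have hw := hc3' w hB3
  have hin : ∀ p, p.Prime → p ≤ fib (bl H) (bl H w) → p ∈ π := by
    intro p hp hpb
    by_cases h : p = 2
    · exact h ▸ h2π
    · exact hπ p hp (prime_dvd_of_bl hw hp hpb (fun h' => absurd h' h))
  have hout : ∀ q, q.Prime → q ≤ Fintype.card α → q ∈ π → q ≤ fib (bl H) (bl H w) := by
    intro q hq hqn hqπ
    by_cases h : q = 2
    · omega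
    have hq2 := hq.two_le
    obtain ⟨-, -, σ, hσ, hc, hcs, -⟩ := cyc_cover H hq h (hH q hq hqπ) univ hqn
    obtain ⟨x, hx, hx'⟩ := hcov σ.support (by omega)
    obtain ⟨y, z, hy⟩ := cyc3_iff.1 hx'
    have := cyc_block hc (hcs ▸ hq) (fun t => bl H t = bl H x) rfl (bl_eq.2 (Or.inr (Or.inl ⟨z, hy⟩))).symm hy.1
      (Perm.mem_support.1 hx) (by
        rintro i ⟨t, ht, ht'⟩ u hu
        rw [← ht', le_K_bl (H.pow_mem hσ i), hu, ht])
    refine le_trans ?_ (hB (bl H x) (mem_univ _))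
    rw [← hcs]
    exact Finset.card_le_card (fun t ht => by simpa using this t (Perm.mem_support.1 ht))
  obtain ⟨y, z, hy⟩ := cyc3_iff.1 hw
  have hsw : swap w y ∈ K (bl H) := by
    apply St_le_K
    intro t
    have hwy : bl H w = bl H y := bl_eq.2 (Or.inr (Or.inl ⟨z, hy⟩))
    rw [swap_apply_def]
    split_ifs with a b
    · rw [a, hwy]
    · rw [b, hwy]
    · rfl
  have hidx := index_dvd_relIndex le_K_bl hy.1 hsw
  obtain ⟨t, ht, htn, htπ⟩ := hns
  obtain ⟨hu, hsh⟩ := shape (bl H) bl_surj (bl H w) (fun c => hB c (mem_univ _)) hB3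
    (by
      intro c d hc hd
      obtain ⟨a, rfl⟩ := bl_surj c
      obtain ⟨b, rfl⟩ := bl_surj d
      exact bl_eq.2 (Or.inr (Or.inr ⟨fun h => by have := hc3 _ h; omega, fun h => by have := hc3 _ h; omega⟩)))
    (by by_contra h; exact htπ (hin t ht (by omega)))
    (fun p hp hpb hd => hH p hp (hin p hp hpb) (hd.trans hidx))
  refine ⟨univ.filter (fun x => bl H x = bl H w), fun g hg a b => ?_, ?_⟩
  · have key : ∀ a b, (decide (a ∈ univ.filter (fun x => bl H x = bl H w)) = decide (b ∈ univ.filter (fun x => bl H x = bl H w))) ↔ bl H a = bl H b := by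
      intro a b
      simp only [mem_filter, mem_univ, true_and, decide_eq_decide]
      constructor
      · intro h
        by_cases ha : bl H a = bl H w
        · rw [ha, h.1 ha]
        · exact hu _ _ ha (fun hb => ha (h.2 hb))
      · intro h; rw [h]
    rw [key, key, le_K_bl hg]
  · change Typ π _ (fib (bl H) (bl H w))
    rcases hsh with ⟨h1, h2⟩ | ⟨h1, h2⟩
    · exact Or.inl ⟨h1, h2, fun p hp hpn => ⟨fun h => by have := hout p hp hpn h; omega, fun h => hin p hp (by omega)⟩⟩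
    · refine Or.inr ⟨h1, h2, fun p hp hpn => ⟨fun h => ?_, fun h => hin p hp (by omega)⟩⟩
      have h3 := hout p hp hpn h
      have h4 := hp.two_le
      have h5 : p ≠ 4 := fun h' => by rw [h'] at hp; exact absurd hp (by norm_num)
      omega

end H7.Hall
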