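import Cfsg.Agent.H7.Hall4
import Cfsg.Agent.H2.Factor

set_option autoImplicit false
set_option linter.style.longLine false
set_option linter.unusedSectionVars false

namespace H7.Hall
open Equiv Finset Cfsg

theorem dpi_small {G : Type*} [Group G] [Finite G] (π : Set ℕ)
    (h : (∀ r s : ℕ, r.Prime → s.Prime → r ∈ π → s ∈ π → r ∣ Nat.card G → s ∣ Nat.card G → r = s) ∨
      ∀ r : ℕ, r.Prime → r ∣ Nat.card G → r ∈ π) : H2.DPi π G := by
  rcases h with h | h
  · by_cases he : ∃ p, p.Prime ∧ p ∈ π ∧ p ∣ Nat.card G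
    · obtain ⟨p, hp, hp', hpG⟩ := he
      haveI := Fact.mk hp
      obtain ⟨H, ⟨h1, h2⟩, h3⟩ := H2.dPi_singleton p G
      exact ⟨H, ⟨fun q hq hd => (h1 q hq hd : q = p) ▸ hp', fun q hq hq' hd =>
        h2 q hq (h q p hq hp hq' hp' (hd.trans H.index_dvd_card) hpG) hd⟩,
        fun K hK => h3 K fun q hq hd => h q p hq hp (hK q hq hd) hp' (hd.trans K.card_subgroup_dvd_card) hpG⟩
    · refine ⟨⊥, ⟨fun q hq hd => absurd (by simpa using hd) hq.one_lt.ne', fun q hq hq' hd =>
        absurd ⟨q, hq, hq', by simpa using hd⟩ he⟩, fun K hK => ⟨1, fun k hk => ?_⟩⟩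
      have : Nat.card K = 1 := Nat.eq_one_iff_not_exists_prime_dvd.2 fun q hq hd =>
        he ⟨q, hq, hK q hq hd, hd.trans K.card_subgroup_dvd_card⟩
      rw [Subgroup.card_eq_one] at this
      simpa [this] using hk
  · exact H2.dPi_of_piNum h

theorem cpi_of_dpi {G : Type*} [Group G] [Finite G] {π : Set ℕ} (h : H2.DPi π G) : IsCPiGroup π G := by
  refine ⟨h.exists_hall, fun H K hH hK => ?_⟩
  obtain ⟨g, hg⟩ := h.exists_conj_eq hH hK
  exact ⟨g, hg.symm⟩

theorem hall_subgroupOf {G : Type*} [Group G] [Finite G] {π : Set ℕ} {H : Subgroup G} (h : IsPiHall π H) (N : Subgroup G)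
    [N.Normal] : IsPiHall π (H.subgroupOf N) := by
  have := H2.isPiHall_subgroupOf (H2.isPiHallOf_inf_of_normal h N)
  rwa [Subgroup.inf_subgroupOf_right] at this

variable {α : Type*} [Fintype α] [DecidableEq α]

theorem fib_true (B : Finset α) : fib (fun x => decide (x ∈ B)) true = B.card := by simp [fib]

theorem fib_false (B : Finset α) : fib (fun x => decide (x ∈ B)) false = Fintype.card α - B.card := by
  rw [← Finset.card_compl]; unfold fib; congr 1; ext x; simp

theorem surj_B {B : Finset α} (h1 : 0 < B.card) (h2 : B.card < Fintype.card α) :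
    Function.Surjective (fun x => decide (x ∈ B)) := by
  intro b
  cases b
  · obtain ⟨x, hx⟩ : Bᶜ.Nonempty := Finset.card_pos.1 (by rw [Finset.card_compl]; omega)
    exact ⟨x, by simpa using hx⟩
  · obtain ⟨x, hx⟩ := Finset.card_pos.1 h1
    exact ⟨x, by simpa using hx⟩

theorem prime_KB {B : Finset α} (h1 : 0 < B.card) (h2 : B.card < Fintype.card α) {p : ℕ} (hp : p.Prime)
    (h : p ∣ Nat.card (KB B)) : p ≤ B.card ∨ p ≤ Fintype.card α - B.card ∨ p ≤ 2 := by
  rcases prime_K _ (surj_B h1 h2) hp h with ⟨b, hb⟩ | ⟨s, hs⟩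
  · cases b
    · exact Or.inr (Or.inl (fib_false B ▸ hb))
    · exact Or.inl (fib_true B ▸ hb)
  · exact Or.inr (Or.inr (hs.trans (fib_le _ _)))

theorem card_St_B {B : Finset α} (h1 : 0 < B.card) (h2 : B.card < Fintype.card α) :
    Nat.card (St (fun x => decide (x ∈ B))) = B.card.factorial * (Fintype.card α - B.card).factorial := by
  rw [card_St, Finset.image_univ_of_surjective (surj_B h1 h2), Fintype.prod_bool, fib_true, fib_false]

theorem KB_hall {π : Set ℕ} {B : Finset α} (h3 : 3 ≤ Fintype.card α) (h : Typ π (Fintype.card α) B.card) :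
    IsPiHall π (KB B) := by
  have h1 : 0 < B.card := by rcases h with h | h <;> omega
  have h2 : B.card < Fintype.card α := by rcases h with h | h <;> omega
  have hS := card_St_B h1 h2
  have hi := (St (fun x => decide (x ∈ B))).card_mul_index
  rw [hS, Nat.card_perm, Nat.card_eq_fintype_card (α := α)] at hi
  have hd : (KB B).index ∣ (St (fun x => decide (x ∈ B))).index := Subgroup.index_dvd_of_le (St_le_K _)
  refine ⟨fun p hp hpd => ?_, fun p hp hpπ hpd => ?_⟩
  · have := prime_KB h1 h2 hp hpd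
    have h4 := hp.two_le
    have h5 : p ≠ 4 := fun h' => by rw [h'] at hp; exact absurd hp (by norm_num)
    rcases h with ⟨-, h, h'⟩ | ⟨h, h'', h'⟩
    · exact (h' p hp (by omega)).2 (by omega)
    · exact (h' p hp (by omega)).2 (by omega)
  · rcases h with ⟨hn, h, h'⟩ | ⟨h, h'' | h'', h'⟩
    · rw [← h, Nat.add_sub_cancel_left, Nat.factorial_one, mul_one, Nat.factorial_succ, mul_comm] at hi
      have := Nat.eq_of_mul_eq_mul_right (Nat.factorial_pos _) hi
      rw [this, h] at hd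
      have h6 := (Nat.prime_dvd_prime_iff_eq hp hn).1 (hpd.trans hd)
      have := (h' p hp h6.le).1 hpπ
      omega
    · rw [h, h''] at hi
      have h7 : (St (fun x => decide (x ∈ B))).index = 35 := by simp only [Nat.factorial] at hi; omega
      have h8 := hpd.trans (h7 ▸ hd)
      have h9 : p ≤ 7 := by
        rcases (Nat.Prime.dvd_mul hp (m := 5) (n := 7)).1 h8 with h | h <;> have := Nat.le_of_dvd (by norm_num) h <;> omega
      rcases (h' p hp (by omega)).1 hpπ with rfl | rfl <;> omega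
    · have hc := card_K_eq _ (surj_B h1 h2)
      rw [hS, h, h''] at hc
      obtain ⟨g, hg⟩ := Perm.exists_map_finset_eq B Bᶜ (by rw [Finset.card_compl]; omega)
      have hg' : ∀ x, g x ∈ B ↔ x ∉ B := by
        intro x
        have : g x ∈ Bᶜ ↔ x ∈ B := by rw [← hg]; simp
        rw [← this]; simp
      have hgK : g ∈ K (fun x => decide (x ∈ B)) := by
        intro x y; simp only [decide_eq_decide, hg']; tauto
      have hr : 2 ∣ Nat.card (phi _ (surj_B h1 h2)).range := by
        have h5 : Nat.card (phi _ (surj_B h1 h2)).range ∣ 2 := by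
          have := (phi _ (surj_B h1 h2)).range.card_subgroup_dvd_card
          rwa [Nat.card_perm, Nat.card_eq_fintype_card (α := Bool), Fintype.card_bool] at this
        rcases (Nat.dvd_prime Nat.prime_two).1 h5 with h6 | h6
        · rw [Subgroup.card_eq_one] at h6
          have h7 : phi _ (surj_B h1 h2) ⟨g, hgK⟩ = 1 := by rw [← Subgroup.mem_bot, ← h6]; exact ⟨_, rfl⟩
          obtain ⟨x, hx⟩ := Finset.card_pos.1 h1
          have := phi_apply _ (surj_B h1 h2) ⟨g, hgK⟩ x
          rw [h7] at this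
          simp [hg', hx] at this
        · rw [h6]
      obtain ⟨c, hc'⟩ := hr
      have hj := (KB B).card_mul_index
      rw [Nat.card_perm, Nat.card_eq_fintype_card (α := α), h''] at hj
      unfold KB at hj hpd
      rw [hc, hc'] at hj
      have h8 : p ∣ 35 := by
        refine hpd.trans ⟨c, ?_⟩
        simp only [Nat.factorial] at hj
        nlinarith
      have h9 : p ≤ 7 := by
        rcases (Nat.Prime.dvd_mul hp (m := 5) (n := 7)).1 h8 with h | h <;> have := Nat.le_of_dvd (by norm_num) h <;> omega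
      rcases (h' p hp (by omega)).1 hpπ with rfl | rfl <;> omega

theorem KB_conj {B B' : Finset α} (h : B.card = B'.card) (h2 : 2 ≤ B.card) :
    ∃ g ∈ alternatingGroup α, KB B' = (KB B).map (MulAut.conj g).toMonoidHom := by
  obtain ⟨g, hgA, hg⟩ : ∃ g ∈ alternatingGroup α, ∀ x, g x ∈ B' ↔ x ∈ B := by
    obtain ⟨g, hg⟩ := Perm.exists_map_finset_eq B B' h
    have hg' : ∀ x, g x ∈ B' ↔ x ∈ B := by intro x; rw [← hg]; simp
    rcases Int.units_eq_one_or (Perm.sign g) with h1 | h1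
    · exact ⟨g, h1, hg'⟩
    · obtain ⟨a, ha, b, hb, hab⟩ := Finset.one_lt_card.1 h2
      refine ⟨g * swap a b, by simp [Perm.mem_alternatingGroup, h1, hab], fun x => ?_⟩
      rw [Perm.mul_apply, hg', swap_apply_def]
      split_ifs with h3 h4
      · simp [h3, ha, hb]
      · simp [h4, ha, hb]
      · rfl
  refine ⟨g, hgA, ?_⟩
  ext k
  rw [Subgroup.mem_map_equiv, MulAut.conj_symm_apply]
  unfold KB
  simp only [mem_K, decide_eq_decide, Perm.mul_apply, ← hg]
  constructor
  · intro hk x y; simpa using hk (g x) (g y)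
  · intro hk x y; simpa using hk (g⁻¹ x) (g⁻¹ y)

theorem Typ.eq {π : Set ℕ} {n k k' : ℕ} (h : Typ π n k) (h' : Typ π n k') : k = k' := by
  have h5 : Nat.Prime 5 := by norm_num
  rcases h with ⟨a, b, c⟩ | ⟨a, b, c⟩ <;> rcases h' with ⟨a', b', c'⟩ | ⟨a', b', c'⟩
  · omega
  · have := (c' 5 h5 (by omega)).1 ((c 5 h5 (by omega)).2 (by omega)); omega
  · have := (c 5 h5 (by omega)).1 ((c' 5 h5 (by omega)).2 (by omega)); omega
  · omega

/-- the non-degenerate case -/
def ND (π : Set ℕ) (n : ℕ) : Prop :=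
  (∃ r s : ℕ, r.Prime ∧ s.Prime ∧ r ≠ s ∧ r ∈ π ∧ s ∈ π ∧ r ≤ n ∧ s ≤ n) ∧ ∃ r : ℕ, r.Prime ∧ r ≤ n ∧ r ∉ π

theorem ND.three {π : Set ℕ} {n : ℕ} (h : ND π n) : 3 ≤ n := by
  obtain ⟨r, s, hr, hs, hrs, -, -, h1, h2⟩ := h.1
  have := hr.two_le; have := hs.two_le; omega

theorem Typ.two {π : Set ℕ} {n k : ℕ} (h : Typ π n k) (h3 : 3 ≤ n) : 2 ≤ k := by
  rcases h with h | h <;> omega

theorem hall_S {π : Set ℕ} (h : ND π (Fintype.card α)) {H : Subgroup (Perm α)} (hH : IsPiHall π H) :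
    ∃ B : Finset α, Typ π (Fintype.card α) B.card ∧ H = KB B := by
  obtain ⟨B, h1, h2⟩ := main H π hH.1 (hall_subgroupOf hH _).2 h.1 h.2
  exact ⟨B, h2, (H2.IsPiHall.eq_of_le hH h1 (KB_hall h.three h2).1).symm⟩

theorem hall_A {π : Set ℕ} (h : ND π (Fintype.card α)) {M : Subgroup (alternatingGroup α)} (hM : IsPiHall π M) :
    ∃ B : Finset α, Typ π (Fintype.card α) B.card ∧ M = (KB B).subgroupOf (alternatingGroup α) := by
  have hM' := H2.isPiHallOf_map_subtype hM
  obtain ⟨B, h1, h2⟩ := main _ π hM'.2.1 hM'.2.2 h.1 h.2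
  exact ⟨B, h2, (H2.IsPiHall.eq_of_le hM (fun m hm => h1 ⟨m, hm, rfl⟩) (hall_subgroupOf (KB_hall h.three h2) _).1).symm⟩

theorem dpi_S {π : Set ℕ} (h : ¬ ND π (Fintype.card α)) : H2.DPi π (Perm α) := by
  apply dpi_small
  rw [Nat.card_perm, Nat.card_eq_fintype_card]
  by_contra hc
  push Not at hc
  obtain ⟨⟨r, s, hr, hs, h1, h2, h3, h4, h5⟩, t, ht, h6, h7⟩ := hc
  exact h ⟨⟨r, s, hr, hs, h5, h1, h2, hr.dvd_factorial.1 h3, hs.dvd_factorial.1 h4⟩, t, ht, ht.dvd_factorial.1 h6, h7⟩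

theorem dpi_A {π : Set ℕ} (h : ¬ ND π (Fintype.card α)) : H2.DPi π (alternatingGroup α) := by
  apply dpi_small
  by_contra hc
  push Not at hc
  obtain ⟨⟨r, s, hr, hs, h1, h2, h3, h4, h5⟩, t, ht, h6, h7⟩ := hc
  exact h ⟨⟨r, s, hr, hs, h5, h1, h2, le_of_dvd_alt hr h3, le_of_dvd_alt hs h4⟩, t, ht, le_of_dvd_alt ht h6, h7⟩

theorem conj_subgroupOf {G : Type*} [Group G] {N : Subgroup G} {H : Subgroup G} {g : G} (hg : g ∈ N) :
    (H.map (MulAut.conj g).toMonoidHom).subgroupOf N = (H.subgroupOf N).map (MulAut.conj (⟨g, hg⟩ : N)).toMonoidHom := by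
  ext k
  rw [Subgroup.mem_subgroupOf, Subgroup.mem_map_equiv, Subgroup.mem_map_equiv, Subgroup.mem_subgroupOf]
  rfl

theorem not_dpi {n : ℕ} {π : Set ℕ} (h : ND π n) (h5 : 5 ≤ n) : ¬ H2.DPi π (alternatingGroup (Fin n)) := by
  rintro ⟨M, hM, hD⟩
  obtain ⟨B, hB, rfl⟩ := hall_A (by rwa [Fintype.card_fin]) hM
  rw [Fintype.card_fin] at hB
  have key : ∀ L : Subgroup (Perm (Fin n)), (∀ p, p.Prime → p ∣ Nat.card L → p ∈ π) →
      ∃ B' : Finset (Fin n), B'.card = B.card ∧ ∀ k ∈ L, Perm.sign k = 1 → k ∈ KB B' := by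
    intro L hL
    obtain ⟨g, hg⟩ := hD (L.subgroupOf _) (fun p hp hd => hL p hp (hd.trans (Subgroup.card_comap_dvd_of_injective _ _ Subtype.val_injective)))
    refine ⟨B.map g.1.toEmbedding, by simp, fun k hk hs x y => ?_⟩
    have := hg ⟨k, hs⟩ hk (g.1⁻¹ x) (g.1⁻¹ y)
    simpa [Finset.mem_map_equiv, Perm.inv_def] using this
  rcases hB with ⟨h1, h2, h3⟩ | ⟨h1, h2 | h2, h3⟩
  · obtain ⟨m, rfl⟩ : ∃ m, n = m + 5 := ⟨n - 5, by omega⟩
    have hc : ({0, 1} : Finset (Fin (m + 5))).card = 2 := Finset.card_pair (by simp)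
    obtain ⟨B', hB', hk⟩ := key (KB {0, 1}) (fun p hp hd => by
      have := prime_KB (by omega) (by rw [Fintype.card_fin]; omega) hp hd
      rw [Fintype.card_fin, hc] at this
      exact (h3 p hp (by omega)).2 (by omega))
    obtain ⟨x, hx⟩ := Finset.card_eq_one.1 (show B'ᶜ.card = 1 by rw [Finset.card_compl, Fintype.card_fin]; omega)
    have hx' : ∀ y, y ∈ B' ↔ y ≠ x := by
      intro y
      rw [← not_iff_not, ← Finset.mem_compl, hx]; simp
    have hfix : ∀ k ∈ KB B', k x = x := by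
      intro k hk
      by_contra hne
      obtain ⟨z, hz1, hz2⟩ : ∃ z, z ≠ x ∧ z ≠ k⁻¹ x := by
        obtain ⟨z, hz⟩ : (({x, k⁻¹ x} : Finset _)ᶜ).Nonempty := Finset.card_pos.1 (by
          rw [Finset.card_compl, Fintype.card_fin]; have := Finset.card_le_two (a := x) (b := k⁻¹ x); omega)
        exact ⟨z, by simpa using hz⟩
      have := hk x z
      have h4 : k z ≠ x := fun h => hz2 (Perm.eq_inv_iff_eq.2 h)
      simp [hx', hne, hz1, h4] at this
    have hsw : ∀ a b : Fin (m + 5), (a ∈ ({0, 1} : Finset _) ↔ b ∈ ({0, 1} : Finset _)) → swap a b ∈ KB ({0, 1} : Finset (Fin (m + 5))) := by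
      intro a b hab
      apply St_le_K
      intro t
      rw [swap_apply_def]
      split_ifs with c d
      · rw [c]; exact decide_eq_decide.2 hab.symm
      · rw [d]; exact decide_eq_decide.2 hab
      · rfl
    have h01 : (0 : Fin (m + 5)) ≠ 1 := by simp
    obtain ⟨a, b, hab, ha, hb, hxa⟩ : ∃ a b : Fin (m + 5), a ≠ b ∧ a ∉ ({0, 1} : Finset _) ∧ b ∉ ({0, 1} : Finset _) ∧
        (x ∈ ({0, 1} : Finset _) ∨ x = a) := by
      have hcc : 1 < (({0, 1} : Finset (Fin (m + 5)))ᶜ).card := by rw [Finset.card_compl, Fintype.card_fin]; omega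
      by_cases hx0 : x ∈ ({0, 1} : Finset _)
      · obtain ⟨a, ha, b, hb, hab⟩ := Finset.one_lt_card.1 hcc
        exact ⟨a, b, hab, Finset.mem_compl.1 ha, Finset.mem_compl.1 hb, Or.inl hx0⟩
      · obtain ⟨b, hb, hbx⟩ := Finset.exists_mem_ne hcc x
        exact ⟨x, b, hbx.symm, hx0, Finset.mem_compl.1 hb, Or.inr rfl⟩
    have := hfix _ (hk (swap 0 1 * swap a b) (Subgroup.mul_mem _ (hsw _ _ (by simp)) (hsw _ _ (by tauto))) (by simp [hab, h01]))
    simp only [mem_insert, mem_singleton, not_or] at ha hb hxa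
    rw [Perm.mul_apply] at this
    rcases hxa with (rfl | rfl) | rfl
    · rw [swap_apply_of_ne_of_ne (Ne.symm ha.1) (Ne.symm hb.1), swap_apply_left] at this; exact h01 this.symm
    · rw [swap_apply_of_ne_of_ne (Ne.symm ha.2) (Ne.symm hb.2), swap_apply_right] at this; exact h01 this
    · rw [swap_apply_left, swap_apply_of_ne_of_ne hb.1 hb.2] at this; exact hab this.symm
  · subst h2
    obtain ⟨B', hB', hk⟩ := key (K (![0, 0, 0, 1, 1, 1, 2] : Fin 7 → Fin 3)) (fun p hp hd => by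
      have h4 : p ≤ 3 := by
        rcases prime_K _ (by decide) hp hd with ⟨b, hb⟩ | ⟨b, hb⟩
        · exact hb.trans (by clear hb; revert b; decide)
        · exact hb.trans (fib_le _ _)
      have := hp.two_le
      exact (h3 p hp (by omega)).2 (by omega))
    have a1 := hk (swap 0 1 * swap 0 2) (by rw [mem_K]; decide) (by decide)
    have a2 := hk (swap 0 3 * swap 1 4 * swap 2 5 * swap 0 1) (by rw [mem_K]; decide) (by decide)
    rw [h1] at hB'
    unfold KB at a1 a2
    rw [mem_K] at a1 a2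
    clear hk
    revert B'; decide +kernel
  · subst h2
    obtain ⟨B', hB', hk⟩ := key (K (![0, 0, 0, 1, 1, 1, 2, 2] : Fin 8 → Fin 3)) (fun p hp hd => by
      have h4 : p ≤ 3 := by
        rcases prime_K _ (by decide) hp hd with ⟨b, hb⟩ | ⟨b, hb⟩
        · exact hb.trans (by clear hb; revert b; decide)
        · exact hb.trans (fib_le _ _)
      have := hp.two_le
      exact (h3 p hp (by omega)).2 (by omega))
    have a1 := hk (swap 0 1 * swap 0 2) (by rw [mem_K]; decide) (by decide)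
    have a2 := hk (swap 3 4 * swap 3 5) (by rw [mem_K]; decide) (by decide)
    have a3 := hk (swap 0 1 * swap 6 7) (by rw [mem_K]; decide) (by decide)
    rw [h1] at hB'
    unfold KB at a1 a2 a3
    rw [mem_K] at a1 a2 a3
    clear hk
    revert B'; decide +kernel

end H7.Hall
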