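import Cfsg.Agent.H7.Fong
import Cfsg.Agent.H21.Tate5
import Cfsg.Agent.H23.Hom

/-!
# Harada's conjecture for `p`-solvable groups (Kiyota–Okuyama)
-/

set_option autoImplicit false
open Cfsg MonoidAlgebra
open H5 H8 H28
open scoped ComplexConjugate

namespace H7

universe u

variable {G : Type*} [Group G] [Finite G] {p : ℕ} {M : Ideal AlgInt}

/-- the central idempotent of `U` is supported on `p`-regular elements -/
def Van (p : ℕ) (U : Set (IrrCharacter G)) : Prop := ∀ x, p ∣ orderOf x → (fB U).coeff x = 0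

/-- Harada's property -/
def Har (p : ℕ) (M : Ideal AlgInt) (G : Type*) [Group G] [Finite G] : Prop :=
  ∀ U : Set (IrrCharacter G), Van p U → fB U ∈ VG M G

theorem van_iff {U : Set (IrrCharacter G)} [DecidablePred (· ∈ U)] :
    Van p U ↔ ∀ x, p ∣ orderOf x → ∑ χ with χ ∈ U, χ.1 1 * χ.1 x = 0 := by
  have h : ∀ x : G, (fB U).coeff x = 0 ↔ ∑ χ with χ ∈ U, χ.1 1 * χ.1 x⁻¹ = 0 := fun x => by
    rw [coeff_fB, blockCoeff_eq_sum, mul_eq_zero, or_iff_right (inv_ne_zero (by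
      exact_mod_cast Nat.card_pos.ne'))]
    simp only [irr_apply_inv]
  constructor
  · intro h1 x hx
    simpa using (h x⁻¹).1 (h1 _ (by simpa using hx))
  · intro h1 x hx
    exact (h x).2 (h1 _ (by simpa using hx))

theorem exists_fB_eq {z : ℂ[G]} (hz : z ∈ Zc ℂ G) (hi : IsIdempotentElem z) : ∃ A, z = fB A := by
  refine ⟨{χ | omega χ.1 z = 1}, eq_fB hz (fun _ h => h) fun χ h => ?_⟩
  have h1 : IsIdempotentElem (omega χ.1 z) := by
    show _ * _ = _
    rw [← omega_mul χ hz, hi.eq]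
  exact (IsIdempotentElem.iff_eq_zero_or_one.1 h1).resolve_right h

theorem eq_fB_of_ev {e : ℂ[G]} (he : IsIdempotentElem e) {U : Set (IrrCharacter G)}
    (h : ∀ χ : IrrCharacter G, ev χ.1 e = ev χ.1 (fB U)) : e = fB U := by
  classical
  have hi : ∀ A : Set (IrrCharacter G), IsIdempotentElem (fB A) := fB_mul_self
  have h1 : fB Uᶜ * e = 0 := by
    refine idem_eq_zero_of_coeff_one ((hi _).mul_of_commute (Zc_commute (fB_mem_Zc _) _) he) ?_
    rw [coeff_fB_mul, Finset.sum_eq_zero, mul_zero]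
    intro χ hχ
    rw [inv_one, ← one_def, mul_one, h, ← mul_one (fB U),
      ev_fB_mul_of_notMem (by simpa using hχ), mul_zero]
  have h2 : fB U * (1 - e) = 0 := by
    refine idem_eq_zero_of_coeff_one ((hi _).mul_of_commute (Zc_commute (fB_mem_Zc _) _)
      he.one_sub) ?_
    rw [coeff_fB_mul, Finset.sum_eq_zero, mul_zero]
    intro χ hχ
    rw [inv_one, ← one_def, mul_one, map_sub, h, ← mul_one (fB U),
      ev_fB_mul_of_mem (by simpa using hχ), sub_self, mul_zero]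
  rw [fB_compl, sub_mul, one_mul, sub_eq_zero] at h1
  rw [mul_sub, mul_one, sub_eq_zero] at h2
  rw [h1, ← h2]

theorem exists_cf_quot [Fact p.Prime] {N : Subgroup G} [N.Normal] (hN : IsPGroup p N) {χ : G → ℂ}
    (hχ : IsClassFunction G χ) : ∃ γ : G ⧸ N → ℂ, IsClassFunction _ γ ∧
      ∀ x : G, ¬ p ∣ orderOf x → γ x = χ x := by
  classical
  have hp : p.Prime := Fact.out
  obtain ⟨a, ha⟩ := IsPGroup.iff_card.1 hN
  have hc : ∀ x : G, ¬ p ∣ orderOf x → (orderOf x).Coprime (Nat.card N) := fun x hx => by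
    rw [ha]
    exact Nat.Coprime.pow_right _ ((Nat.Prime.coprime_iff_not_dvd hp).2 hx).symm
  let γ : G ⧸ N → ℂ := fun q =>
    if h : ∃ x : G, ¬ p ∣ orderOf x ∧ (x : G ⧸ N) = q then χ h.choose else 0
  have hγ : ∀ x : G, ¬ p ∣ orderOf x → γ x = χ x := fun x hx => by
    have h : ∃ y : G, ¬ p ∣ orderOf y ∧ (y : G ⧸ N) = x := ⟨x, hx, rfl⟩
    simp only [γ, dif_pos h]
    obtain ⟨n, -, hn⟩ := H23.exists_conj_eq_of_mk_eq (hc _ h.choose_spec.1) (hc _ hx)
      h.choose_spec.2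
    have := hχ.conj_apply n⁻¹ h.choose
    rw [inv_inv, hn] at this
    exact this.symm
  refine ⟨γ, ?_, hγ⟩
  have key : ∀ (g : G) (q : G ⧸ N), (∃ x : G, ¬ p ∣ orderOf x ∧ (x : G ⧸ N) = q) →
      ∃ x : G, ¬ p ∣ orderOf x ∧ (x : G ⧸ N) = g * q * (g : G ⧸ N)⁻¹ := by
    rintro g _ ⟨x, hx, rfl⟩
    exact ⟨g * x * g⁻¹, by rwa [orderOf_conj'], by simp⟩
  intro q y
  obtain ⟨g, rfl⟩ := QuotientGroup.mk_surjective y
  by_cases h : ∃ x : G, ¬ p ∣ orderOf x ∧ (x : G ⧸ N) = q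
  · obtain ⟨x, hx, rfl⟩ := h
    have h1 := hγ (g * x * g⁻¹) (by rwa [orderOf_conj'])
    rw [hγ x hx, ← hχ.conj_apply g x, ← h1]
    simp
  · have h' : ¬ ∃ x : G, ¬ p ∣ orderOf x ∧ (x : G ⧸ N) = g * q * (g : G ⧸ N)⁻¹ := fun h1 => h (by
      simpa [mul_assoc] using key g⁻¹ _ h1)
    simp only [γ, dif_neg h, dif_neg h']

theorem ev_congr_of_van {U : Set (IrrCharacter G)} (hU : Van p U) {α β : G → ℂ}
    (h : ∀ x, ¬ p ∣ orderOf x → α x = β x) : ev α (fB U) = ev β (fB U) := by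
  haveI := Fintype.ofFinite G
  rw [ev_eq_sum, ev_eq_sum]
  refine Finset.sum_congr rfl fun x _ => ?_
  by_cases hx : p ∣ orderOf x
  · rw [hU x hx, zero_mul, zero_mul]
  · rw [h x hx]

theorem Har.of_quot (hM : IsPModular p M) {N : Subgroup G} [N.Normal] (hN : IsPGroup p N)
    (h : Har p M (G ⧸ N)) : Har p M G := by
  classical
  haveI := Fact.mk hM.1
  haveI := Fintype.ofFinite G
  haveI := Fintype.ofFinite (G ⧸ N)
  intro U hU
  let f := QuotientGroup.mk' N
  have hf : Function.Surjective f := QuotientGroup.mk'_surjective N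
  have hF := push_fB hf U
  have hV : push f (fB U) ∈ VG M (G ⧸ N) := by
    rw [hF]
    refine h _ fun q hq => ?_
    rw [← hF, coeff_push]
    refine Finset.sum_eq_zero fun g hg => hU g (hq.trans ?_)
    rw [← (Finset.mem_filter.1 hg).2]
    exact orderOf_map_dvd f g
  have hi : IsIdempotentElem (push f (fB U)) := IsIdempotentElem.map (fB_mul_self U) _
  let a : ℂ[G] := ∑ q : G ⧸ N, single (Quotient.out q) ((push f (fB U)).coeff q)
  have ha : a ∈ VG M G := Subring.sum_mem _ fun q _ => single_mem_VG _ (mem_VG.1 hV q)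
  have ha' : push f a = push f (fB U) := by
    conv_rhs => rw [eq_sum_single (push f (fB U))]
    rw [map_sum]
    refine Finset.sum_congr rfl fun q _ => ?_
    rw [push_single]
    congr 1
    exact QuotientGroup.out_eq' q
  obtain ⟨e, he, hei, hea, -⟩ := H21.exists_idem_lift (push f) ha (by
    rw [← redG_push f ha, ha']
    show _ * _ = _
    rw [← redG_mul hV hV, hi.eq])
  have h1 : push f e = push f (fB U) := by
    refine idem_eq_of_redG_eq (push_mem_VG f he) hV (hei.map _) hi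
      (Zc_commute (push_mem_Zc hf (fB_mem_Zc U)) _).symm ?_
    rw [redG_push f he, hea, ← redG_push f ha, ha']
  rw [← eq_fB_of_ev hei (U := U) fun χ => ?_]
  · exact he
  obtain ⟨γ, hγ, hγ'⟩ := exists_cf_quot hN χ.2.isClassFunction
  have h2 : ev (χ.1 + (-1 : ℂ) • fun g => γ (f g)) e = 0 :=
    H21.ev_idem_eq_zero hM he hei (χ.2.isClassFunction.add ((hγ.comp f).smul _)) fun g hg => by
      simp [f, hγ' g hg]
  rw [ev_add_left, ev_smul_left, ← ev_push, h1, ev_push] at h2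
  rw [ev_congr_of_van hU (β := fun g => γ (f g)) fun x hx => (hγ' x hx).symm]
  linear_combination h2

theorem sum_fB_singleton : ∑ θ : IrrCharacter G, fB {θ} = 1 := by
  classical
  refine Zc_ext (sum_mem fun θ _ => fB_mem_Zc _) (one_mem _) fun χ => ?_
  rw [map_sum, Finset.sum_eq_single χ (fun θ _ h => omega_fB_of_notMem (B := {θ}) (Ne.symm h))
    (by simp), omega_fB_of_mem (B := {χ}) rfl, omega_one]

theorem dvd_orderOf_mul_of_mem (hp : p.Prime) {K : Subgroup G} [K.Normal] (hK : ¬ p ∣ Nat.card K)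
    {x y : G} (hx : p ∣ orderOf x) (hy : y ∈ K) : p ∣ orderOf (x * y) := by
  have h1 : x ^ orderOf (x * y) ∈ K := by
    rw [← QuotientGroup.eq_one_iff, QuotientGroup.mk_pow]
    have : (x : G ⧸ K) = ((x * y : G) : G ⧸ K) := by
      rw [QuotientGroup.mk_mul, (QuotientGroup.eq_one_iff y).2 hy, mul_one]
    rw [this, ← QuotientGroup.mk_pow, pow_orderOf_eq_one, QuotientGroup.mk_one]
  have h2 : x ^ (orderOf (x * y) * Nat.card K) = 1 := by
    rw [pow_mul]
    exact congrArg Subtype.val (pow_card_eq_one' (x := (⟨_, h1⟩ : K)))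
  exact ((Nat.Prime.dvd_mul hp).1 (hx.trans (orderOf_dvd_of_pow_eq_one h2))).resolve_right hK

theorem Van.coeff_mul (hp : p.Prime) {U : Set (IrrCharacter G)} (hU : Van p U) {K : Subgroup G}
    [K.Normal] (hK : ¬ p ∣ Nat.card K) {c : ℂ[G]} (hc : c ∈ Supp ℂ K) {x : G}
    (hx : p ∣ orderOf x) : (fB U * c).coeff x = 0 := by
  haveI := Fintype.ofFinite G
  rw [coeff_mul_sum']
  refine Finset.sum_eq_zero fun y _ => ?_
  by_cases hy : y ∈ K
  · rw [hU _ (dvd_orderOf_mul_of_mem hp hK hx (inv_mem hy)), zero_mul]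
  · rw [mem_Supp.1 hc y hy, mul_zero]

theorem Van.exists_inertia (hp : p.Prime) {U : Set (IrrCharacter G)} (hU : Van p U)
    {K : Subgroup G} [K.Normal] (hK : ¬ p ∣ Nat.card K) (θ : IrrCharacter K) :
    ∃ A : Set (IrrCharacter (H6.inertia θ.1)), Van p A ∧ fB U * fb K {θ} = fb _ A := by
  have hz : fB U ∈ H8.Fix ℂ (⊤ : Subgroup G) := mem_Zc_iff_Fix.1 (fB_mem_Zc U)
  have h1 : fB U * fb K {θ} ∈ Supp ℂ (H6.inertia θ.1) := by
    refine mem_Supp.2 fun y hy => ?_
    have h2 : y ∈ cs K y := by simp [cs]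
    rw [← H8.coeff_trunc_of_mem _ h2, trunc_cs_mul _ (fb_mem_ZA K {θ}).1,
      trunc_cs_mul_eq_zero (top_le_norm K (Subgroup.mem_top y)) (Fix_anti le_top hz)
        (fb_mem_ZA K {θ}) (fb_idem K {θ})]
    · rfl
    · rw [ca_fb_singleton, fb, fb, ← map_mul, fB_mul_fB_of_disjoint, map_zero]
      rw [Set.disjoint_singleton]
      intro h
      apply hy
      rw [← inv_mem_iff, H6.mem_inertia, ← cjI_coe, h]
  have h2 : fB U * fb K {θ} ∈ H8.Fix ℂ (H6.inertia θ.1) :=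
    mul_mem (Fix_anti le_top hz) (by rw [← stab_fb_singleton]; exact fun g hg => hg)
  have h3 : IsIdempotentElem (fB U * fb K {θ}) :=
    IsIdempotentElem.mul_of_commute (Zc_commute (fB_mem_Zc U) _) (fB_mul_self U) (fb_idem K {θ})
  obtain ⟨A, hA⟩ := exists_fB_eq (restr_mem_Zc_of_Fix h2) (by
    show _ * _ = _
    rw [← restr_mul_of_supp_left _ (mem_Supp.1 h1), h3.eq])
  refine ⟨A, fun x hx => ?_, by rw [← emb_restr_of_Supp h1, hA]; rfl⟩
  rw [← hA, coeff_restr]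
  exact hU.coeff_mul hp hK (fb_mem_ZA K {θ}).1 (by rwa [Subgroup.orderOf_coe])

theorem exists_ext_ppart (hp : p.Prime) {K : Subgroup G} [K.Normal] (hK : ¬ p ∣ Nat.card K)
    {θ : IrrCharacter K} (hinv : ∀ g, H6.cj g θ.1 = θ.1) {Γ : Type*} [Group Γ] [Finite Γ]
    {π : Γ →* G} {L : Subgroup Γ} [L.Normal] {τ : Γ → ℂ} {ν : L →* ℂˣ}
    (h : H6.IsCover θ.1 π L τ ν) : ∃ (μ : Γ →* ℂˣ) (m : ℕ), ¬ p ∣ m ∧
      ∀ l : L, ((μ l)⁻¹ * ν l) ^ m = 1 := by
  haveI := Fact.mk hp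
  obtain ⟨x, hx⟩ := exists_isPPart_of_finOrder (p := p)
    (orderOf_pos_iff.1 (H6.orderOf_hom_pos ν))
  obtain ⟨e, rfl⟩ := isPPart_exists_pow hx
  obtain ⟨P⟩ : Nonempty (Sylow p G) := inferInstance
  have hKT : K ≤ (P : Subgroup G) ⊔ K := le_sup_right
  have hrel : (K.subgroupOf ((P : Subgroup G) ⊔ K)).index.Coprime (Nat.card K) := by
    obtain ⟨a, ha⟩ := IsPGroup.iff_card.1 P.isPGroup'
    have h1 : K.relIndex ((P : Subgroup G) ⊔ K) ∣ p ^ a := by
      rw [Subgroup.relIndex_sup_right, ← ha]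
      exact Subgroup.relIndex_dvd_card _ _
    exact Nat.Coprime.coprime_dvd_left h1
      (Nat.Coprime.pow_left _ ((Nat.Prime.coprime_iff_not_dvd hp).2 hK))
  obtain ⟨η, hη, h3, -⟩ := H6.exists_canonical_ext_of_hall ((H6.irr_toSub hKT).2 θ.2)
    (fun t => by rw [H6.cj_toSub, hinv]) (by rw [card_subgroupOf hKT]; exact hrel)
  obtain ⟨ξ, hξ⟩ := (h.extends_iff_le θ.2 hKT).1 ⟨η, hη.isCharacter, fun n =>
    h3 ⟨⟨n, hKT n.2⟩, n.2⟩⟩
  obtain ⟨μ, hμ⟩ : ν ^ e ∈ H6.extSub L := by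
    refine H6.mem_extSub_of_sylow (fun g => funext fun l => ?_) fun r hr hr' => ?_
    · have := congrFun (h.inv g) l
      simp only [H6.cj_apply] at this ⊢
      simp only [MonoidHom.pow_apply, Units.val_pow_eq_pow_val, this]
    · obtain ⟨k, hk⟩ := isPPart_isPElt hx
      obtain rfl : r = p := (Nat.prime_dvd_prime_iff_eq hr hp).1 (hr.dvd_of_dvd_pow (hk ▸ hr'))
      refine ⟨_, h.le_comap hKT, ξ ^ e, ?_, fun n => by simp [hξ]⟩
      rw [Subgroup.index_comap_of_surjective _ h.surj]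
      exact fun h1 => P.not_dvd_index (h1.trans (Subgroup.index_dvd_of_le le_sup_left))
  refine ⟨μ, _, isPPart_not_dvd hx, fun l => ?_⟩
  have := DFunLike.congr_fun (pow_orderOf_eq_one ((ν ^ e)⁻¹ * ν)) l
  rw [hμ]
  exact this

theorem exists_model (hp : p.Prime) {G : Type u} [Group G] [Finite G] {K : Subgroup G} [K.Normal]
    [Fintype K] (hK : ¬ p ∣ Nat.card K) {θ : IrrCharacter K} (hinv : ∀ g, H6.cj g θ.1 = θ.1) :
    ∃ (Γ X : Type u) (_ : Group Γ) (_ : Group X) (_ : Finite Γ) (_ : Finite X) (π : Γ →* G)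
      (q : Γ →* X) (τ c : Γ → ℂ), Function.Surjective π ∧ Function.Surjective q ∧
      π.ker ≤ Subgroup.center Γ ∧ q.ker ≤ K.comap π ∧ (K.comap π).map q ≤ Subgroup.center X ∧
      ¬ p ∣ Nat.card ((K.comap π).map q) ∧ (∀ γ, ∃ l ∈ K.comap π, τ (l * γ) ≠ 0) ∧
      ∀ χ : IrrCharacter G, classInner (fun n : K => χ.1 n) θ.1 ≠ 0 → ∃ β : IrrCharacter X,
        (∀ l ∈ K.comap π, β.1 (q l) = β.1 1 * c l) ∧ ∀ γ, χ.1 (π γ) = β.1 (q γ) * τ γ := by
  classical
  haveI := Fact.mk hp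
  obtain ⟨Γ, _, _, π, L, _, τ, ν, h⟩ := H6.exists_cover θ.2 hinv
  obtain ⟨μ, m, hm, hμ⟩ := exists_ext_ppart hp hK hinv h
  obtain rfl := h.eq_comap
  haveI := Fintype.ofFinite (K.comap π)
  let c : Γ → ℂ := fun γ => if hγ : γ ∈ K.comap π then ((μ γ)⁻¹ * ν ⟨γ, hγ⟩ : ℂˣ) else 0
  have key : ∀ χ : IrrCharacter G, classInner (fun n : K => χ.1 n) θ.1 ≠ 0 →
      ∃ β : IrrCharacter Γ, (∀ l ∈ K.comap π, β.1 l = β.1 1 * c l) ∧ K.comap π ≤ charCenter β.1 ∧
        ∀ γ, χ.1 (π γ) = β.1 γ * (μ γ * τ γ) := fun χ hχ => by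
    obtain ⟨β, hβ, h1, h2⟩ := h.down θ.2 χ.2 hχ
    refine ⟨⟨_, H6.hom_mul_irr hβ μ⁻¹⟩, fun l hl => ?_, fun l hl => ?_, fun γ => ?_⟩
    · simp only [c, dif_pos hl]
      simp [h.apply_of_over hβ h1 ⟨l, hl⟩, mul_left_comm]
    · obtain ⟨a, ha⟩ := h.le_charCenter hβ h1 hl
      exact ⟨(μ l)⁻¹ * a, fun x => by simp [ha]; ring⟩
    · have := congrFun h2 γ
      simp only [Function.comp, Pi.mul_apply] at this
      simp [this]
      field_simp
  obtain ⟨χ₁, h₁⟩ := exists_irr_above θ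
  obtain ⟨β₁, hb1, hb2, -⟩ := key χ₁ h₁
  haveI := β₁.2.isCharacter.charKer_normal
  let J : Subgroup Γ := K.comap π ⊓ charKer β₁.1
  have hJ : ∀ l ∈ K.comap π, l ∈ J ↔ c l = 1 := fun l hl => by
    rw [Subgroup.mem_inf, and_iff_right hl, β₁.2.isCharacter.mem_charKer_iff, hb1 l hl,
      mul_eq_left₀ (irr_one_ne_zero β₁)]
  refine ⟨Γ, Γ ⧸ J, inferInstance, inferInstance, inferInstance, inferInstance, π,
    QuotientGroup.mk' J, fun γ => μ γ * τ γ, c, h.surj, QuotientGroup.mk'_surjective J, h.central,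
    by rw [QuotientGroup.ker_mk']; exact inf_le_left, ?_, fun hd => ?_, fun γ => ?_,
    fun χ hχ => ?_⟩
  · rintro _ ⟨l, hl, rfl⟩
    refine Subgroup.mem_center_iff.2 fun y => ?_
    obtain ⟨g, rfl⟩ := QuotientGroup.mk_surjective y
    rw [QuotientGroup.mk'_apply, ← QuotientGroup.mk_mul, ← QuotientGroup.mk_mul, eq_comm,
      QuotientGroup.eq_iff_div_mem, div_eq_mul_inv, mul_inv_rev, ← mul_assoc]
    refine ⟨?_, β₁.2.isCharacter.commutator_mem_charKer (hb2 hl) g⟩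
    rw [mul_assoc, mul_assoc, ← mul_assoc g]
    exact mul_mem hl (Subgroup.Normal.conj_mem inferInstance _ (inv_mem hl) g)
  · obtain ⟨⟨_, l, hl, rfl⟩, hy⟩ := exists_prime_orderOf_dvd_card' p hd
    rw [← Subgroup.orderOf_coe] at hy
    refine not_dvd_orderOf_of_pow hm ?_ hy.symm.dvd
    rw [← map_pow, QuotientGroup.mk'_apply, QuotientGroup.eq_one_iff, hJ _ (pow_mem hl m)]
    have := hμ ⟨l, hl⟩
    simp only [c, dif_pos (pow_mem hl m)]
    rw [show (⟨l ^ m, pow_mem hl m⟩ : K.comap π) = ⟨l, hl⟩ ^ m from rfl, map_pow, map_pow,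
      ← inv_pow, ← mul_pow, this, Units.val_one]
  · obtain ⟨l, hl, h1⟩ := H6.exists_coset_ne_zero h.char (h.irr_res θ.2) γ
    exact ⟨l, hl, mul_ne_zero (Units.ne_zero _) h1⟩
  · obtain ⟨β, h1, -, h2⟩ := key χ hχ
    obtain ⟨β', h3, h4⟩ := β.2.exists_descend (QuotientGroup.mk' J)
      (QuotientGroup.mk'_surjective J) fun l hl => by
        rw [QuotientGroup.ker_mk'] at hl
        rw [β.2.isCharacter.mem_charKer_iff, h1 l hl.1, (hJ l hl.1).1 hl, mul_one]
    refine ⟨⟨β', h3⟩, fun l hl => ?_, fun γ => by rw [h2, ← h4]⟩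
    show β' _ = β' 1 * _
    rw [h4, h1 l hl, ← h4, map_one]

theorem har_of_not_dvd (hM : IsPModular p M) (h : ¬ p ∣ Nat.card G) : Har p M G := by
  intro U _
  rw [← mul_one (fB U), ← sum_fB_singleton, Finset.mul_sum]
  refine Subring.sum_mem _ fun θ _ => ?_
  rw [fB_mul_fB]
  by_cases hθ : θ ∈ U
  · rw [Set.inter_eq_right.2 (Set.singleton_subset_iff.2 hθ)]
    exact fB_mem_VG hM (isPBlock_singleton hM h θ)
  · rw [Set.inter_singleton_eq_empty.2 hθ, fB_empty]
    exact zero_mem _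

theorem har_central [Fact p.Prime] (hM : IsPModular p M) {X : Type u} [Group X] [Finite X]
    (hX : IsPSolvable p X) (hc : pPrimeCore p X ≤ Subgroup.center X)
    (ih : ∀ (Y : Type u) [Group Y] [Finite Y], (pPrimeCore p Y).index < (pPrimeCore p X).index →
      IsPSolvable p Y → Har p M Y) : Har p M X := by
  by_cases hQ : pCore p X = ⊥
  · refine har_of_not_dvd hM ?_
    have h1 : pPrimeCore p X = ⊤ := top_le_iff.1 (le_trans (fun x _ =>
      Subgroup.mem_centralizer_iff.2 fun y hy => (Subgroup.mem_center_iff.1 (hc hy) x).symm)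
      (H1.centralizer_pPrimeCore_le_of_isPSolvable hX hQ))
    have h2 := not_dvd_card_pPrimeCore (G := X) hM.1
    rwa [h1, Subgroup.card_top] at h2
  refine Har.of_quot hM (isPGroup_pCore p X) (ih _ ?_ (H1.isPSolvable_quotient hX _))
  have h1 : (pPrimeCore p X).map (QuotientGroup.mk' (pCore p X)) ≤ pPrimeCore p _ :=
    H1.le_pPrimeCore_of_not_dvd (Subgroup.Normal.map inferInstance _
      (QuotientGroup.mk'_surjective _)) fun h => not_dvd_card_pPrimeCore hM.1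
        (h.trans (Subgroup.card_map_dvd _ _))
  refine lt_of_le_of_lt (Subgroup.index_antitone h1) ?_
  rw [Subgroup.index_map, QuotientGroup.ker_mk', QuotientGroup.range_mk', Subgroup.index_top,
    mul_one]
  refine Subgroup.index_strictAnti (lt_of_le_of_ne le_sup_left fun h => hQ ?_)
  have h2 : pCore p X ≤ pPrimeCore p X := h ▸ le_sup_right
  obtain ⟨a, ha⟩ := IsPGroup.iff_card.1 (isPGroup_pCore p X)
  have h3 := Subgroup.card_dvd_of_le h2
  rw [← Subgroup.card_eq_one, ha]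
  rcases a with _ | a
  · rfl
  · exact absurd ((dvd_pow_self p a.succ_ne_zero).trans (ha ▸ h3)) (not_dvd_card_pPrimeCore hM.1)

theorem sameBlock_of_central [Fact p.Prime] (hM : IsPModular p M) (hG : IsPSolvable p G)
    (hc : pPrimeCore p G ≤ Subgroup.center G) {χ ψ : IrrCharacter G}
    (h : ∀ z ∈ pPrimeCore p G, χ.1 z / χ.1 1 = ψ.1 z / ψ.1 1) : ψ ∈ blockOf M χ.1 := by
  haveI := Fintype.ofFinite (pPrimeCore p G)
  have hK := not_dvd_card_pPrimeCore (G := G) hM.1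
  obtain ⟨θ, hθ⟩ := exists_irr_below (pPrimeCore p G) χ
  have hinv : ∀ g, cjI g θ = θ := fun g => Subtype.ext (funext fun n => by
    rw [cjI_apply]
    refine congrArg _ (Subtype.ext ?_)
    show g * n * g⁻¹ = n
    rw [Subgroup.mem_center_iff.1 (hc n.2) g, mul_inv_cancel_right])
  obtain ⟨B, hB, -, hB'⟩ := exists_block_over_singleton hM hK (isPrim_top_of_pcon hM
    (H1.isPConstrained_of_isPSolvable hG) rfl (isPrim_eb hM (isPBlock_singleton hM hK θ))
    (eb_singleton_mem_Fix hinv))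
  rw [← eq_blockOf_of_mem hM hB ((hB' χ).2 hθ), hB']
  have : (fun n : pPrimeCore p G => ψ.1 n) = (ψ.1 1 / χ.1 1) • fun n : pPrimeCore p G => χ.1 n := by
    funext n
    have h1 := h n n.2
    have := irr_one_ne_zero χ
    have := irr_one_ne_zero ψ
    simp only [Pi.smul_apply, smul_eq_mul]
    field_simp at h1 ⊢
    exact h1.symm
  rw [this, classInner_smul_left]
  exact mul_ne_zero (div_ne_zero (irr_one_ne_zero ψ) (irr_one_ne_zero χ)) hθ

theorem har_stable [Fact p.Prime] (hM : IsPModular p M) {G : Type u} [Group G] [Finite G]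
    (hG : IsPSolvable p G) [Fintype (pPrimeCore p G)] {θ : IrrCharacter (pPrimeCore p G)}
    (hinv : ∀ g, H6.cj g θ.1 = θ.1)
    (ih : ∀ (Y : Type u) [Group Y] [Finite Y], (pPrimeCore p Y).index < (pPrimeCore p G).index →
      IsPSolvable p Y → Har p M Y) {U : Set (IrrCharacter G)} (hU : Van p U)
    (hUθ : ∀ χ ∈ U, classInner (fun n : pPrimeCore p G => χ.1 n) θ.1 ≠ 0) {χ ψ : IrrCharacter G}
    (hχ : χ ∈ U) (hψ : classInner (fun n : pPrimeCore p G => ψ.1 n) θ.1 ≠ 0) : ψ ∈ U := by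
  classical
  have hp := hM.1
  have hK := not_dvd_card_pPrimeCore (G := G) hp
  obtain ⟨Γ, X, _, _, _, _, π, q, τ, c, hπ, hq, h1, h2, h3, h4, h5, h6⟩ := exists_model hp hK hinv
  haveI : Nonempty (IrrCharacter X) := ⟨irrOne X⟩
  choose! b hb1 hb2 using h6
  have hinj : ∀ χ ψ : IrrCharacter G, classInner (fun n : pPrimeCore p G => χ.1 n) θ.1 ≠ 0 →
      classInner (fun n : pPrimeCore p G => ψ.1 n) θ.1 ≠ 0 → b χ = b ψ → χ = ψ :=
    fun χ ψ h h' e => Subtype.ext (funext fun g => by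
      obtain ⟨γ, rfl⟩ := hπ g
      rw [hb2 χ h, hb2 ψ h', e])
  have hpow : ∀ (γ : Γ) (m : ℕ), ¬ p ∣ m → q γ ^ m = 1 → ¬ p ∣ orderOf (π γ) := fun γ m hm h => by
    have h7 : π γ ^ m ∈ pPrimeCore p G := by
      rw [← map_pow] at h ⊢
      exact h2 h
    refine not_dvd_orderOf_of_pow (m := m * Nat.card (pPrimeCore p G))
      (fun h => ((Nat.Prime.dvd_mul hp).1 h).elim hm hK) ?_
    rw [pow_mul]
    exact congrArg Subtype.val (pow_card_eq_one' (x := (⟨_, h7⟩ : pPrimeCore p G)))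
  have hO : pPrimeCore p X = ((pPrimeCore p G).comap π).map q := by
    refine le_antisymm (fun y hy => ?_) (H1.le_pPrimeCore_of_not_dvd
      (Subgroup.Normal.map inferInstance _ hq) h4)
    obtain ⟨γ, rfl⟩ := hq y
    refine ⟨γ, ?_, rfl⟩
    refine H1.le_pPrimeCore_of_not_dvd (N := ((pPrimeCore p X).comap q).map π)
      (Subgroup.Normal.map inferInstance _ hπ) (fun hd => ?_) ⟨γ, hy, rfl⟩
    obtain ⟨⟨_, l, hl, rfl⟩, hy⟩ := exists_prime_orderOf_dvd_card' p hd
    rw [← Subgroup.orderOf_coe] at hy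
    exact hpow l _ (not_dvd_card_pPrimeCore hp) (congrArg Subtype.val
      (pow_card_eq_one' (x := (⟨_, hl⟩ : pPrimeCore p X)))) hy.symm.dvd
  have hΓ : IsPSolvable p Γ := H1.isPSolvable_of_ker_of_range π
    (H1.isPSolvable_of_isSolvable (Group.isSolvable_of_comm fun a b => Subtype.ext
      (Subgroup.mem_center_iff.1 (h1 b.2) a))) (H1.isPSolvable_subgroup hG _)
  have hX : IsPSolvable p X := H1.isPSolvable_of_surjective hΓ hq
  have hidx : (pPrimeCore p X).index = (pPrimeCore p G).index := by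
    rw [hO, Subgroup.index_map, sup_eq_left.2 h2, MonoidHom.range_eq_top.2 hq, Subgroup.index_top,
      mul_one, Subgroup.index_comap_of_surjective _ hπ]
  have hH := har_central hM hX (hO ▸ h3) (hidx ▸ ih)
  have hV : Van p (b '' U) := by
    rw [van_iff] at hU ⊢
    intro y hy
    obtain ⟨γ, rfl⟩ := hq y
    obtain ⟨l, hl, hτ⟩ := h5 γ
    have hsing : p ∣ orderOf (π (l * γ)) := by
      by_contra hn
      have h7 : q (l * γ) ^ orderOf (π (l * γ)) ∈ pPrimeCore p X := by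
        rw [hO, ← map_pow]
        refine ⟨_, ?_, rfl⟩
        rw [SetLike.mem_coe, Subgroup.mem_comap, map_pow, pow_orderOf_eq_one]
        exact one_mem _
      have h8 : ¬ p ∣ orderOf (q (l * γ)) := by
        refine not_dvd_orderOf_of_pow (m := orderOf (π (l * γ)) * Nat.card (pPrimeCore p X))
          (fun h => ((Nat.Prime.dvd_mul hp).1 h).elim hn (not_dvd_card_pPrimeCore hp)) ?_
        rw [pow_mul]
        exact congrArg Subtype.val (pow_card_eq_one' (x := (⟨_, h7⟩ : pPrimeCore p X)))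
      apply h8
      rw [map_mul, ← orderOf_conj' (q l)⁻¹, inv_inv, ← mul_assoc, inv_mul_cancel, one_mul]
      exact dvd_orderOf_mul_of_mem hp (not_dvd_card_pPrimeCore hp) hy (hO ▸ ⟨l, hl, rfl⟩)
    have h7 := hU _ hsing
    have h8 : (Finset.univ.filter (· ∈ b '' U)) = (Finset.univ.filter (· ∈ U)).image b := by
      ext; simp
    rw [h8, Finset.sum_image fun χ h ψ h' e => hinj χ ψ (hUθ χ (by simpa using h))
      (hUθ ψ (by simpa using h')) e]
    have hτ1 : τ 1 ≠ 0 := fun h => irr_one_ne_zero χ (by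
      rw [← map_one π, hb2 χ (hUθ χ hχ), h, mul_zero])
    have hc : c l ≠ 0 := fun h => by
      obtain ⟨a, ha⟩ := (b χ).2.center_le_charCenter (h3 ⟨l, hl, rfl⟩)
      have h9 := ha 1
      rw [mul_one, hb1 χ (hUθ χ hχ) l hl, h, mul_zero] at h9
      exact mul_ne_zero a.ne_zero (irr_one_ne_zero _) h9.symm
    refine mul_left_cancel₀ (mul_ne_zero (mul_ne_zero hτ1 hτ) hc) ?_
    rw [mul_zero, ← h7, Finset.mul_sum]
    refine Finset.sum_congr rfl fun ξ hξ => ?_
    have hξ' := hUθ ξ (by simpa using hξ)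
    have h9 := hb2 ξ hξ' 1
    rw [map_one, map_one] at h9
    rw [h9, hb2 ξ hξ', map_mul q, (b ξ).2.apply_mul_of_mem_charCenter
      ((b ξ).2.center_le_charCenter (h3 ⟨l, hl, rfl⟩)), hb1 ξ hξ' l hl,
      mul_div_cancel_left₀ _ (irr_one_ne_zero _)]
    ring
  obtain ⟨ξ, hξ, e⟩ := blockOf_subset_of_fB_mem_VG hM (hH _ hV) ⟨χ, hχ, rfl⟩
    (sameBlock_of_central hM hX (hO ▸ h3) (ψ := b ψ) (by
      rw [hO]
      rintro _ ⟨l, hl, rfl⟩
      rw [hb1 χ (hUθ χ hχ) l hl, hb1 ψ hψ l hl, mul_div_cancel_left₀ _ (irr_one_ne_zero _),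
        mul_div_cancel_left₀ _ (irr_one_ne_zero _)]))
  exact hinj ξ ψ (hUθ ξ hξ) hψ e ▸ hξ

theorem har_aux [Fact p.Prime] (hM : IsPModular p M) (n : ℕ) :
    ∀ (G : Type u) [Group G] [Finite G], (pPrimeCore p G).index = n → IsPSolvable p G →
      Har p M G := by
  induction n using Nat.strong_induction_on with
  | _ n ih =>
  intro G _ _ hn hG U hU
  have hK := not_dvd_card_pPrimeCore (G := G) hM.1
  haveI := Fintype.ofFinite (pPrimeCore p G)
  have h1 : ∑ θ : IrrCharacter (pPrimeCore p G), fb _ {θ} = 1 := by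
    simp only [fb]
    rw [← map_sum, sum_fB_singleton, map_one]
  rw [← mul_one (fB U), ← h1, Finset.mul_sum]
  refine Subring.sum_mem _ fun θ _ => ?_
  by_cases hT : H6.inertia θ.1 = ⊤
  · have hinv := H6.inertia_eq_top_iff.1 hT
    have h2 := H21.emb_fB_singleton hinv
    have h3 : Van p (U ∩ {χ | classInner (fun n : pPrimeCore p G => χ.1 n) θ.1 ≠ 0}) :=
      fun x hx => by
        rw [← fB_mul_fB, ← h2]
        exact hU.coeff_mul hM.1 hK (fb_mem_ZA _ {θ}).1 hx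
    rw [fb, h2, fB_mul_fB]
    rcases Set.eq_empty_or_nonempty
      (U ∩ {χ | classInner (fun n : pPrimeCore p G => χ.1 n) θ.1 ≠ 0}) with h | ⟨χ, hχ⟩
    · rw [h, fB_empty]; exact zero_mem _
    · have h4 : {χ : IrrCharacter G | classInner (fun n : pPrimeCore p G => χ.1 n) θ.1 ≠ 0} ⊆ U :=
        fun ψ hψ => (har_stable hM hG hinv (fun Y _ _ h => ih _ (hn ▸ h) Y rfl) h3
          (fun _ h => h.2) hχ hψ).1
      rw [Set.inter_eq_right.2 h4, ← h2]
      exact fb_mem_VG hM (isPBlock_singleton hM hK θ)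
  · obtain ⟨A, hA, h2⟩ := hU.exists_inertia hM.1 hK θ
    rw [h2, fb_mem_VG_iff]
    refine ih _ ?_ _ rfl (H1.isPSolvable_subgroup hG _) A hA
    have hle := H6.le_inertia θ.2.isClassFunction
    have h3 : (pPrimeCore p G).subgroupOf (H6.inertia θ.1) ≤ pPrimeCore p _ :=
      H1.le_pPrimeCore_of_not_dvd inferInstance (by rwa [card_subgroupOf hle])
    refine lt_of_le_of_lt (Subgroup.index_antitone h3) ?_
    rw [← hn, ← Subgroup.relIndex_mul_index hle]
    exact lt_mul_of_one_lt_right (Nat.pos_of_ne_zero Subgroup.FiniteIndex.index_ne_zero)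
      (Subgroup.one_lt_index_of_ne_top hT)

/-- Harada's conjecture for `p`-solvable groups. -/
theorem harada [Fact p.Prime] (hM : IsPModular p M) (hG : IsPSolvable p G) : Har p M G :=
  har_aux hM _ G rfl hG

end H7
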