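import Cfsg.Agent.H8.Star4

/-! The Knörr–Robinson alternating sum for `k - l`. -/

set_option autoImplicit false

open Cfsg MonoidAlgebra
open H5 H8 H28
open scoped ComplexConjugate

namespace H7

variable {G : Type*} [Group G] [Finite G] {p : ℕ} {M : Ideal AlgInt}

theorem sum_inner_rp_self' [Fintype G] (hM : IsPModular p M) {A : Set (IrrCharacter G)}
    (hA : ∀ χ ∈ A, blockOf M χ.1 ⊆ A) [DecidablePred (· ∈ A)] :
    ∑ χ with χ ∈ A, classInner (pRegularPart p χ.1) χ.1 = blockRank p A := by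
  let W := Submodule.span ℂ ((fun χ : IrrCharacter G => pRegularPart p χ.1) '' A)
  let T : (G → ℂ) →ₗ[ℂ] (G → ℂ) := ∑ χ with χ ∈ A,
    (classInnerLeft χ.1).smulRight (pRegularPart p χ.1)
  have hT : ∀ f, T f = ∑ χ with χ ∈ A, classInner f χ.1 • pRegularPart p χ.1 := fun f => by
    simp [T, classInnerLeft_apply]
  have h1 : LinearMap.IsProj W T := by
    refine ⟨fun f => ?_, fun f hf => ?_⟩
    · rw [hT]
      exact W.sum_mem fun χ hχ => W.smul_mem _
        (Submodule.subset_span ⟨χ, (Finset.mem_filter.1 hχ).2, rfl⟩)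
    · refine LinearMap.eqOn_span (g := LinearMap.id) ?_ hf
      rintro _ ⟨χ, hχ, rfl⟩
      rw [hT, ← H21.rp_sum, ← H21.blockPart_eq_sum', (blockPart_eq_self_iff
        (H21.isClassFunction_rp χ.2.isClassFunction)).2 fun ψ hψ => H21.inner_rp_eq_zero hM
          (isPBlock_blockOf χ) (mem_blockOf_self hM χ) fun h => hψ (hA χ hχ h), H21.rp_rp,
        LinearMap.id_apply]
  rw [blockRank, ← h1.trace, map_sum]
  simp only [LinearMap.trace_smulRight, classInnerLeft_apply]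

variable (M) in
/-- the union of the blocks of `H` inducing `b` -/
def indU (H : Subgroup G) (b : Set (IrrCharacter G)) : Set (IrrCharacter H) :=
  {ψ | ∃ β, ψ ∈ β ∧ IsInducedBlock M H β b}

variable {H K : Subgroup G} {b : Set (IrrCharacter G)}

theorem sum_indU (hM : IsPModular p M) {A : Type*} [AddCommMonoid A] (F : IrrCharacter H → A)
    [DecidablePred (· ∈ indU M H b)] [∀ β : Set (IrrCharacter H), DecidablePred (· ∈ β)] :
    ∑ ψ with ψ ∈ indU M H b, F ψ = ∑ β ∈ indBlocks M H b, ∑ ψ with ψ ∈ β, F ψ := by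
  classical
  rw [← Finset.sum_biUnion (t := fun β => Finset.univ.filter (· ∈ β)) fun β hβ γ hγ hne =>
    Finset.disjoint_filter.2 fun ψ _ h1 h2 =>
      hne (block_eq_of_mem hM (mem_indBlocks.1 hβ).1 (mem_indBlocks.1 hγ).1 h1 h2)]
  refine Finset.sum_congr ?_ fun _ _ => rfl
  ext ψ
  simp [indU, and_comm]

theorem card_indU (hM : IsPModular p M) :
    Nat.card (indU M H b) = ∑ β ∈ indBlocks M H b, Nat.card β := by
  classical
  simp only [H21.card_block_eq, Finset.card_eq_sum_ones]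
  exact sum_indU hM _

variable (p M) in
/-- the sum of the ranks of the blocks of `H` inducing `b` -/
noncomputable def rho (H : Subgroup G) (b : Set (IrrCharacter G)) : ℕ :=
  ∑ β ∈ indBlocks M H b, blockRank p β

theorem blockRank_indU (hM : IsPModular p M) : blockRank p (indU M H b) = rho p M H b := by
  classical
  have := Fintype.ofFinite H
  apply Nat.cast_injective (R := ℂ)
  rw [← sum_inner_rp_self' hM, sum_indU hM, rho, Nat.cast_sum]
  · exact Finset.sum_congr rfl fun β hβ => H21.sum_inner_rp_self hM (mem_indBlocks.1 hβ).1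
  · rintro χ ⟨β, h1, h2⟩ ψ hψ
    exact ⟨β, eq_blockOf_of_mem hM h2.1 h1 ▸ hψ, h2⟩

theorem rho_cj (hM : IsPModular p M) {g : G} (h : cj g H = K) : rho p M K b = rho p M H b := by
  haveI := Fact.mk hM.1
  haveI := charP_kk hM
  refine (Finset.sum_bij' (fun β _ => blkMap (cjE h) β) (fun β _ => blkMap (cjE h).symm β)
    (fun β hβ => ?_) (fun β hβ => ?_) (by simp) (by simp)
    fun β _ => (blockRank_blkMap _ _).symm).symm
  · rw [mem_indBlocks, isInducedBlock_iff_ind hM] at hβ ⊢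
    rw [isPBlock_blkMap_iff hM, eb_blkMap_cjE]
    exact ⟨hβ.1, hβ.2.1, h ▸ hβ.2.2.ca_of_mem (eB_mem_Fix _ _) (Subgroup.mem_top g)⟩
  · rw [mem_indBlocks, isInducedBlock_iff_ind hM] at hβ ⊢
    refine ⟨(isPBlock_blkMap_iff hM _).2 hβ.1, hβ.2.1, (ind_ca_iff g).1 ?_⟩
    rw [← eb_blkMap_cjE h, blkMap_blkMap_symm, cj_top, ca_eB, h]
    exact hβ.2.2

theorem rho_top (hM : IsPModular p M) (hb : IsPBlock M b) (hH : H = ⊤) :
    rho p M H b = blockRank p b ∧ Nat.card (indU M H b) = Nat.card b := by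
  subst hH
  have h1 : IsInducedBlock M ⊤ (blkMap Subgroup.topEquiv.symm b) b := by
    rw [isInducedBlock_iff_ind hM, isPBlock_blkMap_iff hM, eb, eB_blkMap, emb_emb]
    exact ⟨hb, hb, (emb_id (eB M b)).symm ▸ Ind.refl _ _⟩
  have h2 : indBlocks M ⊤ b = {blkMap Subgroup.topEquiv.symm b} := by
    ext β
    rw [mem_indBlocks, Finset.mem_singleton]
    exact ⟨fun h => by rw [eq_blkMap_of_induced_top hM h, blkMap_symm_blkMap], fun h => h ▸ h1⟩
  rw [card_indU hM, rho, h2, Finset.sum_singleton, Finset.sum_singleton, blockRank_blkMap,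
    card_blkMap]
  exact ⟨rfl, rfl⟩

/-- `|G| (k(b) - l(b))` as a sum over the non-trivial `p`-elements -/
theorem card_mul_sub_eq [Fintype G] (hM : IsPModular p M) (hb : IsPBlock M b)
    [DecidablePred fun u : G => IsPElt p u ∧ u ≠ 1] :
    (Nat.card G : ℤ) * (Nat.card b - blockRank p b) = ∑ u : G with IsPElt p u ∧ u ≠ 1,
      (Nat.card (Subgroup.centralizer ({u} : Set G)) * rho p M (Subgroup.centralizer {u}) b : ℤ) := by
  classical
  obtain ⟨X, hX, hrep⟩ := exists_pelt_reps p G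
  let F : G → ℤ := fun u =>
    Nat.card (Subgroup.centralizer ({u} : Set G)) * rho p M (Subgroup.centralizer {u}) b
  have h1 : ∑ u : G with IsPElt p u, F u = Nat.card G * Nat.card b := by
    rw [sum_eq_sum_reps _ X IsConj (fun a ha => hrep a (Finset.mem_filter.1 ha).2) (F := F)
      fun a _ y _ h => by
        obtain ⟨c, rfl⟩ := isConj_iff.1 h
        simp only [F]
        rw [rho_cj hM (cj_centralizer_singleton c a), ← cj_centralizer_singleton, card_cj],
      card_eq_sum_blockRank hM X hX hrep hb, Nat.cast_sum, Finset.mul_sum]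
    refine Finset.sum_congr rfl fun x hx => ?_
    have : Nat.card {a // a ∈ Finset.univ.filter (IsPElt p) ∧ IsConj a x} = (ocl ⊤ x).ncard := by
      rw [← Nat.card_coe_set_eq]
      refine Nat.card_congr (Equiv.subtypeEquivRight fun a => ?_)
      rw [mem_ocl_top, Finset.mem_filter]
      refine ⟨fun h => h.2.symm, fun h => ⟨⟨Finset.mem_univ _, ?_⟩, h.symm⟩⟩
      obtain ⟨c, rfl⟩ := isConj_iff.1 h
      exact (hX x hx).conj c
    rw [this, ncard_ocl, Subgroup.relIndex_top_right, nsmul_eq_mul, ← mul_assoc, ← Nat.cast_mul,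
      Subgroup.index_mul_card]
    rfl
  have h2 : F 1 = Nat.card G * blockRank p b := by
    simp only [F]
    rw [(rho_top hM hb cent_one_eq_top).1, cent_one_eq_top, Subgroup.card_top]
  rw [mul_sub, ← h1, ← h2, ← Finset.add_sum_erase _ _
    (Finset.mem_filter.2 ⟨Finset.mem_univ 1, isPElt_one⟩), add_sub_cancel_left]
  exact Finset.sum_congr (by ext u; simp [and_comm]) fun _ _ => rfl

theorem sum_rho_cent (hM : IsPModular p M) {u : H} (hu : IsPElt p u) :
    ∑ β ∈ indBlocks M H b, rho p M (Subgroup.centralizer {u}) β =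
      rho p M (Subgroup.centralizer {(u : G)} ⊓ H) b := by
  haveI := Fact.mk hM.1
  haveI := charP_kk hM
  rw [← centralizer_coe_map]
  let ι := (Subgroup.centralizer {u}).equivMapOfInjective _ H.subtype_injective
  have e : ∀ γ, eb M _ (blkMap ι γ) = emb H.subtype (eb M _ γ) := fun γ => by
    rw [eb, eb, eB_blkMap, emb_emb, emb_emb]; rfl
  have key : ∀ γ β, IsInducedBlock M (Subgroup.centralizer {u}) γ β →
      Ind _ H (eb M _ (blkMap ι γ)) (eb M H β) := fun γ β h => by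
    have := (ind_emb_iff H.subtype_injective).2 ((isInducedBlock_iff_ind hM).1 h).2.2
    rwa [H8.map_top_subtype, ← e] at this
  simp only [rho]
  rw [Finset.sum_sigma']
  refine Finset.sum_bij (fun x _ => blkMap ι x.2) (fun x hx => ?_) (fun x hx y hy h => ?_)
    (fun γ hγ => ?_) fun x _ => (blockRank_blkMap _ _).symm
  · simp only [Finset.mem_sigma, mem_indBlocks] at hx ⊢
    have h1 := (isInducedBlock_iff_ind hM).1 hx.1
    exact (isInducedBlock_iff_ind hM).2 ⟨(isPBlock_blkMap_iff hM _).2 hx.2.1, h1.2.1,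
      (key _ _ hx.2).trans (Subgroup.map_subtype_le _) le_top h1.2.2⟩
  · obtain ⟨β, γ⟩ := x
    obtain ⟨β', γ'⟩ := y
    simp only [Finset.mem_sigma, mem_indBlocks] at hx hy
    obtain rfl : γ = γ' := by simpa using congrArg (blkMap ι.symm) h
    obtain rfl : β = β' := eB_inj hM hx.1.1 hy.1.1 (Ind.unique (isPrim_eB hM hx.1.1)
      (isPrim_eB hM hy.1.1) ((isInducedBlock_iff_ind hM).1 hx.2).2.2
      ((isInducedBlock_iff_ind hM).1 hy.2).2.2)
    rfl
  · have h1 := (isInducedBlock_iff_ind hM).1 (mem_indBlocks.1 hγ)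
    obtain ⟨β, hβ⟩ := (isSec_cent hu).exists_induced hM ((isPBlock_blkMap_iff hM ι.symm).2 h1.1)
    refine ⟨⟨β, blkMap ι.symm γ⟩, ?_, by simp⟩
    simp only [Finset.mem_sigma, mem_indBlocks]
    have h2 := key _ _ hβ
    rw [blkMap_blkMap_symm] at h2
    exact ⟨(isInducedBlock_iff_ind hM).2 ⟨hβ.2.1, h1.2.1,
      h2.of_trans (Subgroup.map_subtype_le _) le_top h1.2.2⟩, hβ⟩

theorem card_mul_sub_indU [Fintype G] (hM : IsPModular p M)
    [DecidablePred fun u : G => (IsPElt p u ∧ u ≠ 1) ∧ u ∈ H] :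
    (Nat.card H : ℤ) * (Nat.card (indU M H b) - blockRank p (indU M H b)) =
      ∑ u : G with (IsPElt p u ∧ u ≠ 1) ∧ u ∈ H,
        (Nat.card (Subgroup.centralizer {u} ⊓ H : Subgroup G) *
          rho p M (Subgroup.centralizer {u} ⊓ H) b : ℤ) := by
  classical
  rw [card_indU hM, blockRank_indU hM, rho, Nat.cast_sum, Nat.cast_sum, ← Finset.sum_sub_distrib,
    Finset.mul_sum, Finset.sum_congr rfl fun β hβ => card_mul_sub_eq hM (mem_indBlocks.1 hβ).1,
    Finset.sum_comm]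
  refine Finset.sum_bij (fun u _ => (u : G)) (fun u hu => ?_) (fun u _ v _ h => Subtype.ext h)
    (fun u hu => ?_) fun u hu => ?_
  · simpa [isPElt_coe] using hu
  · have := (Finset.mem_filter.1 hu).2
    exact ⟨⟨u, this.2⟩, Finset.mem_filter.2 ⟨Finset.mem_univ _, isPElt_coe.1 this.1.1,
      fun h => this.1.2 (congrArg Subtype.val h)⟩, rfl⟩
  · rw [← Finset.mul_sum, ← Nat.cast_sum, sum_rho_cent hM (Finset.mem_filter.1 hu).2.1,
      ← centralizer_coe_map, card_map_subtype]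

section Chains

theorem exists_normal_lt [Fact p.Prime] {T : Subgroup G} (hT : IsPGroup p T) (h : H < T) :
    ∃ N, H ≤ N ∧ N < T ∧ T ≤ 𝐍 N := by
  obtain ⟨N, h1, h2⟩ := Finite.exists_le_maximal (p := (· < T)) h
  refine ⟨N, h1, h2.1, ?_⟩
  by_contra h3
  have h4 := lt_inf_normalizer hT h2.1
  exact h4.not_ge (h2.2 (inf_lt_left.2 h3) h4.le)

variable (p) in
/-- normal chains of non-trivial `p`-subgroups -/
structure NC (s : Finset (Subgroup G)) : Prop where
  chain : ∀ Q ∈ s, ∀ R ∈ s, Q ≤ R ∨ R ≤ Q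
  pg : ∀ Q ∈ s, Q ≠ ⊥ ∧ IsPGroup p Q
  norm : ∀ Q ∈ s, s.sup id ≤ 𝐍 Q

/-- the stabilizer of a chain -/
def nn (s : Finset (Subgroup G)) : Subgroup G := ⨅ Q ∈ s, 𝐍 Q

omit [Finite G] in
theorem mem_nn {s : Finset (Subgroup G)} {g : G} : g ∈ nn s ↔ ∀ Q ∈ s, g ∈ 𝐍 Q := by
  simp [nn, Subgroup.mem_iInf]

def chT (u : G) (s : Finset (Subgroup G)) : Subgroup G := s.sup id ⊔ Subgroup.zpowers u

open Classical in
noncomputable def chA (u : G) (s : Finset (Subgroup G)) : Subgroup G := (s.filter (u ∉ ·)).sup id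

noncomputable def chR (u : G) (s : Finset (Subgroup G)) : Subgroup G :=
  chA u s ⊔ ⨆ t : chT u s, Subgroup.zpowers (t * u * t⁻¹ : G)

open Classical in
noncomputable def flip (u : G) (s : Finset (Subgroup G)) : Finset (Subgroup G) :=
  if chR u s ∈ s then s.erase (chR u s) else insert (chR u s) s

variable {u g : G} {s : Finset (Subgroup G)} {Q : Subgroup G}

omit [Finite G] in
theorem mem_chT : u ∈ chT u s := Subgroup.mem_sup_right (Subgroup.mem_zpowers u)

omit [Finite G] in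
theorem le_chT (h : Q ∈ s) : Q ≤ chT u s := (Finset.le_sup (f := id) h).trans le_sup_left

omit [Finite G] in
theorem le_chA (h : Q ∈ s) (hu : u ∉ Q) : Q ≤ chA u s := by
  classical exact Finset.le_sup (f := id) (Finset.mem_filter.2 ⟨h, hu⟩)

omit [Finite G] in
theorem chA_le (h : ∀ R ∈ s, u ∉ R → R ≤ Q) : chA u s ≤ Q := by
  classical
  exact Finset.sup_le fun R hR => h R (Finset.mem_filter.1 hR).1 (Finset.mem_filter.1 hR).2

omit [Finite G] in
theorem mem_chR : u ∈ chR u s :=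
  Subgroup.mem_sup_right (Subgroup.mem_iSup_of_mem 1 (by simp))

omit [Finite G] in
theorem chR_le (h : ∀ R ∈ s, u ∉ R → R ≤ Q) (hu : u ∈ Q) (hT : chT u s ≤ 𝐍 Q) : chR u s ≤ Q :=
  sup_le (chA_le h) (iSup_le fun t =>
    Subgroup.zpowers_le.2 (conj_mem_of_mem_normalizer (hT t.2) hu))

omit [Finite G] in
theorem chR_le_chT : chR u s ≤ chT u s :=
  chR_le (fun _ h _ => le_chT h) mem_chT Subgroup.le_normalizer

omit [Finite G] in
theorem norm_sup {A : Subgroup G} (h : ∀ Q ∈ s, A ≤ 𝐍 Q) : A ≤ 𝐍 (s.sup id) :=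
  Finset.sup_induction (p := fun X : Subgroup G => A ≤ 𝐍 X)
    (by rw [H28.normalizer_bot]; exact le_top) (fun _ h1 _ h2 => le_normalizer_sup h1 h2) h

/-- elements normalizing the chain and `chT`, and mapping `u` to a `chT`-conjugate -/
theorem mem_norm_chR (h1 : g ∈ nn s) (h2 : g ∈ 𝐍 (chT u s))
    (h3 : ∃ t ∈ chT u s, g * u * g⁻¹ = t * u * t⁻¹) : g ∈ 𝐍 (chR u s) := by
  classical
  obtain ⟨t, ht, h3⟩ := h3
  refine Subgroup.zpowers_le.1 (le_normalizer_sup (norm_sup fun Q hQ => Subgroup.zpowers_le.2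
    (mem_nn.1 h1 Q (Finset.mem_filter.1 hQ).1)) (Subgroup.zpowers_le.2
      (mem_normalizer_of_cj_le ?_)))
  rw [cj_iSup]
  refine iSup_le fun x => le_iSup_of_le ⟨_, mul_mem (conj_mem_of_mem_normalizer h2 x.2) ht⟩ ?_
  rw [cj_zpowers]
  apply le_of_eq
  congr 1
  calc _ = g * x * g⁻¹ * (g * u * g⁻¹) * (g * x * g⁻¹)⁻¹ := by simp [mul_assoc]
    _ = _ := by rw [h3]; simp [mul_assoc]

omit [Finite G] in
theorem NC.chT_le (h : NC p s) (hu : u ∈ nn s) : chT u s ≤ nn s := fun g hg =>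
  mem_nn.2 fun Q hQ => sup_le (h.norm Q hQ) (Subgroup.zpowers_le.2 (mem_nn.1 hu Q hQ)) hg

theorem NC.chT_le_norm (h : NC p s) (hu : u ∈ nn s) : chT u s ≤ 𝐍 (chR u s) := fun g hg =>
  mem_norm_chR (h.chT_le hu hg) (Subgroup.le_normalizer hg) ⟨g, hg, rfl⟩

omit [Finite G] in
theorem NC.isPGroup [Fact p.Prime] (h : NC p s) (hu : u ∈ nn s) (hp : IsPElt p u) :
    IsPGroup p (chT u s) := by
  refine isPGroup_sup_of_le_normalizer' ?_ hp.isPGroup_zpowers
    (norm_sup fun Q hQ => Subgroup.zpowers_le.2 (mem_nn.1 hu Q hQ))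
  exact (Finset.sup_induction (p := fun X : Subgroup G => IsPGroup p X ∧ X ≤ s.sup id ∧
    s.sup id ≤ 𝐍 X) ⟨IsPGroup.of_bot, bot_le, by rw [H28.normalizer_bot]; exact le_top⟩
    (fun _ h1 _ h2 => ⟨isPGroup_sup_of_le_normalizer h1.1 h2.1 (h1.2.1.trans h2.2.2),
      sup_le h1.2.1 h2.2.1, le_normalizer_sup h1.2.2 h2.2.2⟩)
    fun Q hQ => ⟨(h.pg Q hQ).2, Finset.le_sup (f := id) hQ, h.norm Q hQ⟩).1

omit [Finite G] in
theorem mem_flip_of_ne (h : Q ≠ chR u s) : Q ∈ flip u s ↔ Q ∈ s := by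
  unfold flip; split_ifs <;> simp [h]

omit [Finite G] in
theorem chR_mem_flip : chR u s ∈ flip u s ↔ chR u s ∉ s := by
  unfold flip; split_ifs with h <;> simp [h]

omit [Finite G] in
theorem mem_or_of_mem_flip (h : Q ∈ flip u s) : Q ∈ s ∨ Q = chR u s := by
  by_cases h' : Q = chR u s
  · exact .inr h'
  · exact .inl ((mem_flip_of_ne h').1 h)

omit [Finite G] in
theorem chA_flip : chA u (flip u s) = chA u s :=
  le_antisymm (chA_le fun _ h hu => le_chA ((mem_flip_of_ne fun e => hu (e.ge mem_chR)).1 h) hu)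
    (chA_le fun _ h hu => le_chA ((mem_flip_of_ne fun e => hu (e.ge mem_chR)).2 h) hu)

theorem NC.chT_flip [Fact p.Prime] (h : NC p s) (hu : u ∈ nn s) (hp : IsPElt p u) :
    chT u (flip u s) = chT u s := by
  have h1 : chT u (flip u s) ≤ chT u s :=
    sup_le (Finset.sup_le fun Q hQ => (mem_or_of_mem_flip hQ).elim le_chT
      fun e => e.le.trans chR_le_chT) le_sup_right
  by_contra h2
  obtain ⟨N, h3, h4, h5⟩ := exists_normal_lt (h.isPGroup hu hp) (lt_of_le_of_ne h1 h2)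
  have h6 : ∀ Q ∈ s, Q ≠ chR u s → Q ≤ N := fun Q hQ hne =>
    (le_chT ((mem_flip_of_ne hne).2 hQ)).trans h3
  have h7 : chR u s ≤ N := chR_le (fun Q hQ hu => h6 Q hQ fun e => hu (e ▸ mem_chR)) (h3 mem_chT) h5
  refine h4.not_ge (sup_le (Finset.sup_le fun Q hQ => ?_) (Subgroup.zpowers_le.2 (h3 mem_chT)))
  by_cases hne : Q = chR u s
  · exact hne.le.trans h7
  · exact h6 Q hQ hne

theorem NC.chR_flip [Fact p.Prime] (h : NC p s) (hu : u ∈ nn s) (hp : IsPElt p u) :
    chR u (flip u s) = chR u s := by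
  rw [chR, chA_flip, h.chT_flip hu hp, chR]

theorem NC.flip_flip [Fact p.Prime] (h : NC p s) (hu : u ∈ nn s) (hp : IsPElt p u) :
    flip u (flip u s) = s := by
  ext Q
  by_cases hne : Q = chR u s
  · rw [hne, ← h.chR_flip hu hp, chR_mem_flip, h.chR_flip hu hp, chR_mem_flip, not_not]
  · rw [mem_flip_of_ne (by rwa [h.chR_flip hu hp]), mem_flip_of_ne hne]

theorem NC.flip [Fact p.Prime] (h : NC p s) (hu : u ∈ nn s) (hp : IsPElt p u) (h1 : u ≠ 1) :
    NC p (flip u s) ∧ u ∈ nn (flip u s) := by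
  have h2 : ∀ Q ∈ s, Q ≤ chR u s ∨ chR u s ≤ Q := fun Q hQ => by
    by_cases h3 : u ∈ Q
    · exact .inr (chR_le (fun R hR h4 => (h.chain R hR Q hQ).resolve_right fun h5 => h4 (h5 h3)) h3
        fun g hg => mem_nn.1 (h.chT_le hu hg) Q hQ)
    · exact .inl ((le_chA hQ h3).trans le_sup_left)
  have h3 : ∀ Q ∈ H7.flip u s, chT u s ≤ 𝐍 Q := fun Q hQ => (mem_or_of_mem_flip hQ).elim
    (fun hQ g hg => mem_nn.1 (h.chT_le hu hg) Q hQ) fun e => e ▸ h.chT_le_norm hu
  refine ⟨⟨fun Q hQ R hR => ?_, fun Q hQ => ?_, fun Q hQ => ?_⟩,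
    mem_nn.2 fun Q hQ => h3 Q hQ mem_chT⟩
  · rcases mem_or_of_mem_flip hQ with hQ | rfl <;> rcases mem_or_of_mem_flip hR with hR | rfl
    exacts [h.chain Q hQ R hR, h2 Q hQ, (h2 R hR).symm, .inl le_rfl]
  · rcases mem_or_of_mem_flip hQ with hQ | rfl
    · exact h.pg Q hQ
    · exact ⟨fun e => h1 (Subgroup.mem_bot.1 (e ▸ mem_chR)), (h.isPGroup hu hp).to_le chR_le_chT⟩
  · exact (le_sup_left.trans (h.chT_flip hu hp).le).trans (h3 Q hQ)

theorem cent_inf_nn_le : Subgroup.centralizer {u} ⊓ nn s ≤ nn (flip u s) := fun g hg => by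
  have h1 := Subgroup.mem_centralizer_singleton_iff.1 hg.1
  refine mem_nn.2 fun Q hQ => (mem_or_of_mem_flip hQ).elim (mem_nn.1 hg.2 Q) fun e => e ▸
    mem_norm_chR hg.2 (Subgroup.zpowers_le.1 (le_normalizer_sup (norm_sup fun Q hQ =>
      Subgroup.zpowers_le.2 (mem_nn.1 hg.2 Q hQ)) (le_normalizer_of_le_centralizer ?_)))
      ⟨1, one_mem _, by simp [h1]⟩
  rw [centralizer_zpowers]
  exact Subgroup.zpowers_le.2 hg.1

theorem NC.cent_inf_nn [Fact p.Prime] (h : NC p s) (hu : u ∈ nn s) (hp : IsPElt p u) :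
    Subgroup.centralizer {u} ⊓ nn (H7.flip u s) = Subgroup.centralizer {u} ⊓ nn s :=
  le_antisymm (le_inf inf_le_left (cent_inf_nn_le.trans (by rw [h.flip_flip hu hp])))
    (le_inf inf_le_left cent_inf_nn_le)

omit [Finite G] in
theorem neg_one_pow_flip : (-1 : ℤ) ^ (flip u s).card = - (-1) ^ s.card := by
  classical
  unfold flip
  split_ifs with h
  · rw [← Finset.card_erase_add_one h, pow_succ]; ring
  · rw [Finset.card_insert_of_notMem h, pow_succ]; ring

theorem sum_chains_eq_zero [Fact p.Prime] (F : Subgroup G → ℤ) (hp : IsPElt p u) (h1 : u ≠ 1)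
    (S : Finset (Finset (Subgroup G))) (hS : ∀ s, s ∈ S ↔ NC p s ∧ u ∈ nn s) :
    ∑ s ∈ S, (-1) ^ s.card * F (Subgroup.centralizer {u} ⊓ nn s) = 0 := by
  refine Finset.sum_involution (fun s _ => flip u s) (fun s hs => ?_) (fun s _ _ e => ?_)
    (fun s hs => (hS _).2 (((hS s).1 hs).1.flip ((hS s).1 hs).2 hp h1))
    fun s hs => ((hS s).1 hs).1.flip_flip ((hS s).1 hs).2 hp
  · rw [((hS s).1 hs).1.cent_inf_nn ((hS s).1 hs).2 hp, neg_one_pow_flip]; ring
  · have := chR_mem_flip (u := u) (s := s)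
    rw [show flip u s = s from e] at this
    exact iff_not_self this

end Chains

theorem kr_sum (hM : IsPModular p M) (S : Finset (Finset (Subgroup G))) (hS : ∀ s, s ∈ S ↔ NC p s) :
    ∑ s ∈ S, (-1 : ℤ) ^ s.card * ((Nat.card (nn s) : ℤ) *
      (Nat.card (indU M (nn s) b) - blockRank p (indU M (nn s) b))) = 0 := by
  classical
  haveI := Fact.mk hM.1
  have := Fintype.ofFinite G
  simp only [card_mul_sub_indU hM, Finset.mul_sum]
  rw [Finset.sum_comm' (t' := Finset.univ.filter fun u : G => IsPElt p u ∧ u ≠ 1)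
    (s' := fun u => S.filter (u ∈ nn ·)) (by simp; tauto)]
  exact Finset.sum_eq_zero fun u hu => sum_chains_eq_zero (fun K => Nat.card K * rho p M K b)
    (Finset.mem_filter.1 hu).2.1 (Finset.mem_filter.1 hu).2.2 _ fun s => by simp [hS]

end H7
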