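import Cfsg.Agent.H24.ClassSize

/-! Landau's theorem: a bound on the number of conjugacy classes bounds the order. -/

set_option autoImplicit false

namespace H7

theorem egyptian_bound (k : ℕ) : ∀ r : ℚ, ∃ N : ℕ, ∀ s : Multiset ℕ, s.card = k →
    (∀ n ∈ s, 0 < n) → (s.map fun n : ℕ => (1 : ℚ) / n).sum = r → ∀ n ∈ s, n ≤ N := by
  induction k with
  | zero =>
    intro r
    refine ⟨0, fun s hs _ _ n hn => ?_⟩
    rw [Multiset.card_eq_zero] at hs
    simp [hs] at hn
  | succ k ih =>
    intro r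
    choose N hN using ih
    refine ⟨⌈((k + 1 : ℕ) : ℚ) / r⌉₊ + ∑ m ∈ Finset.range (⌈((k + 1 : ℕ) : ℚ) / r⌉₊ + 1),
      N (r - 1 / m), fun s hs hpos hsum n hn => ?_⟩
    obtain ⟨m, hm, hmin⟩ := s.toFinset.exists_min_image id ⟨n, Multiset.mem_toFinset.2 hn⟩
    rw [Multiset.mem_toFinset] at hm
    have hm0 : (0 : ℚ) < m := by exact_mod_cast hpos m hm
    have hle : r ≤ ((k + 1 : ℕ) : ℚ) / m := by
      rw [← hsum, ← hs, div_eq_mul_one_div, ← nsmul_eq_mul, ← Multiset.card_map (fun n : ℕ => (1 : ℚ) / n)]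
      refine Multiset.sum_le_card_nsmul _ _ fun x hx => ?_
      obtain ⟨a, ha, rfl⟩ := Multiset.mem_map.1 hx
      exact one_div_le_one_div_of_le hm0 (by exact_mod_cast hmin a (Multiset.mem_toFinset.2 ha))
    obtain ⟨t, rfl⟩ := Multiset.exists_cons_of_mem hm
    rw [Multiset.map_cons, Multiset.sum_cons] at hsum
    have hr : 0 < r := by
      rw [← hsum]
      refine add_pos_of_pos_of_nonneg (by positivity) (Multiset.sum_nonneg fun x hx => ?_)
      obtain ⟨a, -, rfl⟩ := Multiset.mem_map.1 hx
      positivity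
    have hmL : m ≤ ⌈((k + 1 : ℕ) : ℚ) / r⌉₊ := by
      have : (m : ℚ) ≤ ((k + 1 : ℕ) : ℚ) / r := by
        rw [le_div_iff₀ hr]
        rw [le_div_iff₀ hm0] at hle
        linarith
      exact_mod_cast this.trans (Nat.le_ceil _)
    rcases Multiset.mem_cons.1 hn with rfl | hn'
    · omega
    · have h1 := hN (r - 1 / m) t (by simpa using hs)
        (fun a ha => hpos a (Multiset.mem_cons_of_mem ha)) (by rw [← hsum]; ring) n hn'
      have h2 : N (r - 1 / m) ≤ ∑ m ∈ Finset.range (⌈((k + 1 : ℕ) : ℚ) / r⌉₊ + 1),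
          N (r - 1 / m) :=
        Finset.single_le_sum (f := fun m : ℕ => N (r - 1 / m)) (fun _ _ => Nat.zero_le _)
          (Finset.mem_range.2 (by omega))
      omega

universe u

/-- Landau: finitely many orders for a bounded class number. -/
theorem landau (k : ℕ) : ∃ N : ℕ, ∀ (G : Type u) [Group G] [Finite G],
    Nat.card (ConjClasses G) ≤ k → Nat.card G ≤ N := by
  classical
  choose N hN using fun j => egyptian_bound j 1
  refine ⟨∑ j ∈ Finset.range (k + 1), N j, fun G _ _ hk => ?_⟩
  have := Fintype.ofFinite G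
  have := Fintype.ofFinite (ConjClasses G)
  have hG : (0 : ℚ) < Nat.card G := by exact_mod_cast Nat.card_pos
  let c : ConjClasses G → ℕ := fun C => Nat.card (Subgroup.centralizer ({C.out} : Set G))
  have hc : ∀ C : ConjClasses G, (1 : ℚ) / c C = (C.carrier.toFinset.card : ℚ) / Nat.card G := by
    intro C
    have h1 : C.carrier.toFinset.card = H24.cs C.out := by
      rw [← H24.card_carrier_mk, Set.toFinset_card, ← Nat.card_eq_fintype_card,
        show ConjClasses.mk C.out = C from Quotient.out_eq C]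
    have h2 : (0 : ℚ) < c C := by exact_mod_cast Nat.card_pos
    rw [h1, div_eq_div_iff h2.ne' hG.ne', one_mul]
    exact_mod_cast (H24.cs_mul_card _).symm
  have h := hN (Fintype.card (ConjClasses G)) (Finset.univ.val.map c) (by simp)
    (fun n hn => by
      obtain ⟨C, -, rfl⟩ := Multiset.mem_map.1 hn
      exact Nat.card_pos)
    (by
      rw [Multiset.map_map]
      change ∑ C, (1 : ℚ) / c C = 1
      simp_rw [hc]
      rw [← Finset.sum_div, ← Nat.cast_sum, sum_conjClasses_card_eq_card, ← Nat.card_eq_fintype_card,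
        div_self hG.ne'])
    (c (ConjClasses.mk 1)) (Multiset.mem_map.2 ⟨_, Finset.mem_univ _, rfl⟩)
  have h1 : c (ConjClasses.mk 1) = Nat.card G := by
    have : (ConjClasses.mk (1 : G)).out = 1 := by
      have := Quotient.out_eq (ConjClasses.mk (1 : G))
      exact isConj_one_left.1 (ConjClasses.mk_eq_mk_iff_isConj.1 this)
    simp only [c, this]
    rw [(H24.cent_eq_top_iff).2 (one_mem _), Subgroup.card_top]
  rw [← h1]
  refine h.trans (Finset.single_le_sum (f := N) (fun _ _ => Nat.zero_le _)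
    (Finset.mem_range.2 ?_))
  rw [Nat.card_eq_fintype_card] at hk
  omega

end H7
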