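import Cfsg.Agent.S4717
import Cfsg.Agent.H18.CT0
import Cfsg.Agent.H0.TRP

/-!
Groups with a single `p`-block: constrained centralizers of elements of order `p` force every
block of positive defect to be principal; norm estimates exclude characters of defect zero.
-/

set_option autoImplicit false

open Cfsg H5 H28 Subgroup Finset
open H18.CT (dg dz dg_dvd dg_sq_le)
open scoped ComplexConjugate

namespace H7.One

variable {G : Type*} [Group G] {p : ℕ}

/-- the centralizer of `y` has a normal `p`-subgroup whose centralizer is a `p`-group -/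
def Con (p : ℕ) (y : G) : Prop :=
  ∃ Q : Subgroup G, IsPGroup p Q ∧ Q ≤ centralizer {y} ∧ centralizer {y} ≤ normalizer (Q : Set G) ∧
    IsPGroup p (centralizer (Q : Set G))

theorem Con.conj {y z : G} (h : Con p z) (hc : IsConj y z) : Con p y := by
  obtain ⟨c, rfl⟩ := isConj_iff.1 hc
  obtain ⟨Q, h1, h2, h3, h4⟩ := h
  have hi : Function.Injective (MulAut.conj c).toMonoidHom := (MulAut.conj c).injective
  have e : ∀ a : G, a ∈ centralizer ({y} : Set G) ↔ c * a * c⁻¹ ∈ centralizer ({c * y * c⁻¹} : Set G) := by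
    intro a
    rw [mem_centralizer_singleton_iff, mem_centralizer_singleton_iff]
    constructor
    · intro h
      calc c * a * c⁻¹ * (c * y * c⁻¹) = c * (a * y) * c⁻¹ := by group
        _ = _ := by rw [h]; group
    · intro h
      calc a * y = c⁻¹ * (c * a * c⁻¹ * (c * y * c⁻¹)) * c := by group
        _ = _ := by rw [h]; group
  refine ⟨Q.comap (MulAut.conj c).toMonoidHom, h1.comap_of_injective _ hi, fun a ha => (e a).2 (h2 ha),
    fun a ha => ?_, (h4.comap_of_injective _ hi).to_le fun a ha => ?_⟩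
  · refine mem_normalizer_iff.2 fun b => ?_
    have := mem_normalizer_iff.1 (h3 ((e a).1 ha)) (c * b * c⁻¹)
    rw [show c * a * c⁻¹ * (c * b * c⁻¹) * (c * a * c⁻¹)⁻¹ = c * (a * b * a⁻¹) * c⁻¹ by group] at this
    exact this
  · refine mem_centralizer_iff.2 fun b hb => ?_
    have := mem_centralizer_iff.1 ha (c⁻¹ * b * c) (show c * (c⁻¹ * b * c) * c⁻¹ ∈ Q by
      rwa [show c * (c⁻¹ * b * c) * c⁻¹ = b by group])
    change b * (c * a * c⁻¹) = c * a * c⁻¹ * b
    calc b * (c * a * c⁻¹) = c * (c⁻¹ * b * c * a) * c⁻¹ := by group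
      _ = _ := by rw [this]; group

variable [Finite G] {M : Ideal AlgInt}

theorem Con.single [Fact p.Prime] (hM : IsPModular p M) {y : G} (h : Con p y)
    (χ ψ : IrrCharacter (centralizer ({y} : Set G))) : SameBlock M χ.1 ψ.1 := by
  obtain ⟨Q, h1, h2, h3, h4⟩ := h
  haveI := (normal_subgroupOf_iff_le_normalizer h2).2 h3
  refine sameBlock_of_centralizer hM (P := Q.subgroupOf _) (h1.comap_of_injective _ Subtype.val_injective)
    (fun g hg hd => ?_) χ ψ
  have : (g : G) ∈ centralizer (Q : Set G) := mem_centralizer_iff.2 fun b hb =>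
    congrArg Subtype.val (mem_centralizer_iff.1 hg ⟨b, h2 hb⟩ hb)
  exact Subtype.ext ((isPElt_of_mem h4 this).eq_one_of_not_dvd (by rwa [orderOf_coe]))

theorem single [hp : Fact p.Prime] (hM : IsPModular p M) (hc : ∀ y : G, orderOf y = p → Con p y)
    (hz : ∀ (χ : IrrCharacter G) (m : ℕ), Nat.card G = dg χ * m → p ∣ m) (χ ψ : IrrCharacter G) :
    SameBlock M χ.1 ψ.1 := by
  have H := (Cfsg.Agent.S4717.result (G := G) p M hM 1).2 one_pos fun y hy B ⟨θ, hθ⟩ hne =>
    absurd (hθ.trans (blockOf_eq_of_sameBlock hM ((hc y hy).single hM θ (irrOne _)))) hne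
  have key : ∀ θ : IrrCharacter G, blockOf M θ.1 = principalBlock M G := fun θ => by
    by_contra hne
    have h0 := H _ ⟨θ, rfl⟩ hne
    obtain ⟨m, hm⟩ := dg_dvd θ
    have h1 : sInf ((fun χ : IrrCharacter G => (charDegree χ.1).factorization p) '' blockOf M θ.1) ≤
        (dg θ).factorization p := Nat.sInf_le ⟨θ, sameBlock_refl hM _, rfl⟩
    have hc0 : Nat.card G ≠ 0 := Nat.card_pos.ne'
    have h2 : dg θ ≠ 0 := fun e => hc0 (by rw [hm, e, zero_mul])
    have h3 : m ≠ 0 := fun e => hc0 (by rw [hm, e, mul_zero])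
    have h4 := hp.out.factorization_pos_of_dvd h3 (hz θ m hm)
    have h5 : (Nat.card G).factorization p = (dg θ).factorization p + m.factorization p := by
      rw [hm, Nat.factorization_mul h2 h3]; rfl
    unfold blockDefect at h0
    omega
  have h1 : ψ ∈ blockOf M χ.1 := by
    rw [key χ, ← key ψ]; exact sameBlock_refl hM _
  exact h1

theorem comb {ι : Type*} [Fintype ι] (n : ι → ℕ) {q D : ℕ} (hq : Fintype.card ι = q) (h0 : 0 < q)
    (hD : ∑ i, n i = D) :
    (D : ℝ) ^ 2 + (D % q : ℕ) * ((q : ℝ) - (D % q : ℕ)) ≤ q * ∑ i, (n i : ℝ) ^ 2 := by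
  set u := D / q
  set r := D % q
  have e : (D : ℝ) = q * u + r := by exact_mod_cast (Nat.div_add_mod D q).symm
  have h1 : ∀ i, (2 * u + 1) * (n i : ℝ) - u * (u + 1) ≤ (n i : ℝ) ^ 2 := fun i => by
    have : (0 : ℤ) ≤ ((n i : ℤ) - u) * ((n i : ℤ) - u - 1) := by
      rcases le_or_gt (n i : ℤ) u with h | h
      · exact mul_nonneg_of_nonpos_of_nonpos (by omega) (by omega)
      · exact mul_nonneg (by omega) (by omega)
    have : (0 : ℝ) ≤ ((n i : ℝ) - u) * ((n i : ℝ) - u - 1) := by exact_mod_cast this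
    linarith
  have h2 := sum_le_sum fun i (_ : i ∈ univ) => h1 i
  rw [sum_sub_distrib, ← mul_sum, sum_const, card_univ, hq, nsmul_eq_mul, ← Nat.cast_sum, hD] at h2
  have h3 := mul_le_mul_of_nonneg_left h2 (Nat.cast_nonneg (α := ℝ) q)
  rw [e] at h3 ⊢
  nlinarith

theorem sum_ab {χ : G → ℂ} (hχ : IsCharacter G χ) {A R : Subgroup G} [Fintype A]
    (hA : ∀ a b : A, a * b = b * a) (hR : ∀ (a : A) (r : R), Commute (A.subtype a) (R.subtype r))
    (hv : ∀ a ∈ A, ∀ r ∈ R, r ≠ 1 → χ (a * r) = 0) {D : ℕ} (hD : χ 1 = Nat.card R * D) :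
    (Nat.card R : ℝ) ^ 2 * ((D : ℝ) ^ 2 + (D % Nat.card A : ℕ) *
      ((Nat.card A : ℝ) - (D % Nat.card A : ℕ))) ≤ ∑ a : A, ‖χ a‖ ^ 2 := by
  classical
  have := Fintype.ofFinite R
  have hR0 := card_ne_zero_complex R
  have hA0 := card_ne_zero_complex A
  have h1 : ∀ l : IrrCharacter A, ∃ n : ℕ, classInner (fun a : A => χ a) l.1 = Nat.card R * n := by
    intro l
    obtain ⟨n, hn⟩ := (hχ.comp (A.subtype.noncommCoprod R.subtype hR)).exists_classInner_nat
      (l.2.isCharacter.comp (MonoidHom.fst A R))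
    refine ⟨n, ?_⟩
    rw [← hn, classInner_def, classInner_def, Fintype.sum_prod_type, Nat.card_prod, Nat.cast_mul]
    have : ∀ a : A, ∑ r : R, χ (A.subtype.noncommCoprod R.subtype hR (a, r)) *
        conj (l.1 (MonoidHom.fst A R (a, r))) = χ a * conj (l.1 a) := fun a => by
      rw [sum_eq_single 1]
      · simp
      · intro r _ hr
        rw [MonoidHom.noncommCoprod_apply]
        erw [hv a a.2 r r.2 fun e => hr (Subtype.ext e)]
        rw [zero_mul]
      · simp
    simp only [this]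
    field_simp
  choose n hn using h1
  have hcl := hχ.isClassFunction.restrict A
  have h2 := hcl.apply_eq_sum_irr 1
  simp only [hn, fun l : IrrCharacter A => l.2.apply_one_of_comm hA, mul_one, ← mul_sum,
    OneMemClass.coe_one, hD] at h2
  have h3 : ∑ l, n l = D := by exact_mod_cast (mul_left_cancel₀ hR0 h2).symm
  have h4 := hcl.classInner_self_eq_sum_normSq
  rw [classInner_self_eq_norm_sq] at h4
  have h5 := Complex.ofReal_injective h4
  simp only [hn, map_mul, Complex.normSq_natCast, ← mul_sum] at h5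
  have h6 := comb n (q := Nat.card A) (by rw [← Nat.card_eq_fintype_card, card_irr_of_comm hA])
    Nat.card_pos h3
  have hA1 := card_pos_real A
  rw [inv_mul_eq_iff_eq_mul₀ hA1.ne'] at h5
  rw [h5]
  simp only [← sq]
  nlinarith [mul_le_mul_of_nonneg_left h6 (sq_nonneg (Nat.card R : ℝ))]

open Classical in
/-- sum over the elements of order `n` -/
noncomputable def so (f : G → ℝ) (n : ℕ) : ℝ :=
  ∑ g ∈ (Fintype.ofFinite G).elems.filter (orderOf · = n), f g

theorem so_one (f : G → ℝ) : so f 1 = f 1 := by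
  unfold so
  rw [sum_eq_single 1]
  · intro b hb h
    exact absurd (orderOf_eq_one_iff.1 (mem_filter.1 hb).2) h
  · intro h
    letI := Fintype.ofFinite G
    exact (h (mem_filter.2 ⟨Fintype.complete (1 : G), orderOf_one⟩)).elim

theorem le_so {f : G → ℝ} (h0 : ∀ g, 0 ≤ f g) (g : G) : f g ≤ so f (orderOf g) := by
  letI := Fintype.ofFinite G
  exact single_le_sum (fun g _ => h0 g) (mem_filter.2 ⟨Fintype.complete g, rfl⟩)

theorem so_nonneg {f : G → ℝ} (h0 : ∀ g, 0 ≤ f g) (n : ℕ) : 0 ≤ so f n :=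
  sum_nonneg fun g _ => h0 g

theorem sum_so_le (χ : IrrCharacter G) (O : Finset ℕ) :
    ∑ n ∈ O, so (fun g => ‖χ.1 g‖ ^ 2) n ≤ Nat.card G := by
  classical
  letI := Fintype.ofFinite G
  have h1 := classInner_self_re χ.1
  rw [χ.2.classInner_self, Complex.one_re, eq_comm, inv_mul_eq_iff_eq_mul₀ (card_pos_real G).ne',
    mul_one] at h1
  rw [← h1]
  refine le_trans (le_of_eq ?_) (sum_le_sum_of_subset_of_nonneg (subset_univ
    (univ.filter (orderOf · ∈ O))) fun _ _ _ => by positivity)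
  rw [← sum_fiberwise_of_maps_to (g := fun g : G => orderOf g) (t := O) fun g hg => (mem_filter.1 hg).2]
  refine sum_congr rfl fun n hn => sum_congr ?_ fun _ _ => rfl
  ext g
  simp only [mem_filter, mem_univ, true_and]
  exact ⟨fun h => ⟨h.2 ▸ hn, h.2⟩, fun h => ⟨Fintype.complete _, h.2⟩⟩

theorem card_norm {q : ℕ} [hq : Fact q.Prime] {x : G} (hx : orderOf x = q) {w : ℕ}
    (hw : Nat.card G = Nat.card (centralizer ({x} : Set G)) * w) (h2 : ¬ q ^ 2 ∣ Nat.card G) :
    Nat.card (normalizer (zpowers x : Set G)) = Nat.card (centralizer ({x} : Set G)) * (w % q) := by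
  have hc : Nat.card (zpowers x) = q := by rw [Nat.card_zpowers, hx]
  have hf : (Nat.card G).factorization q = 1 := by
    have h1 := hq.out.factorization_pos_of_dvd (Nat.card_pos (α := G)).ne' (hx ▸ orderOf_dvd_natCard x)
    have := mt (hq.out.pow_dvd_iff_le_factorization (Nat.card_pos (α := G)).ne').2 h2
    omega
  let P := Sylow.ofCard (p := q) (zpowers x) (by rw [hf, hc, pow_one])
  have h3 := card_sylow_modEq_one q G
  rw [P.card_eq_index_normalizer] at h3
  change (normalizer (zpowers x : Set G)).index ≡ 1 [MOD q] at h3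
  have h4 := (zpowers x).normalizerMonoidHom.ker.card_mul_index
  have e : centralizer (zpowers x : Set G) = centralizer {x} := by
    rw [zpowers_eq_closure, centralizer_closure]
  rw [index_ker, normalizerMonoidHom_ker, Nat.card_congr (subgroupOfEquivOfLe
    (centralizer_le_normalizer _)).toEquiv, e] at h4
  have h5 := (zpowers x).normalizerMonoidHom.range.card_le_card_group
  rw [IsCyclic.card_mulAut, hc, Nat.totient_prime hq.out] at h5
  have h6 := (normalizer (zpowers x : Set G)).card_mul_index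
  rw [← h4, hw, mul_assoc] at h6
  have h7 := Nat.eq_of_mul_eq_mul_left Nat.card_pos h6
  rw [← h4, ← h7]
  congr 1
  have h8 := (Nat.ModEq.mul_left (Nat.card (zpowers x).normalizerMonoidHom.range) h3)
  rw [mul_one] at h8
  have := hq.out.pos
  rw [h8, Nat.mod_eq_of_lt (by omega)]

open Classical in
theorem so_ge {q : ℕ} [hq : Fact q.Prime] {x : G} (hx : orderOf x = q) [Fintype (zpowers x)]
    {f : G → ℝ} (h0 : ∀ g, 0 ≤ f g) (hf : ∀ a g, f (a * g * a⁻¹) = f g) :
    Nat.card G * (∑ a : zpowers x, f a - f 1) ≤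
      Nat.card (normalizer (zpowers x : Set G)) * so f q := by
  letI := Fintype.ofFinite G
  have hc : Nat.card (zpowers x) = q := by rw [Nat.card_zpowers, hx]
  have e1 : ∑ a : zpowers x, f a - f 1 = ∑ a ∈ univ.erase (1 : zpowers x), f a := by
    rw [← add_sum_erase _ _ (mem_univ (1 : zpowers x))]; simp
  have e2 : Nat.card G * ∑ a ∈ univ.erase (1 : zpowers x), f a =
      ∑ t ∈ (univ : Finset G) ×ˢ univ.erase (1 : zpowers x), f (t.1 * t.2 * t.1⁻¹) := by
    rw [sum_product]
    simp only [hf, sum_const, card_univ, nsmul_eq_mul, Nat.card_eq_fintype_card]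
  rw [e1, e2, ← sum_fiberwise_of_maps_to (g := fun t : G × zpowers x => t.1 * t.2 * t.1⁻¹)
    (t := (Fintype.ofFinite G).elems.filter (orderOf · = q)) fun t ht => ?_]
  · unfold so
    rw [mul_sum]
    refine sum_le_sum fun z _ => ?_
    rw [sum_congr rfl fun t ht => by rw [(mem_filter.1 ht).2], sum_const, nsmul_eq_mul]
    refine mul_le_mul_of_nonneg_right (Nat.cast_le.2 ?_) (h0 z)
    rcases (({t ∈ (univ : Finset G) ×ˢ univ.erase (1 : zpowers x) |
      t.1 * t.2 * t.1⁻¹ = z})).eq_empty_or_nonempty with h | ⟨t0, h⟩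
    · rw [h]; exact Nat.zero_le _
    rw [Nat.card_eq_fintype_card, ← card_univ]
    have hm : ∀ t ∈ ({t ∈ (univ : Finset G) ×ˢ univ.erase (1 : zpowers x) |
        t.1 * t.2 * t.1⁻¹ = z}), t0.1⁻¹ * t.1 ∈ normalizer (zpowers x : Set G) := fun t ht => by
      refine mem_normalizer_fintype fun n hn => ?_
      obtain ⟨k, hk⟩ := mem_zpowers_of_prime_card hc
        (ne_of_mem_erase (mem_product.1 (mem_filter.1 ht).1).2) (g' := ⟨n, hn⟩)
      have h1 : n = t.2 ^ k := (congrArg Subtype.val hk).symm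
      have h2 : t0.1⁻¹ * t.1 * t.2 * (t0.1⁻¹ * t.1)⁻¹ = t0.2 := by
        calc _ = t0.1⁻¹ * (t.1 * t.2 * t.1⁻¹) * t0.1 := by group
          _ = _ := by rw [(mem_filter.1 ht).2, ← (mem_filter.1 h).2]; group
      rw [h1, ← conj_zpow, h2]
      exact zpow_mem t0.2.2 k
    refine card_le_card_of_injOn (fun t => if ht : t0.1⁻¹ * t.1 ∈ normalizer (zpowers x : Set G)
      then ⟨_, ht⟩ else 1) (fun _ _ => mem_univ _) fun t ht s hs e => ?_
    simp only [dif_pos (hm t ht), dif_pos (hm s hs)] at e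
    have h1 : t.1 = s.1 := mul_left_cancel (congrArg Subtype.val e)
    refine Prod.ext h1 (Subtype.ext ?_)
    have h2 := (mem_filter.1 ht).2.trans (mem_filter.1 hs).2.symm
    rw [h1] at h2
    exact mul_left_cancel (mul_right_cancel h2)
  · refine mem_filter.2 ⟨Fintype.complete _, ?_⟩
    have h1 : t.2 ≠ 1 := ne_of_mem_erase (mem_product.1 ht).2
    have h2 : orderOf t.2 = q := orderOf_eq_prime (by rw [← hc]; exact pow_card_eq_one') h1
    rw [← h2, ← orderOf_coe]
    exact (SemiconjBy.orderOf_eq t.1⁻¹ (by simp [SemiconjBy, mul_assoc]))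

/-- lower bound for the contribution of the elements of prime order `q` -/
theorem bound {χ : IrrCharacter G} {m : ℕ} (hm : Nat.card G = dg χ * m) (hp : p.Prime) (hpm : ¬ p ∣ m)
    {q : ℕ} (hq : q.Prime) (hpq : p ≠ q) {x : G} (hx : orderOf x = q) {c : ℕ}
    (hc : Nat.card (centralizer ({x} : Set G)) = c) (a : ℕ) {w D : ℕ} (hw : Nat.card G = c * w)
    (h2 : ¬ q ^ 2 ∣ c * w) (ha : p ^ a ∣ c) (hD : dg χ = p ^ a * D) :
    (w : ℝ) * ((p ^ a) ^ 2 * ((D % q : ℕ) * ((q : ℝ) - (D % q : ℕ)))) ≤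
      (w % q : ℕ) * so (fun g => ‖χ.1 g‖ ^ 2) q := by
  classical
  haveI := Fact.mk hp
  haveI := Fact.mk hq
  haveI := Fintype.ofFinite (zpowers x)
  obtain ⟨K, hK⟩ := Sylow.exists_subgroup_card_pow_prime p (G := centralizer ({x} : Set G)) (hc ▸ ha)
  have hR : Nat.card (K.map (centralizer ({x} : Set G)).subtype) = p ^ a := by
    rw [card_map_of_injective Subtype.val_injective, hK]
  have hA : Nat.card (zpowers x) = q := by rw [Nat.card_zpowers, hx]
  have hcm : ∀ y ∈ zpowers x, ∀ r ∈ K.map (centralizer ({x} : Set G)).subtype, Commute y r := by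
    rintro _ ⟨k, rfl⟩ _ ⟨r, -, rfl⟩
    exact (Commute.symm (mem_centralizer_singleton_iff.1 r.2)).zpow_left k
  have h1 : χ.1 1 = (p ^ a * D : ℕ) := by rw [← hD, irr_apply_one]
  have h3 := sum_ab χ.2.isCharacter (A := zpowers x) (R := K.map (centralizer ({x} : Set G)).subtype)
    (fun a b => mul_comm' a b) (fun a r => hcm _ a.2 _ r.2) (fun y hy r hr h => ?_) (D := D)
    (by rw [h1, hR, Nat.cast_mul])
  · have h4 := so_ge hx (f := fun g => ‖χ.1 g‖ ^ 2) (fun _ => by positivity)
      fun a g => by rw [χ.2.isCharacter.isClassFunction.conj_apply]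
    rw [card_norm hx (w := w) (by rw [hc, hw]) (hw ▸ h2), hc, hw, h1, Complex.norm_natCast] at h4
    rw [hR, hA] at h3
    have h5 : (0 : ℝ) < c := by rw [← hc]; exact card_pos_real _
    push_cast at h3 h4 ⊢
    refine le_of_mul_le_mul_left ?_ h5
    have h6 : (0 : ℝ) ≤ c * w := by positivity
    nlinarith [mul_le_mul_of_nonneg_left h3 h6]
  · refine dz hp hm hpm ?_
    have h4 : (y * r) ^ q = r ^ q := by
      have : y ^ q = 1 := by
        rw [← hx]; exact orderOf_dvd_iff_pow_eq_one.1 (orderOf_dvd_of_mem_zpowers hy)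
      rw [(hcm y hy r hr).mul_pow, this, one_mul]
    have h5 := isPElt_of_mem (IsPGroup.of_card hR) hr
    by_contra h6
    have h7 : ¬ p ∣ orderOf (r ^ q) := fun h7 => h6 (h7.trans (h4 ▸ orderOf_pow_dvd q))
    have h8 := (isPElt_of_mem (IsPGroup.of_card hR) (pow_mem hr q)).eq_one_of_not_dvd h7
    refine h (h5.eq_one_of_not_dvd fun h9 => hpq ?_)
    exact (Nat.prime_dvd_prime_iff_eq hp hq).1 (h9.trans (orderOf_dvd_of_pow_eq_one h8))

theorem exists_ne {χ : IrrCharacter G} {q k : ℕ} (hq : q.Prime) (hk : q ^ k ∣ Nat.card G)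
    (hd : ¬ q ^ k ∣ dg χ) : ∃ g : G, g ≠ 1 ∧ orderOf g ∣ q ^ k ∧ χ.1 g ≠ 0 := by
  classical
  haveI := Fact.mk hq
  obtain ⟨K, hK⟩ := Sylow.exists_subgroup_card_pow_prime q hk
  haveI := Fintype.ofFinite K
  obtain ⟨r, hr⟩ := H18.CT.exists_sm χ.2.isCharacter K
  by_contra! h
  rw [H18.CT.sm_eq, sum_eq_single (1 : K) (fun (g : K) _ hg => h g (fun e => hg (Subtype.ext e))
    (hK ▸ K.orderOf_dvd_natCard g.2)) (by simp), hK, OneMemClass.coe_one, irr_apply_one] at hr
  exact hd ⟨r, by exact_mod_cast hr⟩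

section Cert
open H16 H0.TR
variable {Ω : Type*} [MulAction G Ω] {g e x : ℕ → G} {pt : ℕ → Ω} {P Pe Px : ℕ → ℕ → ℕ}
  {N K n r c : ℕ} {B : List ℕ}

/-- check of `e j * x i = w * e j` with `w` a word in the `x` -/
noncomputable def nrmEnt (Pe Px : ℕ → ℕ → ℕ) (r : ℕ) (B : List ℕ) (T : List (List (List ℕ)))
    (j i : ℕ) : ℕ :=
  Nat.add (ltAll r (nth [] (nth [] T j) i))
    (sumL (fun β => Nat.xor (Pe j (Px i β)) (apW Px (nth [] (nth [] T j) i) (Pe j β))) B)

theorem nrm (Mo : Md g pt P N K B c) (he : Act e pt Pe N n) (hx : Act x pt Px N r)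
    {T : List (List (List ℕ))} (h : allZ2 (nrmEnt Pe Px r B T) n r = true) :
    gen e n ≤ normalizer (gen x r : Set G) := by
  refine gen_le.2 fun j hj => mem_normalizer_fintype fun a ha => ?_
  have : gen x r ≤ (gen x r).comap (MulAut.conj (e j)).toMonoidHom := gen_le.2 fun i hi => by
    have h1 := Nat.add_eq_zero_iff.1 (allZ2_sound h j hj i hi)
    have h2 := ltAll_zero h1.1
    have h3 := Mo.sm.ext ((rp_let he hj).mul (rp_let hx hi)) ((rp_word hx h2).mul (rp_let he hj)) h1.2
    change e j * x i * (e j)⁻¹ ∈ gen x r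
    rw [h3, mul_inv_cancel_right]
    exact evA_mem_gen _ h2
  exact this ha

omit [Finite G] in
theorem con (Mo : Md g pt P N K B c) {t e' : ℕ → G} {n' k : ℕ} (he : Act e pt Pe N n)
    (hx : Act x pt Px N r) (hp : p.Prime) (h1 : centralizer (gen t 1) = gen e n ∧ Nat.card (gen e n) = k)
    (h0 : x 0 = t 0) (hr : 0 < r) {k' : ℕ}
    (h2 : centralizer (gen x r) = gen e' n' ∧ Nat.card (gen e' n') = p ^ k')
    {T : List (List (List ℕ))} (h3 : allZ2 (nrmEnt Pe Px r B T) n r = true)
    (h4 : kChk Px Px r r B [] = true) : Con p (t 0) := by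
  have := Mo.fin
  have e1 : centralizer (gen t 1 : Set G) = centralizer {t 0} := by
    rw [gen, centralizer_closure, show Set.Iio 1 = {0} by ext; simp, Set.image_singleton]
  have h5 : IsPGroup p (centralizer (gen x r : Set G)) := IsPGroup.of_card (by rw [h2.1, h2.2])
  have h6 : gen x r ≤ centralizer (gen x r : Set G) := gen_le.2 fun i hi => by
    rw [gen, centralizer_closure]
    rintro _ ⟨j, hj, rfl⟩
    exact ((kChk_sound Mo hx hx rfl h4 i hi).2 j hj).symm
  refine ⟨gen x r, h5.to_le h6, h6.trans (centralizer_le ?_), ?_, h5⟩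
  · rintro _ rfl
    exact h0 ▸ mem_gen x hr
  · rw [← e1, h1.1]; exact nrm Mo he hx h3

omit [Finite G] in
theorem ord (Mo : Md g pt P N K B c) (hx : Act x pt Px N 1) {q : ℕ} (hq : q.Prime) {i : ℕ}
    (h : sumL (fun β => Nat.xor (itW Px [0] q β) β) B = 0 ∧ ltAll 1 [0] = 0 ∧ i < N ∧ apW Px [0] i ≠ i) :
    orderOf (x 0) = q := by
  haveI := Fact.mk hq
  have h1 := Mo.sm.ext (rp_pow hx (W := [0]) (by simp) q) Rp.one h.1
  have h2 := hx.ne_one Mo.inj h.2
  simp only [evA_cons, evA_nil, one_mul] at h1 h2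
  exact orderOf_eq_prime h1 h2

end Cert

end H7.One
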