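import Cfsg.Agent.H6.PS0

/-! The Praeger-Saxl bound: the potential argument. -/

set_option autoImplicit false
set_option linter.unusedSectionVars false
open MulAction Finset Real

namespace H7.PS
open H6.PS
universe u

/-- the potential, as a function of the square root -/
noncomputable def Ψ (w : ℝ) : ℝ := 2 * log w ^ 2 + 2 - 2 * w⁻¹
/-- the slope -/
noncomputable def c (w : ℝ) : ℝ := 2 * log w / w ^ 2 + 1 / w ^ 3

theorem c_nonneg {w : ℝ} (h : 1 ≤ w) : 0 ≤ c w := by
  have := log_nonneg h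
  unfold c; positivity

theorem c_anti {v w : ℝ} (h : 1 ≤ v) (k : v ≤ w) : c w ≤ c v := by
  have v0 : 0 < v := by linarith
  have w0 : 0 < w := by linarith
  have a1 : log w ≤ log v + (w / v - 1) := by
    have := log_le_sub_one_of_pos (div_pos w0 v0)
    rw [log_div w0.ne' v0.ne'] at this; linarith
  have a2 : v - 1 ≤ log v * v := by
    have := mul_le_mul_of_nonneg_right (one_sub_inv_le_log_of_pos v0) v0.le
    rwa [sub_mul, inv_mul_cancel₀ v0.ne', one_mul] at this
  have a3 : log w * v ≤ log v * v + (w - v) := by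
    have := mul_le_mul_of_nonneg_right a1 v0.le
    rwa [add_mul, sub_mul, div_mul_cancel₀ _ v0.ne', one_mul] at this
  have e : c v - c w = ((w ^ 3 - v ^ 3) + 2 * (log v * v) * w ^ 3 - 2 * (log w * v) * (v ^ 2 * w)) / (v ^ 3 * w ^ 3) := by
    unfold c; field_simp; ring
  rw [← sub_nonneg, e]
  refine div_nonneg ?_ (by positivity)
  have b1 := mul_le_mul_of_nonneg_right a3 (show 0 ≤ v ^ 2 * w by positivity)
  have d0 : 0 ≤ w - v := by linarith
  have b2 := mul_le_mul_of_nonneg_right a2 (show 0 ≤ (w - v) * (w * (w + v)) by positivity)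
  have b3 : 0 ≤ (w - v) * (w ^ 2 * (v - 1) * 2 + w * (w - v) + v ^ 2) := by
    have : 0 ≤ v - 1 := by linarith
    positivity
  nlinarith

theorem tangent {v w : ℝ} (h : 1 ≤ v) (k : v ≤ w) : Ψ v + c w * (w ^ 2 - v ^ 2) ≤ Ψ w := by
  have D : ∀ x : ℝ, 0 < x → HasDerivAt (fun x => Ψ x - c w * x ^ 2) (2 * x * (c x - c w)) x := fun x x0 => by
    have := (((((hasDerivAt_log x0.ne').pow 2).const_mul 2).add_const 2).sub ((hasDerivAt_inv x0.ne').const_mul 2)).sub
      ((hasDerivAt_pow 2 x).const_mul (c w))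
    refine this.congr_deriv ?_
    generalize c w = a
    unfold c; simp only [Nat.cast_ofNat, Nat.add_one_sub_one, pow_one]; field_simp; ring
  have := monotoneOn_of_deriv_nonneg (convex_Icc 1 w) (f := fun x => Ψ x - c w * x ^ 2)
    (fun x hx => (D x (by linarith [hx.1])).continuousAt.continuousWithinAt)
    (fun x hx => (D x (by linarith [(interior_subset hx).1])).differentiableAt.differentiableWithinAt)
    (fun x hx => by
      have hx := interior_subset hx
      rw [(D x (by linarith [hx.1])).deriv]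
      exact mul_nonneg (by linarith [hx.1]) (sub_nonneg.2 (c_anti hx.1 hx.2)))
    ⟨h, k⟩ ⟨h.trans k, le_rfl⟩ k
  simp only at this
  linarith

theorem slope {w : ℝ} (h : 1 ≤ w) : 2 * log w ≤ c w * (w ^ 2 - 1) := by
  have w0 : 0 < w := by linarith
  have := self_le_sinh_iff.2 (log_nonneg h)
  rw [sinh_log w0] at this
  have e : c w * (w ^ 2 - 1) - 2 * log w = ((w - w⁻¹) / 2 - log w) * 2 / w ^ 2 := by
    unfold c; field_simp; ring
  rw [← sub_nonneg, e]
  exact div_nonneg (by linarith) (by positivity)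

theorem Ψ_mono {v w : ℝ} (h : 1 ≤ v) (k : v ≤ w) : Ψ v ≤ Ψ w := by
  have := tangent h k
  have := mul_nonneg (c_nonneg (h.trans k)) (show 0 ≤ w ^ 2 - v ^ 2 by nlinarith)
  linarith

theorem Ψ_le {w d : ℝ} (h : 1 ≤ w) (d2 : 2 ≤ d) (k : 12 * w ^ 2 + 24 * d ≤ 9 * d ^ 2 + 16) : Ψ w ≤ d := by
  have w0 : 0 < w := by linarith
  have s0 := sqrt_pos.2 w0
  have s1 := sq_sqrt w0.le
  have e1 := exp_one_gt_d9
  have a1 : log (√w) * exp 1 ≤ √w := by
    have := log_le_sub_one_of_pos (div_pos s0 (exp_pos 1))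
    rw [log_div s0.ne' (exp_pos 1).ne', log_exp, sub_le_sub_iff_right] at this
    exact (le_div_iff₀ (exp_pos 1)).1 this
  rw [log_sqrt w0.le] at a1
  have l0 := log_nonneg h
  have a2 : log w * 1.359 ≤ √w := by nlinarith
  have a3 : log w ^ 2 * 1.846 ≤ w := by nlinarith
  have a4 : 3.464 * w ≤ 3 * d - 4 := abs_le_of_sq_le_sq' (by nlinarith) (by linarith) |>.2
  have a5 : w⁻¹ * w = 1 := inv_mul_cancel₀ w0.ne'
  have a6 : 0.36 - 0.0324 * w ≤ w⁻¹ := by
    rw [← one_div, le_div_iff₀ w0]; nlinarith [sq_nonneg (1 - 0.18 * w)]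
  unfold Ψ
  linarith

section
variable {G Ω : Type*} [Group G] [Finite G] [MulAction G Ω] [Fintype Ω]

theorem card_eq (X : Subgroup G) (x : Ω) :
    Nat.card X = (orbit X x).ncard * Nat.card (X ⊓ stabilizer G x : Subgroup G) := by
  rw [← index_stabilizer, ← (stabilizer X x).index_mul_card, inf_comm, ← Subgroup.subgroupOf_map_subtype,
    Subgroup.card_subtype]
  rfl

omit [Finite G] in
theorem sum_orbit (X : Subgroup G) : ∑ x : Ω, (orbit X x).ncard ≤ Fintype.card Ω + E Ω X := by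
  classical
  unfold E
  rw [card_filter, Fintype.sum_prod_type, ← card_univ, card_eq_sum_ones, ← sum_add_distrib]
  refine sum_le_sum fun x _ => ?_
  rw [← card_filter, add_comm, ← card_insert_of_notMem (a := x) (by simp), ← Set.ncard_coe_finset]
  refine Set.ncard_le_ncard fun y ⟨g, e⟩ => ?_
  by_cases h : y = x
  · simp [h]
  · simpa [h] using ⟨Ne.symm h, g.1, g.2, e⟩

omit [Finite G] in
theorem E_le (X : Subgroup G) (x : Ω) : E Ω (X ⊓ stabilizer G x) ≤ E Ω X := by
  classical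
  exact card_le_card (monotone_filter_right _ fun p _ ⟨a, g, b, e⟩ => ⟨a, g, b.1, e⟩)

omit [Finite G] in
theorem sum_E {d : ℕ} (h : ∀ a b : Ω, a ≠ b → d ≤ D G a b) (X : Subgroup G) :
    ∑ x : Ω, E Ω (X ⊓ stabilizer G x) + d * E Ω X ≤ Fintype.card Ω * E Ω X := by
  classical
  set P := (univ : Finset (Ω × Ω)).filter fun p => p.1 ≠ p.2 ∧ ∃ g ∈ X, g • p.1 = p.2
  have e : E Ω X = #P := by unfold E; congr
  have a1 : d * #P ≤ ∑ x : Ω, #(P.filter fun p => ¬ ∃ g : G, g • x = x ∧ g • p.1 = p.2) := by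
    simp only [card_filter]
    rw [sum_comm, mul_comm, ← smul_eq_mul]
    refine card_nsmul_le_sum _ _ _ fun p hp => (h _ _ (mem_filter.1 hp).2.1).trans_eq ?_
    unfold D; rw [card_filter]
  rw [e, ← card_univ, ← smul_eq_mul (#univ), ← sum_const]
  refine (Nat.add_le_add_left a1 _).trans ?_
  rw [← sum_add_distrib]
  refine sum_le_sum fun x _ => ?_
  rw [← card_filter_add_card_filter_not (s := P) fun p => ∃ g : G, g • x = x ∧ g • p.1 = p.2]
  refine Nat.add_le_add_right (card_le_card fun p hp => ?_) _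
  obtain ⟨a, g, b, e⟩ := (mem_filter.1 hp).2
  exact mem_filter.2 ⟨mem_filter.2 ⟨mem_univ _, a, g, b.1, e⟩, g, b.2, e⟩

omit [Finite G] in
theorem E_top (X : Subgroup G) : E Ω X + Fintype.card Ω ≤ Fintype.card Ω * Fintype.card Ω := by
  classical
  have : E Ω X ≤ #(univ : Finset Ω).offDiag := card_le_card fun p hp => by simpa using (mem_filter.1 hp).2.1
  rw [offDiag_card, card_univ] at this
  have := Nat.le_mul_self (Fintype.card Ω)
  omega

theorem pot [FaithfulSMul G Ω] {d : ℕ} (h : ∀ a b : Ω, a ≠ b → d ≤ D G a b) (X : Subgroup G) :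
    d * log (Nat.card X) ≤ Fintype.card Ω * Ψ √(1 + E Ω X / Fintype.card Ω) := by
  classical
  induction hN : Nat.card X using Nat.strong_induction_on generalizing X with | _ N ih => ?_
  subst hN
  have o : ∀ Y : Subgroup G, (1 : ℝ) ≤ 1 + E Ω Y / Fintype.card Ω := fun Y => le_add_of_nonneg_right (by positivity)
  have o1 := fun Y => one_le_sqrt.2 (o Y)
  have o2 := fun Y => sq_sqrt (zero_le_one.trans (o Y))
  by_cases m : ∀ x : Ω, X ≤ stabilizer G x
  · rw [show X = ⊥ from eq_bot_iff.2 fun g hg => eq_of_smul_eq_smul (α := Ω) fun x => (m x hg).trans (one_smul _ _).symm]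
    simp only [Subgroup.card_bot, Nat.cast_one, log_one, mul_zero]
    exact mul_nonneg (by positivity) (le_trans (by simp [Ψ]) (Ψ_mono le_rfl (o1 _)))
  obtain ⟨x0, hx0⟩ := not_forall.1 m
  have n0 : (0 : ℝ) < Fintype.card Ω := Nat.cast_pos.2 (Fintype.card_pos_iff.2 ⟨x0⟩)
  have s0 : ∀ x : Ω, 0 < (orbit X x).ncard := fun x => (Set.ncard_pos (Set.toFinite _)).2 ⟨x, mem_orbit_self x⟩
  set w := √(1 + E Ω X / Fintype.card Ω : ℝ) with hw
  have w1 : 1 ≤ w := o1 X
  have w2 : Fintype.card Ω * (w ^ 2 - 1) = E Ω X := by rw [hw, o2]; field_simp; ring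
  obtain ⟨x, hx, k⟩ : ∃ x : Ω, ¬ X ≤ stabilizer G x ∧
      d * log (orbit X x).ncard ≤ c w * (E Ω X - E Ω (X ⊓ stabilizer G x)) := by
    by_contra! k
    have a1 : ∑ x : Ω, c w * (E Ω X - E Ω (X ⊓ stabilizer G x)) < ∑ x : Ω, d * log (orbit X x).ncard :=
      sum_lt_sum (fun x _ => (em (X ≤ stabilizer G x)).elim (fun l => by
        rw [inf_eq_left.2 l, sub_self, mul_zero]
        exact mul_nonneg (by positivity) (log_natCast_nonneg _)) fun l => (k x l).le) ⟨x0, mem_univ _, k x0 hx0⟩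
    have a2 : ∑ x : Ω, log (orbit X x).ncard ≤ ∑ x : Ω, (2 * log w - 1 + (orbit X x).ncard / w ^ 2) := sum_le_sum fun x _ => by
      have := log_le_sub_one_of_pos (div_pos (Nat.cast_pos.2 (s0 x)) (show 0 < w ^ 2 by positivity))
      rw [log_div (Nat.cast_pos.2 (s0 x)).ne' (by positivity), log_pow] at this
      push_cast at this; linarith
    have a3 : (∑ x : Ω, ((orbit X x).ncard : ℝ)) / w ^ 2 ≤ Fintype.card Ω := by
      have : ((∑ x : Ω, (orbit X x).ncard : ℕ) : ℝ) ≤ (Fintype.card Ω + E Ω X : ℕ) := Nat.cast_le.2 (sum_orbit X)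
      push_cast at this
      rw [div_le_iff₀ (by positivity)]; linarith
    have a4 : ((∑ x : Ω, E Ω (X ⊓ stabilizer G x) + d * E Ω X : ℕ) : ℝ) ≤ (Fintype.card Ω * E Ω X : ℕ) := Nat.cast_le.2 (sum_E h X)
    push_cast at a4
    rw [sum_add_distrib, ← sum_div, sum_const, card_univ, nsmul_eq_mul] at a2
    rw [← mul_sum, ← mul_sum, sum_sub_distrib, sum_const, card_univ, nsmul_eq_mul] at a1
    have a5 := mul_le_mul_of_nonneg_left (slope w1) n0.le
    have a6 := mul_le_mul_of_nonneg_left (show (d : ℝ) * E Ω X ≤ _ from le_sub_iff_add_le'.2 a4) (c_nonneg w1)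
    have a7 : ∑ x : Ω, log (orbit X x).ncard ≤ c w * E Ω X := by rw [← w2]; linarith
    have a8 := mul_le_mul_of_nonneg_left a7 (Nat.cast_nonneg (α := ℝ) d)
    linarith
  have c0 : 0 < Nat.card (X ⊓ stabilizer G x : Subgroup G) := Nat.card_pos
  have lt : Nat.card (X ⊓ stabilizer G x : Subgroup G) < Nat.card X :=
    Set.ncard_lt_ncard (SetLike.coe_ssubset_coe.2 (inf_lt_left.2 hx))
  have a1 := ih _ lt _ rfl
  have a2 := mul_le_mul_of_nonneg_left (tangent (o1 (X ⊓ stabilizer G x)) (w := w)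
    (sqrt_le_sqrt (by gcongr; exact E_le X x))) n0.le
  have a3 : Fintype.card Ω * (√(1 + E Ω (X ⊓ stabilizer G x) / Fintype.card Ω : ℝ) ^ 2 - 1) = E Ω (X ⊓ stabilizer G x) := by
    rw [o2]; field_simp; ring
  rw [card_eq X x, Nat.cast_mul, log_mul (Nat.cast_pos.2 (s0 x)).ne' (Nat.cast_pos.2 c0).ne']
  rw [← w2, ← a3] at k
  linarith
end

theorem un : UN.{u} := fun G Ω _ _ _ _ _ d d2 hd h => by
  rw [Nat.card_eq_fintype_card (α := Ω)] at *
  have a1 := pot h ⊤
  rw [Subgroup.card_top] at a1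
  have d2 : (2 : ℝ) ≤ d := by exact_mod_cast d2
  rw [← log_le_iff_le_exp (Nat.cast_pos.2 Nat.card_pos)]
  refine le_of_mul_le_mul_left (a1.trans ?_) (by linarith)
  rcases (Fintype.card Ω).eq_zero_or_pos with n | n
  · simp [n]
  have n0 : (0 : ℝ) < Fintype.card Ω := Nat.cast_pos.2 n
  rw [mul_comm (d : ℝ)]
  have a2 : ((E Ω (⊤ : Subgroup G) + Fintype.card Ω : ℕ) : ℝ) ≤ (Fintype.card Ω * Fintype.card Ω : ℕ) := Nat.cast_le.2 (E_top ⊤)
  push_cast at a2
  refine mul_le_mul_of_nonneg_left (Ψ_le (one_le_sqrt.2 (le_add_of_nonneg_right (by positivity))) d2 ?_) n0.le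
  rw [sq_sqrt (by positivity)]
  have a3 : (1 : ℝ) + E Ω (⊤ : Subgroup G) / Fintype.card Ω ≤ Fintype.card Ω := by
    rw [← le_sub_iff_add_le', div_le_iff₀ n0]; linarith
  have : ((12 * Fintype.card Ω + 24 * d : ℕ) : ℝ) ≤ (9 * d ^ 2 + 16 : ℕ) := Nat.cast_le.2 hd
  push_cast at this
  linarith

end H7.PS
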