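/-
The real-vector criterion for the `k(GV)` problem: a square root of Knörr's character of a
self-dual module, built from exterior powers of the Brauer lift.
-/
import Cfsg.Agent.H6.GC6
import Cfsg.Agent.H7.Quot
import Cfsg.Agent.H6.Degree
import Cfsg.Agent.H6.GroupAux
import Cfsg.Agent.H24.ClassSize

set_option autoImplicit false
set_option linter.style.haveILetI false

open Cfsg Polynomial Module Finset H5 H8 H6.GC
open scoped ComplexConjugate

namespace H7.RV

variable {p : ℕ}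

/-- half of the exponents of primitive `p ^ 2`-th roots of unity -/
def J (p : ℕ) : Finset ℕ := (range (p ^ 2)).filter fun j => ¬ p ∣ j ∧ 2 * j < p ^ 2

theorem prod_prim (hp : p.Prime) {ω : ℂ} (hω : IsPrimitiveRoot ω (p ^ 2)) (y : ℂ) :
    ∏ j ∈ (range (p ^ 2)).filter (¬ p ∣ ·), (y - ω ^ j) = ∑ t ∈ range p, (y ^ p) ^ t := by
  have h := congrArg (eval y) ((cyclotomic_eq_prod_X_sub_primitiveRoots hω).symm.trans
    (cyclotomic_prime_pow_eq_geom_sum (n := 1) hp))
  simp only [eval_prod, eval_sub, eval_X, eval_C, eval_finsetSum, eval_pow, pow_one] at h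
  have h0 : 0 < p ^ 2 := pow_pos hp.pos 2
  have h1 : ∀ j, j.Coprime (p ^ 2) ↔ ¬ p ∣ j := fun j => by
    rw [Nat.coprime_pow_right_iff two_pos, Nat.coprime_comm, hp.coprime_iff_not_dvd]
  rw [← h]
  refine prod_nbij (ω ^ ·) (fun j hj => (mem_primitiveRoots h0).2 (hω.pow_of_coprime j
    ((h1 j).2 (mem_filter.1 hj).2))) (fun i hi j hj e => hω.pow_inj
      (mem_range.1 (mem_filter.1 hi).1) (mem_range.1 (mem_filter.1 hj).1) e) (fun μ hμ => ?_)
        fun _ _ => rfl
  obtain ⟨i, h2, h3, rfl⟩ := haveI := NeZero.of_pos h0; hω.isPrimitiveRoot_iff.1 ((mem_primitiveRoots h0).1 hμ)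
  exact ⟨i, mem_filter.2 ⟨mem_range.2 h2, (h1 i).1 h3⟩, rfl⟩

theorem prod_geom {s : Multiset ℂ} (hf : s.map (· ^ p) = s) (h0 : ∀ y ∈ s, y ^ p = 1 → y = 1) :
    (s.map fun y => ∑ t ∈ range p, y ^ t).prod = p ^ s.count 1 := by
  classical
  have h1 : (s.filter (· ≠ 1)).map (· ^ p) = s.filter (· ≠ 1) := by
    conv_rhs => rw [← hf, Multiset.filter_map]
    exact congrArg _ (Multiset.filter_congr fun y hy =>
      ⟨fun h e => h (h0 y hy e), fun h e => h (by simp [e])⟩)
  have h2 : ((s.filter (· ≠ 1)).map fun y => ∑ t ∈ range p, y ^ t).prod = 1 := by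
    refine mul_right_cancel₀ (b := ((s.filter (· ≠ 1)).map (· - 1)).prod)
      (Multiset.prod_ne_zero fun h => ?_) ?_
    · obtain ⟨y, hy, e⟩ := Multiset.mem_map.1 h
      exact (Multiset.mem_filter.1 hy).2 (sub_eq_zero.1 e)
    · rw [← Multiset.prod_map_mul, one_mul]
      conv_rhs => rw [← h1, Multiset.map_map]
      simp only [geom_sum_mul, Function.comp_def]
  conv_lhs => rw [← s.filter_add_not (· ≠ 1), Multiset.map_add, Multiset.prod_add, h2, one_mul]
  simp [Multiset.filter_eq']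

theorem prod_J (hp : p.Prime) {ω : ℂ} (hω : IsPrimitiveRoot ω (p ^ 2)) {s : Multiset ℂ}
    (h1 : ∀ y ∈ s, ‖y‖ = 1) (hi : s.map (·⁻¹) = s) (hf : s.map (· ^ p) = s)
    (h0 : ∀ y ∈ s, y ^ p = 1 → y = 1) :
    ∏ j ∈ J p, ‖(s.map (· - ω ^ j)).prod‖ ^ 2 = p ^ s.count 1 := by
  have hn := hω.norm'_eq_one (pow_pos hp.pos 2).ne'
  have h2 : ∀ j < p ^ 2, ‖(s.map (· - ω ^ (p ^ 2 - j))).prod‖ = ‖(s.map (· - ω ^ j)).prod‖ := by
    intro j hj
    conv_lhs => rw [← hi, Multiset.map_map, ← RCLike.norm_conj, map_multiset_prod, Multiset.map_map]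
    refine congrArg (fun t : Multiset ℂ => ‖t.prod‖) (Multiset.map_congr rfl fun y hy => ?_)
    rw [Function.comp_apply, Function.comp_apply, map_sub, Complex.inv_eq_conj (h1 y hy),
      Complex.conj_conj, pow_sub₀ _ (hω.ne_zero (pow_pos hp.pos 2).ne') hj.le, hω.pow_eq_one,
      one_mul, Complex.inv_eq_conj (by rw [norm_pow, hn, one_pow]), Complex.conj_conj]
  have h3 : ∏ j ∈ (range (p ^ 2)).filter (¬ p ∣ ·), (s.map (· - ω ^ j)).prod = p ^ s.count 1 := by
    rw [← prod_geom hf h0, ← Multiset.prod_map_prod]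
    conv_rhs => rw [← hf, Multiset.map_map]
    exact congrArg _ (Multiset.map_congr rfl fun y _ => prod_prim hp hω y)
  have h4 := congrArg norm h3
  rw [norm_prod, ← prod_filter_mul_prod_filter_not _ (2 * · < p ^ 2), filter_filter, filter_filter,
    norm_pow, Complex.norm_natCast] at h4
  simp only [sq (‖_‖)]
  rw [prod_mul_distrib, ← h4]
  refine congrArg _ (prod_nbij' (p ^ 2 - ·) (p ^ 2 - ·) (fun j hj => ?_) (fun j hj => ?_)
    (fun j hj => ?_) (fun j hj => ?_) fun j hj => (h2 j (mem_range.1 (mem_filter.1 hj).1)).symm)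
  all_goals simp only [J, mem_filter, mem_range] at hj ⊢
  · have := Nat.pos_of_ne_zero fun e : j = 0 => hj.2.1 (e ▸ dvd_zero p)
    exact ⟨by omega, fun h => hj.2.1 ((Nat.dvd_sub_iff_right hj.1.le (dvd_pow_self p two_ne_zero)).1 h),
      by omega⟩
  · have := Nat.pos_of_ne_zero fun e : j = 0 => hj.2.1 (e ▸ dvd_zero p)
    have h5 : 2 * j ≠ p ^ 2 := fun e => by
      obtain rfl := (Nat.prime_dvd_prime_iff_eq Nat.prime_two hp).1
        (Nat.prime_two.dvd_of_dvd_pow ⟨j, e.symm⟩)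
      omega
    exact ⟨by omega, fun h => hj.2.1 ((Nat.dvd_sub_iff_right hj.1.le (dvd_pow_self p two_ne_zero)).1 h),
      by omega⟩
  · omega
  · omega

variable {K W : Type*} [Field K] [AddCommGroup W] [Module K W] [Module.Finite K W]

theorem charpoly_diag' {ι : Type*} [Fintype ι] (b : Basis ι K W) {x : ι → K}
    {g : End K W} (h : ∀ i, g (b i) = x i • b i) : g.charpoly = ∏ i, (X - C (x i)) := by
  classical
  rw [← LinearMap.charpoly_toMatrix g b, ← Matrix.charpoly_diagonal]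
  congr 1
  ext i j
  rw [LinearMap.toMatrix_apply, h, Matrix.diagonal_apply]
  split_ifs with e
  · simp [e]
  · simp [Ne.symm e]

theorem roots_diag {ι : Type*} [Fintype ι] (b : Basis ι K W) {x : ι → K}
    {g : End K W} (h : ∀ i, g (b i) = x i • b i) : g.charpoly.roots = univ.val.map x := by
  rw [charpoly_diag' b h, ← roots_multiset_prod_X_sub_C (univ.val.map x), Multiset.map_map]
  rfl

theorem rs_ext (θ : K →*₀ ℂ) {n : ℕ} (b : Basis (Fin n) K W) {x : Fin n → K}
    {g : End K W} (h : ∀ i, g (b i) = x i • b i) (k : ℕ) :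
    rs θ (exteriorPower.map k g).charpoly = (g.charpoly.roots.map θ).esymm k := by
  rw [roots_diag b h, Multiset.map_map, esymm_map_val, charpoly_diag' (b.exteriorPower k)
    (x := fun s => ∏ i ∈ s.1, x i) fun s => ?_, rs_prod]
  · simp only [map_prod]
    exact (sum_subtype _ (by simp) fun s : Finset (Fin n) => ∏ i ∈ s, θ (x i)).symm
  · rw [exteriorPower.basis_apply, exteriorPower.ιMulti_family, exteriorPower.map_apply_ιMulti,
      ← prod_coe_sort, ← (s.1.orderIsoOfFin s.2).toEquiv.prod_comp, ← AlternatingMap.map_smul_univ]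
    exact congrArg _ (funext fun i => h _)

variable [Fintype K] {θ : K →*₀ ℂ} [hp : Fact p.Prime] [CharP K p] {H : Type*} [Group H] [Finite H]

omit hp [CharP K p] [Finite H] in
theorem eig (ρ : H →* End K W) {g : H} (hg : orderOf g ∣ Fintype.card K - 1) :
    ∃ (n : ℕ) (b : Basis (Fin n) K W) (x : Fin n → K), ∀ i, ρ g (b i) = x i • b i :=
  exists_eigbasis (by rw [← Nat.sub_add_cancel (Fintype.card_pos (α := K)), pow_succ, ← map_pow,
    orderOf_dvd_iff_pow_eq_one.1 hg, map_one, one_mul])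

include hp in
theorem gen_det (hθ : Function.Injective θ) (ρ : H →* End K W)
    (hg : ∀ g : H, orderOf g ∣ Fintype.card K - 1) {Γ : Type*} [Group Γ] (π : Γ →* H) {c : Γ → ℂ}
    (hc : IsGeneralizedCharacter Γ c) :
    IsGeneralizedCharacter Γ fun γ => (((ρ (π γ)).charpoly.roots.map θ).map (· - c γ)).prod := by
  let L (k : ℕ) : H →* End K (⋀[K]^k W) := ⟨⟨fun g => exteriorPower.map k (ρ g), by
    rw [map_one]; exact exteriorPower.map_id⟩, fun g h => by
      simp only [map_mul]; exact exteriorPower.map_comp _ _⟩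
  convert isGeneralizedCharacter_sum (range (finrank K W + 1)) _ fun k _ =>
    ((gen_rs (p := p) hθ (L k) fun g _ => hg g).comp π).mul (hc.neg.pow (finrank K W - k)) using 2 with γ
  obtain ⟨n, b, x, h⟩ := eig ρ (hg (π γ))
  have h1 := congrArg (eval (-c γ))
    (Multiset.prod_X_add_C_eq_sum_esymm ((ρ (π γ)).charpoly.roots.map θ))
  rw [eval_multiset_prod, Multiset.map_map, Multiset.card_map, roots_diag b h, Multiset.card_map,
    ← roots_diag b h, card_val, card_univ, ← finrank_eq_card_basis b] at h1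
  simpa [L, rs_ext θ b h, sub_eq_neg_add, eval_finsetSum] using h1

omit hp [CharP K p] [Finite H] in
theorem roots_pow (ρ : H →* End K W) {g : H} (hg : orderOf g ∣ Fintype.card K - 1) (j : ℕ) :
    (ρ (g ^ j)).charpoly.roots.map θ = ((ρ g).charpoly.roots.map θ).map (· ^ j) := by
  obtain ⟨n, b, x, h⟩ := eig ρ hg
  rw [roots_diag b h, roots_diag b (x := fun i => x i ^ j) fun i => by rw [map_pow, pow_eig (h i)]]
  simp only [Multiset.map_map, Function.comp_def, map_pow]

/-- the lifted eigenvalues of a self-dual module -/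
theorem exists_ev {T : Type*} [AddCommGroup T] [Module (ZMod p) T] [Finite T]
    (hH : ¬ p ∣ Nat.card H) (τ : H →* End (ZMod p) T) (hτ : ∀ h, τ h = 1 → h = 1)
    (hr : ∀ h, (τ h⁻¹).charpoly = (τ h).charpoly) : ∃ ev : H → Multiset ℂ,
      (∀ (Γ : Type _) [Group Γ] (π : Γ →* H) (c : Γ → ℂ), IsGeneralizedCharacter Γ c →
        IsGeneralizedCharacter Γ fun γ => ((ev (π γ)).map (· - c γ)).prod) ∧
      (∀ y ∈ ev 1, y = 1) ∧ ∀ h, Nat.card T = p ^ (ev h).card ∧ (∀ y ∈ ev h, y ^ Nat.card H = 1) ∧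
        (ev h).map (·⁻¹) = ev h ∧ (ev h).map (· ^ p) = ev h ∧ (h ≠ 1 → ∃ y ∈ ev h, y ≠ 1) ∧
        Nat.card {t // τ h t = t} ≤ p ^ (ev h).count 1 := by
  classical
  have h0 : (Nat.card H).totient ≠ 0 := (Nat.totient_pos.2 Nat.card_pos).ne'
  let K := GaloisField p (Nat.card H).totient
  have := Fintype.ofFinite K
  have hg : ∀ g : H, orderOf g ∣ Fintype.card K - 1 := fun g => by
    rw [← Nat.card_eq_fintype_card, GaloisField.card _ _ h0]
    exact (orderOf_dvd_natCard g).trans ((Nat.modEq_iff_dvd' (Nat.one_le_pow _ _ hp.out.pos)).1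
      (Nat.ModEq.pow_totient (hp.out.coprime_iff_not_dvd.2 hH)).symm)
  obtain ⟨θ, hθ⟩ := exists_theta K
  let ρ := (End.baseChangeHom (ZMod p) K T).toMonoidHom.comp τ
  have h1 : ∀ h, (ρ h).charpoly = (τ h).charpoly.map (algebraMap _ K) := fun h =>
    LinearMap.charpoly_baseChange _ _
  have h2 : ∀ h, ∀ y ∈ (ρ h).charpoly.roots.map θ, ∀ j, h ^ j = 1 → y ^ j = 1 := fun h y hy j e => by
    have h3 := Multiset.mem_map_of_mem (· ^ j) hy
    rw [← roots_pow ρ (hg h), e, ← pow_zero h, roots_pow ρ (hg h)] at h3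
    obtain ⟨_, -, e⟩ := Multiset.mem_map.1 h3
    rw [← e, pow_zero]
  refine ⟨fun h => (ρ h).charpoly.roots.map θ, fun Γ _ π c hc => gen_det (p := p) hθ ρ hg π hc,
    fun y hy => by simpa using h2 1 y hy 1, fun h => ⟨?_, fun y hy => h2 h y hy _ pow_card_eq_one',
      ?_, ?_, fun hh => ?_, ?_⟩⟩ <;> beta_reduce
  · obtain ⟨n, b, x, e⟩ := eig ρ (hg h)
    rw [roots_diag b e, Multiset.card_map, Multiset.card_map, card_val, card_univ,
      ← finrank_eq_card_basis b, finrank_baseChange, natCard_eq_pow_finrank (K := ZMod p),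
      Nat.card_zmod]
  · have h3 : ∀ {A : Type _} [Group A] (y : A), y ^ Nat.card H = 1 → y ^ (Nat.card H - 1) = y⁻¹ :=
      fun y e => by rw [eq_inv_iff_mul_eq_one, ← pow_succ, Nat.sub_add_cancel Nat.card_pos, e]
    conv_rhs => rw [h1, ← hr, ← h1, ← h3 h pow_card_eq_one', roots_pow ρ (hg h)]
    refine Multiset.map_congr rfl fun y hy => inv_eq_of_mul_eq_one_left ?_
    rw [← pow_succ, Nat.sub_add_cancel Nat.card_pos, h2 h y hy _ pow_card_eq_one']
  · let b := finBasis (ZMod p) T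
    rw [← roots_pow ρ (hg h), h1, h1, map_pow, ← LinearMap.charpoly_toMatrix _ b,
      ← LinearMap.charpoly_toMatrix _ b, ← LinearMap.toMatrix_pow, ZMod.charpoly_pow_card]
  · obtain ⟨n, b, x, e⟩ := eig ρ (hg h)
    by_contra! h3
    refine hh (hτ h (LinearMap.baseChangeHom_injective (ZMod p) T K
      (show ρ h = LinearMap.baseChange K 1 from b.ext fun i => ?_)))
    rw [e, hθ ((h3 (θ (x i)) (by rw [roots_diag b e]; simp)).trans θ.map_one.symm), one_smul,
      LinearMap.baseChange_one, End.one_apply]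
  · rw [← θ.map_one, Multiset.count_map_eq_count' _ _ hθ, count_roots, h1, ← (algebraMap (ZMod p) K).map_one,
      ← eq_rootMultiplicity_map (algebraMap (ZMod p) K).injective]
    refine le_trans ?_ (Nat.pow_le_pow_right hp.out.pos ((τ h).finrank_eigenspace_le 1))
    have h3 := natCard_eq_pow_finrank (K := ZMod p) (V := (τ h).eigenspace 1)
    rw [Nat.card_zmod] at h3
    exact ((Nat.card_congr (Equiv.subtypeEquivRight fun t => by simp)).trans h3).le

variable {M : Ideal AlgInt}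

omit [Finite H] in
theorem gen_prod {ι : Type*} (s : Finset ι) {f : ι → H → ℂ}
    (h : ∀ i, IsGeneralizedCharacter H (f i)) : IsGeneralizedCharacter H fun x => ∏ i ∈ s, f i x := by
  convert prod_induction f _ (fun _ _ a b => a.mul b) isGeneralizedCharacter_one
    fun i (_ : i ∈ s) => h i using 2
  rw [Finset.prod_apply]

/-- a square root of Knörr's character -/
theorem exists_psi {T : Type*} [AddCommGroup T] [Module (ZMod p) T] [Finite T]
    (hM : IsPModular p M) (hH : ¬ p ∣ Nat.card H) (τ : H →* End (ZMod p) T)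
    (hτ : ∀ h, τ h = 1 → h = 1) (hr : ∀ h, (τ h⁻¹).charpoly = (τ h).charpoly) :
    ∃ Ψ, IsGeneralizedCharacter (rootsOfUnity (p ^ 2 * Nat.card H) ℂ × H) Ψ ∧
      ∀ z, orderOf z = p ^ 2 * Nat.card H → red M (Ψ (z, 1)) ≠ 0 ∧ ∀ h,
        ‖Ψ (z, h)‖ ^ 2 * Nat.card {t // τ h t = t} ≤ Nat.card T ∧ (h ≠ 1 → red M (Ψ (z, h)) = 0) := by
  classical
  obtain ⟨ev, h1, h2, h3⟩ := exists_ev hH τ hτ hr
  have hp2 : 0 < p ^ 2 := pow_pos hp.out.pos 2
  haveI : NeZero (p ^ 2 * Nat.card H) := ⟨(mul_pos hp2 Nat.card_pos).ne'⟩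
  have h4 := fun a : ℕ => h1 _ (MonoidHom.snd (rootsOfUnity (p ^ 2 * Nat.card H) ℂ) H) _
    (((H6.char_hom (Subgroup.subtype _)).comp (MonoidHom.fst _ H)).isGeneralizedCharacter.pow a)
  have h9 := fun j => gen_prod (range (Nat.card H) \ {0}) fun l => h4 (p ^ 2 * l + Nat.card H * j)
  have h5 := gen_prod (J p) h9
  refine ⟨_, h5, fun z hz => ?_⟩
  have hz' : IsPrimitiveRoot (z.1 : ℂ) (p ^ 2 * Nat.card H) := by
    rw [IsPrimitiveRoot.coe_units_iff, IsPrimitiveRoot.coe_submonoidClass_iff]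
    exact IsPrimitiveRoot.iff_orderOf.2 hz
  have hμ := hz'.pow (NeZero.pos _) rfl
  have hω := hz'.pow (NeZero.pos _) (mul_comm _ _)
  have hc : (Nat.card H).Coprime (p ^ 2) := (hp.out.coprime_iff_not_dvd.2 hH).symm.pow_right 2
  have h6 : ∀ h, ‖(∏ j ∈ J p, ∏ l ∈ range (Nat.card H) \ {0}, ((ev h).map
      (· - (z.1 : ℂ) ^ (p ^ 2 * l + Nat.card H * j))).prod)‖ ^ 2 * p ^ (ev h).count 1 =
        p ^ (ev h).card := fun h => by
    obtain ⟨-, a, b, c, -⟩ := h3 h
    have := prod_J hp.out (hω.pow_of_coprime _ hc) (s := Multiset.replicate (ev h).card 1)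
      (by simp +contextual [Multiset.mem_replicate]) (by simp) (by simp)
      (by simp +contextual [Multiset.mem_replicate])
    rw [Multiset.count_replicate_self] at this
    rw [← this, ← prod_J hp.out hω (fun y hy => Complex.norm_eq_one_of_pow_eq_one (a y hy)
      Nat.card_pos.ne') b c fun y hy e => by
        simpa [(hp.out.coprime_iff_not_dvd.2 hH).gcd_eq_one] using pow_gcd_eq_one.2 ⟨e, a y hy⟩,
      norm_prod, ← prod_pow, ← prod_mul_distrib]
    refine prod_congr rfl fun j _ => ?_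
    rw [← mul_pow, ← norm_mul, ← Multiset.prod_map_prod, ← Multiset.prod_map_mul,
      ← Multiset.map_const', Multiset.map_map]
    refine congrArg (fun t : Multiset ℂ => ‖t.prod‖ ^ 2) (Multiset.map_congr rfl fun y hy => ?_)
    have := congrArg (eval y) (X_pow_sub_C_eq_prod hμ Nat.card_pos
      (α := ((z.1 : ℂ) ^ Nat.card H) ^ j) rfl)
    rw [prod_eq_prod_sdiff_singleton_mul (mem_range.2 Nat.card_pos)] at this
    simpa [eval_prod, a y hy, pow_add, pow_mul, pow_right_comm _ j] using this.symm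
  have hV := fun γ => mem_V_of_isIntegral (M := M) (h5.isIntegral_apply γ)
  refine ⟨fun e => ?_, fun h => ⟨?_, fun hh => ?_⟩⟩
  · have h7 := h6 1
    rw [Multiset.count_eq_card.2 fun y hy => (h2 y hy).symm, mul_eq_right₀ (by simp [hp.out.ne_zero]),
      ← Complex.ofReal_inj, Complex.ofReal_pow, ← Complex.mul_conj'] at h7
    have h8 := red_mul (hV (z, 1)) (hV (z, 1)⁻¹)
    rw [h5.apply_inv, e, zero_mul] at h8
    exact one_ne_zero (red_one.symm.trans ((congrArg _ h7.symm).trans h8))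
  · obtain ⟨a, -, -, -, -, b⟩ := h3 h
    rw [a, Nat.cast_pow, ← h6]
    exact mul_le_mul_of_nonneg_left (by exact_mod_cast b) (sq_nonneg _)
  · obtain ⟨-, a, -, -, b, -⟩ := h3 h
    obtain ⟨y, hy, b⟩ := b hh
    obtain ⟨l, hl, rfl⟩ := hμ.eq_pow_of_pow_eq_one (a y hy)
    have hV' : ∀ {y : ℂ} {n : ℕ}, n ≠ 0 → y ^ n = 1 → y ∈ V M := fun hn e =>
      mem_V_of_isIntegral M (IsIntegral.of_pow (Nat.pos_of_ne_zero hn) (e ▸ isIntegral_one))
    have hz0 := hV' (NeZero.ne _) hz'.pow_eq_one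
    rw [red_prod _ _ fun j _ => mem_V_of_isIntegral M ((h9 j).isIntegral_apply _)]
    refine prod_eq_zero (i := 1) (mem_filter.2 ⟨mem_range.2 (by nlinarith [hp.out.two_le]),
      hp.out.not_dvd_one, by nlinarith [hp.out.two_le]⟩) ?_
    rw [red_prod _ _ fun l _ => mem_V_of_isIntegral M ((h4 _).isIntegral_apply _)]
    refine prod_eq_zero (i := l) (mem_sdiff.2 ⟨mem_range.2 hl, fun e => b (by
      rw [mem_singleton.1 e, pow_zero])⟩) ?_
    have h7 : ∀ y ∈ ev h, y - (z.1 : ℂ) ^ (p ^ 2 * l + Nat.card H * 1) ∈ V M := fun y hy =>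
      sub_mem (hV' Nat.card_pos.ne' (a y hy)) (pow_mem hz0 _)
    refine (congrArg _ (Multiset.prod_map_erase hy).symm).trans ((red_mul (h7 _ hy)
      (multiset_prod_mem _ fun y hy => ?_)).trans (mul_eq_zero_of_left ?_ _))
    · obtain ⟨w, hw, rfl⟩ := Multiset.mem_map.1 hy
      exact h7 w (Multiset.mem_of_mem_erase hw)
    · rw [red_sub (pow_mem (pow_mem hz0 _) _) (pow_mem hz0 _), pow_add, mul_one, red_mul
        (pow_mem hz0 _) (pow_mem hz0 _), red_eq_one_of_pow_eq_one hM hω.pow_eq_one, mul_one, pow_mul,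
        sub_self]

omit hp in
theorem gen_inner [Fintype H] {L : Type*} [Group L] [Finite L] (hL : ∀ a b : L, a * b = b * a) {Θ : L × H → ℂ}
    (h : IsGeneralizedCharacter (L × H) Θ) (φ : IrrCharacter H) :
    IsGeneralizedCharacter L fun l => classInner (fun x => Θ (l, x)) φ.1 := by
  have := Fintype.ofFinite L
  refine H5.Cfsg.IsClassFunction.isGeneralizedCharacter_of_classInner
    (fun g x => by rw [hL x, mul_inv_cancel_right]) fun χ hχ => ?_
  obtain ⟨n, hn⟩ := h.exists_classInner_int (hχ.prod φ.2).isGeneralizedCharacter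
  refine ⟨n, hn ▸ ?_⟩
  simp only [classInner_def, Nat.card_prod, Fintype.sum_prod_type, mul_sum, sum_mul, map_mul]
  exact sum_congr rfl fun _ _ => sum_congr rfl fun _ _ => by push_cast; ring

theorem real_charpoly {T : Type*} [AddCommGroup T] [Module (ZMod p) T] [Finite T]
    (τ : H →* End (ZMod p) T) (β : T →+ T →+ ZMod p) (h1 : ∀ h a b, β (τ h a) (τ h b) = β a b)
    (h2 : ∀ a, β a = 0 → a = 0) (h : H) : (τ h⁻¹).charpoly = (τ h).charpoly := by
  let B : T →ₗ[ZMod p] Dual (ZMod p) T := AddMonoidHom.toZModLinearMap p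
    ((AddMonoidHom.toZModLinearMapEquiv p).toAddMonoidHom.comp β)
  let e := LinearEquiv.ofInjectiveOfFinrankEq B ((injective_iff_map_eq_zero _).2 fun a e =>
    h2 a (AddMonoidHom.ext (LinearMap.congr_fun e))) Subspace.dual_finrank_eq.symm
  let b := finBasis (ZMod p) T
  rw [← e.charpoly_conj, ← LinearMap.charpoly_toMatrix (τ h) b, ← Matrix.charpoly_transpose,
    ← LinearMap.toMatrix_transpose, LinearMap.charpoly_toMatrix]
  refine congrArg _ (LinearMap.ext fun f => LinearMap.ext fun t => ?_)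
  obtain ⟨a, rfl⟩ := e.surjective f
  rw [LinearEquiv.conj_apply_apply, e.symm_apply_apply]
  exact (h1 h _ t).symm.trans (by rw [← End.mul_apply, ← map_mul, mul_inv_cancel, map_one]; rfl)

/-- a representation from additive maps -/
def toLin (p : ℕ) {H T : Type*} [Group H] [AddCommGroup T] [Module (ZMod p) T] (τ : H → T →+ T)
    (h1 : ∀ v, τ 1 v = v) (hm : ∀ g h v, τ (g * h) v = τ g (τ h v)) : H →* End (ZMod p) T where
  toFun g := (τ g).toZModLinearMap p
  map_one' := LinearMap.ext h1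
  map_mul' g h := LinearMap.ext (hm g h)

theorem exists_psi' {U : Type*} [CommGroup U] [Finite U] (hU : ∀ u : U, u ^ p = 1)
    (hM : IsPModular p M) (hH : ¬ p ∣ Nat.card H) (φ : H →* MulAut U)
    (hφ : ∀ h, (∀ u, φ h u = u) → h = 1) (β : U → U → ZMod p)
    (h1 : ∀ a b c, β (a * b) c = β a c + β b c) (h2 : ∀ a b c, β a (b * c) = β a b + β a c)
    (h3 : ∀ h a b, β (φ h a) (φ h b) = β a b) (h4 : ∀ a, (∀ b, β a b = 0) → a = 1) :
    ∃ Ψ, IsGeneralizedCharacter (rootsOfUnity (p ^ 2 * Nat.card H) ℂ × H) Ψ ∧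
      ∀ z, orderOf z = p ^ 2 * Nat.card H → red M (Ψ (z, 1)) ≠ 0 ∧ ∀ h,
        ‖Ψ (z, h)‖ ^ 2 * Nat.card {t // φ h t = t} ≤ Nat.card U ∧ (h ≠ 1 → red M (Ψ (z, h)) = 0) := by
  let _ : Module (ZMod p) (Additive U) := AddCommGroup.zmodModule fun u => by
    rw [← ofMul_toMul u, ← ofMul_pow, hU, ofMul_one]
  exact exists_psi hM hH (toLin p (fun h => MonoidHom.toAdditive (φ h).toMonoidHom) (by simp) (by simp))
    (fun h e => hφ h (LinearMap.congr_fun e)) (real_charpoly _
    (AddMonoidHom.mk' (fun a => AddMonoidHom.mk' (β a.toMul ·.toMul) (h2 _)) fun a b =>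
      AddMonoidHom.ext (h1 _ _)) h3 fun a e => h4 a (DFunLike.congr_fun e))

theorem real_vector {X : Type*} [Group X] [Finite X] {V G U : Subgroup X} [V.Normal]
    (hVexp : ∀ v ∈ V, v ^ p = 1) (hidx : ¬ p ∣ V.index) (hV : ∀ a ∈ V, ∀ b ∈ V, a * b = b * a)
    (hGV : Subgroup.IsComplement' V G) {v : X} (hv : v ∈ V) (hUV : U ≤ V)
    (hM : IsPModular p M) {Z : Type*} [CommGroup Z] [Finite Z] (z₀ : Z)
    {Ψ : Z × (G ⊓ Subgroup.centralizer {v} : Subgroup X) → ℂ} (h1 : IsGeneralizedCharacter _ Ψ)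
    (h2 : ∀ z, orderOf z = orderOf z₀ → red M (Ψ (z, 1)) ≠ 0 ∧ ∀ h, ‖Ψ (z, h)‖ ^ 2 *
      Nat.card ((Subgroup.centralizer {h.1}).subgroupOf U) ≤ Nat.card U ∧
        (h ≠ 1 → red M (Ψ (z, h)) = 0)) : Nat.card (ConjClasses X) ≤ Nat.card V := by
  classical
  haveI := charP_kk hM
  generalize hH : G ⊓ Subgroup.centralizer {v} = H at Ψ h1 h2
  have := Fintype.ofFinite H
  have := Fintype.ofFinite (Z × Subgroup.zpowers v)
  have hHp : ¬ p ∣ Nat.card H := fun h => hidx (h.trans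
    (hGV.symm.index_eq_card ▸ Subgroup.card_dvd_of_le (hH ▸ inf_le_left)))
  have hc : ∀ (y : Subgroup.zpowers v) (h : H), Commute y.1 h.1 := fun ⟨_, k, rfl⟩ h =>
    (Commute.zpow_right (Subgroup.mem_centralizer_singleton_iff.1 (hH.ge h.2).2) k).symm
  let f := ((Subgroup.subtype _).noncommCoprod H.subtype hc).comp
    ((MonoidHom.snd Z _).prodMap (MonoidHom.id H))
  have hΘ := fun χ : IrrCharacter X => (h1.comp ((MonoidHom.fst Z (Subgroup.zpowers v)).prodMap
    (MonoidHom.id H))).mul (χ.2.isGeneralizedCharacter.comp f)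
  let l₀ : Z × Subgroup.zpowers v := (z₀, ⟨v, Subgroup.mem_zpowers v⟩)
  let S := univ.filter fun l => Subgroup.zpowers l = Subgroup.zpowers l₀
  have hS : ∀ l ∈ S, orderOf l.1 = orderOf z₀ ∧ v ∈ Subgroup.zpowers l.2.1 := fun l hl => by
    have h := (mem_filter.1 hl).2
    refine ⟨?_, Subgroup.zpowers_le.1 (by simpa using (congrArg (Subgroup.map
      ((Subgroup.subtype _).comp (MonoidHom.snd Z _))) h).ge)⟩
    rw [← Nat.card_zpowers, ← Nat.card_zpowers]
    simpa using congrArg (fun K => Nat.card (Subgroup.map (MonoidHom.fst Z _) K)) h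
  have hp1 : ∀ y : Subgroup.zpowers v, y.1 ^ p = 1 := fun y => hVexp _ (Subgroup.zpowers_le.2 hv y.2)
  have h3 : ∀ (χ : IrrCharacter X) (φ : IrrCharacter H), (S.card : ℝ) ≤
      ∑ l ∈ S, ‖classInner (fun h => Ψ (l.1, h) * χ.1 (l.2 * h)) φ.1‖ ^ 2 := fun χ φ => by
    refine (gen_inner (fun a b => Prod.ext (mul_comm _ _) (mul_comm' _ _)) (hΘ χ) φ).card_le_sum_norm_sq
      S (fun k hk l hl => mem_filter.2 ⟨mem_univ _, (le_antisymm (Subgroup.zpowers_le.2
        (Subgroup.npow_mem_zpowers _ k)) (Subgroup.zpowers_le.2 (mem_zpowers_pow_iff.2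
          (hk.coprime_dvd_right (orderOf_dvd_natCard l))))).trans (mem_filter.1 hl).2⟩) fun l hl e => ?_
    have hV1 := fun γ => mem_V_of_isIntegral M (h1.isIntegral_apply γ)
    have hV2 : ∀ h, conj (φ.1 h) ∈ H8.V M := fun h => φ.2.apply_inv h ▸ irr_apply_mem_V φ _
    have h4 := congrArg (red M) ((mul_eq_zero.1 e).resolve_left (inv_ne_zero (card_ne_zero_complex H)))
    change red M (∑ h : H, Ψ (l.1, h) * χ.1 (l.2 * h) * conj (φ.1 h)) = _ at h4
    rw [red_sum _ _ fun h _ => mul_mem (mul_mem (hV1 _) (irr_apply_mem_V _ _)) (hV2 _), red_zero,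
      sum_congr rfl fun h _ => (red_mul (mul_mem (hV1 _) (irr_apply_mem_V _ _)) (hV2 _)).trans
        (congrArg (· * _) (red_mul (hV1 _) (irr_apply_mem_V _ _))), sum_eq_single 1
        (fun h _ hh => by rw [((h2 _ (hS l hl).1).2 h).2 hh, zero_mul, zero_mul]) (by simp),
      OneMemClass.coe_one, mul_one, red_char_of_isPElt hM χ.2.isCharacter 
        (isPElt_iff.2 ⟨1, by rw [pow_one, hp1]⟩),
      irr_apply_one, irr_apply_one, map_natCast, red_natCast, red_natCast] at h4
    refine mul_ne_zero (mul_ne_zero (h2 _ (hS l hl).1).1 ?_) ?_ h4 <;> rw [Ne, CharP.cast_eq_zero_iff _ p]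
    · exact fun h => hidx (h.trans (H6.ito χ.2 hV (irr_apply_one χ)))
    · exact fun h => hHp (h.trans (φ.2.dvd_card (irr_apply_one φ)))
  have h5 : ∀ l ∈ S, ∀ h : H, ‖Ψ (l.1, h)‖ ^ 2 * Nat.card (Subgroup.centralizer {l.2.1 * h}) ≤
      Nat.card V * Nat.card (Subgroup.centralizer {h}) := fun l hl h => by
    have h6 := ((h2 _ (hS l hl).1).2 h).1
    rw [← ((Subgroup.centralizer {h.1}).subgroupOf U).index_mul_card, Nat.cast_mul,
      mul_le_mul_iff_left₀ (by exact_mod_cast Nat.card_pos)] at h6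
    rw [← ((Subgroup.centralizer {h.1}).subgroupOf V).index_mul_card, Nat.cast_mul, mul_assoc,
      ← Nat.cast_mul, ← Nat.card_prod]
    refine mul_le_mul (h6.trans (Nat.cast_le.2 (Subgroup.relIndex_le_of_le_right hUV
      Subgroup.index_ne_zero_of_finite))) (Nat.cast_le.2 (le_trans (Nat.card_mono (Set.toFinite _)
        fun x hx => ?_) (Finite.card_range_le fun a => (a.1 * a.2 : X)))) (by positivity) (by positivity)
    rw [H24.cent_mul_of_coprime (hc _ h) ((((Nat.coprime_comm.1 (hp.out.coprime_iff_not_dvd.2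
      hHp)).coprime_dvd_left (Subgroup.orderOf_dvd_natCard H h.2)).coprime_dvd_right
        (orderOf_dvd_of_pow_eq_one (hp1 _))).symm)] at hx
    obtain ⟨⟨w, g⟩, rfl⟩ := hGV.2 x
    have h7 := Prod.ext_iff.1 (hGV.1 (a₁ := (⟨_, Subgroup.Normal.conj_mem inferInstance _ w.2 h⟩,
      ⟨_, G.mul_mem (G.mul_mem (hH.ge h.2).1 g.2) (G.inv_mem (hH.ge h.2).1)⟩)) (a₂ := (w, g)) (by
        simpa [mul_assoc] using mul_inv_eq_iff_eq_mul.2
          (Subgroup.mem_centralizer_singleton_iff.1 hx.2).symm))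
    obtain ⟨k, hk⟩ := (hS l hl).2
    have h8 : Commute (w * g : X) v := hk ▸ Commute.zpow_right
      (Subgroup.mem_centralizer_singleton_iff.1 hx.1) k
    exact ⟨(⟨w, Subgroup.mem_centralizer_singleton_iff.2 (mul_inv_eq_iff_eq_mul.1
      (congrArg Subtype.val h7.1)).symm⟩, ⟨⟨g, hH.le ⟨g.2, Subgroup.mem_centralizer_singleton_iff.2
        (mul_left_cancel (a := w.1) (by rw [← mul_assoc, h8.eq, ← mul_assoc, ← mul_assoc,
          hV _ w.2 v hv]))⟩⟩, Subgroup.mem_centralizer_singleton_iff.2 (Subtype.ext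
            (mul_inv_eq_iff_eq_mul.1 (congrArg Subtype.val h7.2)).symm)⟩), rfl⟩
  have h0 : (0 : ℝ) < Nat.card (ConjClasses H) * S.card := mul_pos (by exact_mod_cast Nat.card_pos)
    (Nat.cast_pos.2 (card_pos.2 ⟨l₀, by simp [S]⟩))
  rw [← Nat.cast_le (α := ℝ), ← mul_le_mul_iff_left₀ h0]
  calc _ = ∑ χ : IrrCharacter X, ∑ φ : IrrCharacter H, (S.card : ℝ) := by
        rw [← card_irr, ← card_irr]; simp [mul_assoc]
    _ ≤ _ := sum_le_sum fun χ _ => sum_le_sum fun φ _ => h3 χ φ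
    _ = ∑ l ∈ S, (Nat.card H : ℝ)⁻¹ * ∑ h : H, ‖Ψ (l.1, h)‖ ^ 2 *
          Nat.card (Subgroup.centralizer {l.2.1 * h}) := by
        simp only [sum_comm (t := S)]
        refine sum_congr rfl fun l _ => ?_
        simp only [← sum_irr_norm_sq, mul_sum]
        rw [sum_comm (s := (univ : Finset H))]
        refine sum_congr rfl fun χ _ => ?_
        have hf : IsClassFunction H fun h => Ψ (l.1, h) * χ.1 (l.2 * h) := fun g x => by
          have := (hΘ χ).isClassFunction (l, g) (1, x)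
          rwa [show ((1, x) * (l, g) * (1, x)⁻¹ : (Z × _) × H) = (l, x * g * x⁻¹) by simp] at this
        have := (classInner_self_re _).symm.trans (congrArg Complex.re hf.classInner_self_eq_sum_normSq)
        rw [Complex.ofReal_re] at this
        simpa [Complex.normSq_eq_norm_sq, mul_sum, mul_pow] using this.symm
    _ ≤ ∑ l ∈ S, (Nat.card H : ℝ)⁻¹ * ∑ h : H, (Nat.card V * Nat.card (Subgroup.centralizer {h}) : ℝ) :=
        sum_le_sum fun l hl => mul_le_mul_of_nonneg_left (sum_le_sum fun h _ => h5 l hl h)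
          (by positivity)
    _ = _ := by
        rw [← mul_sum univ, ← Nat.cast_sum, H6.sum_card_centralizer, sum_const, nsmul_eq_mul]
        have := (card_pos_real H).ne'
        push_cast
        field_simp

end H7.RV
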