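import Cfsg.Agent.H2.Hall

set_option autoImplicit false
set_option linter.style.longLine false
set_option linter.unusedSectionVars false

namespace H7.Spec
open Nat

theorem two_primes_big (n : ℕ) (hn : 512 ≤ n) : ∃ p q, p.Prime ∧ q.Prime ∧ p ≠ q ∧ n < p ∧ p ≤ 2 * n ∧ n < q ∧ q ≤ 2 * n := by
  obtain ⟨p0, hp0, h1, h2⟩ := Nat.exists_prime_lt_and_le_two_mul n (by omega)
  by_contra hc
  have hno : ∀ q, q.Prime → n < q → q ≤ 2 * n → q = p0 := by
    intro q hq h3 h4
    by_contra hne
    exact hc ⟨q, p0, hq, hp0, hne, h3, h4, h1, h2⟩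
  have h4 : 4 ^ n < n * n.centralBinom := Nat.four_pow_lt_mul_centralBinom n (by omega)
  have n_pos : 0 < n := by omega
  have n2_pos : 1 ≤ 2 * n := by omega
  let f x := x ^ n.centralBinom.factorization x
  let S := (Finset.range (2 * n / 3 + 1)).filter Nat.Prime
  have hp0S : p0 ∉ S := by simp only [S, Finset.mem_filter, Finset.mem_range]; omega
  have e1 : n.centralBinom = f p0 * ∏ x ∈ S, f x := by
    rw [← Finset.prod_insert hp0S]
    refine (Eq.trans ?_ n.prod_pow_factorization_centralBinom).symm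
    apply Finset.prod_subset
    · intro x hx
      simp only [S, Finset.mem_insert, Finset.mem_filter, Finset.mem_range] at hx ⊢
      omega
    intro x hx h2x
    simp only [S, Finset.mem_insert, Finset.mem_filter, Finset.mem_range, not_or, not_and] at hx h2x
    dsimp only [f]
    by_cases hxp : x.Prime
    · have h5 : ¬ x < 2 * n / 3 + 1 := fun h => h2x.2 h hxp
      have h6 : x ≤ n := by
        by_contra h; exact h2x.1 (hno x hxp (by omega) (by omega))
      rw [factorization_centralBinom_of_two_mul_self_lt_three_mul (by omega) h6 (by omega), Nat.pow_zero]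
    · rw [factorization_eq_zero_of_not_prime n.centralBinom hxp, Nat.pow_zero]
  have hs : 1 ≤ sqrt (2 * n) := Nat.le_sqrt.2 (by omega)
  have e2 : ∏ x ∈ S, f x ≤ (2 * n) ^ (sqrt (2 * n) - 1) * 4 ^ (2 * n / 3) := by
    rw [← Finset.prod_filter_mul_prod_filter_not S (· ≤ sqrt (2 * n))]
    apply mul_le_mul'
    · refine (Finset.prod_le_prod' fun p _ => (?_ : f p ≤ 2 * n)).trans ?_
      · exact pow_factorization_choose_le (mul_pos two_pos n_pos)
      have : (Finset.Icc 2 (sqrt (2 * n))).card = sqrt (2 * n) - 1 := by rw [card_Icc]; omega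
      rw [Finset.prod_const]
      refine pow_right_mono₀ n2_pos ((Finset.card_le_card fun x hx => ?_).trans this.le)
      obtain ⟨h1, h2⟩ := Finset.mem_filter.1 hx
      exact Finset.mem_Icc.mpr ⟨(Finset.mem_filter.1 h1).2.two_le, h2⟩
    · refine le_trans ?_ (primorial_le_four_pow (2 * n / 3))
      refine (Finset.prod_le_prod' fun p hp => (?_ : f p ≤ p)).trans ?_
      · obtain ⟨h1, h2⟩ := Finset.mem_filter.1 hp
        refine (pow_right_mono₀ (Finset.mem_filter.1 h1).2.one_lt.le ?_).trans (pow_one p).le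
        exact Nat.factorization_choose_le_one (sqrt_lt'.mp <| not_le.1 h2)
      refine Finset.prod_le_prod_of_subset_of_one_le' (Finset.filter_subset _ _) ?_
      exact fun p hp _ => (Finset.mem_filter.1 hp).2.one_lt.le
  have e3 : f p0 ≤ 2 * n := pow_factorization_choose_le (mul_pos two_pos n_pos)
  have e4 : n.centralBinom ≤ (2 * n) ^ sqrt (2 * n) * 4 ^ (2 * n / 3) := by
    rw [e1]
    refine (Nat.mul_le_mul e3 e2).trans (le_of_eq ?_)
    rw [← mul_assoc, ← _root_.pow_succ', Nat.sub_add_cancel hs]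
  have e5 := bertrand_main_inequality hn
  rw [mul_assoc] at e5
  have := Nat.mul_le_mul_left n e4
  omega

theorem two_primes (n : ℕ) (hn : 11 ≤ n) : ∃ p q, p.Prime ∧ q.Prime ∧ p ≠ q ∧ n < 2 * p ∧ p ≤ n ∧ n < 2 * q ∧ q ≤ n := by
  by_cases h : 1200 ≤ n
  · obtain ⟨p, q, h1, h2, h3, h4⟩ := two_primes_big (n / 2) (by omega)
    exact ⟨p, q, h1, h2, h3, by omega, by omega, by omega, by omega⟩
  have key : ∀ p q, p.Prime → q.Prime → p < q → q ≤ n → n < 2 * p →
      ∃ p q, p.Prime ∧ q.Prime ∧ p ≠ q ∧ n < 2 * p ∧ p ≤ n ∧ n < 2 * q ∧ q ≤ n :=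
    fun p q h1 h2 h3 h4 h5 => ⟨p, q, h1, h2, by omega, by omega, by omega, by omega, by omega⟩
  by_cases h1 : n ≤ 13
  · exact key 7 11 (by norm_num) (by norm_num) (by omega) (by omega) (by omega)
  by_cases h1 : n ≤ 21
  · exact key 11 13 (by norm_num) (by norm_num) (by omega) (by omega) (by omega)
  by_cases h1 : n ≤ 33
  · exact key 17 19 (by norm_num) (by norm_num) (by omega) (by omega) (by omega)
  by_cases h1 : n ≤ 57
  · exact key 29 31 (by norm_num) (by norm_num) (by omega) (by omega) (by omega)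
  by_cases h1 : n ≤ 93
  · exact key 47 53 (by norm_num) (by norm_num) (by omega) (by omega) (by omega)
  by_cases h1 : n ≤ 165
  · exact key 83 89 (by norm_num) (by norm_num) (by omega) (by omega) (by omega)
  by_cases h1 : n ≤ 313
  · exact key 157 163 (by norm_num) (by norm_num) (by omega) (by omega) (by omega)
  by_cases h1 : n ≤ 613
  · exact key 307 311 (by norm_num) (by norm_num) (by omega) (by omega) (by omega)
  exact key 601 607 (by norm_num) (by norm_num) (by omega) (by omega) (by omega)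

theorem no_pq {n p q : ℕ} (hp : p.Prime) (hq : q.Prime) (hpq : p ≠ q) (h : n < p + q) (σ : Equiv.Perm (Fin n)) :
    orderOf σ ≠ p * q := by
  intro ho
  have hl : p * q ∣ σ.cycleType.prod := by
    rw [← ho, ← Equiv.Perm.lcm_cycleType, Multiset.lcm_dvd]
    exact fun b hb => Multiset.dvd_prod hb
  obtain ⟨a, ha, hpa⟩ := hp.prime.exists_mem_multiset_dvd ((Dvd.intro _ rfl).trans hl)
  obtain ⟨b, hb, hqb⟩ := hq.prime.exists_mem_multiset_dvd ((Dvd.intro_left _ rfl).trans hl)
  have hs : σ.cycleType.sum ≤ n := by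
    rw [Equiv.Perm.sum_cycleType]; simpa using σ.support.card_le_univ
  have ha0 := Equiv.Perm.two_le_of_mem_cycleType ha
  have hb0 := Equiv.Perm.two_le_of_mem_cycleType hb
  by_cases hab : a = b
  · subst hab
    have h1 := Nat.le_of_dvd (by omega) (((Nat.coprime_primes hp hq).2 hpq).mul_dvd_of_dvd_of_dvd hpa hqb)
    have h2 := Multiset.single_le_sum (fun _ _ => Nat.zero_le _) a ha
    have h3 := Nat.add_le_mul hp.two_le hq.two_le
    omega
  · have h1 := Nat.le_of_dvd (by omega) hpa
    have h2 := Nat.le_of_dvd (by omega) hqb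
    obtain ⟨t, ht⟩ := Multiset.exists_cons_of_mem ha
    have hb' : b ∈ t := by rw [ht] at hb; exact (Multiset.mem_cons.1 hb).resolve_left (Ne.symm hab)
    have h3 := Multiset.single_le_sum (fun _ _ => Nat.zero_le _) b hb'
    rw [ht, Multiset.sum_cons] at hs
    omega

theorem exists_pq {G : Type*} [Group G] [Finite G] (N : Subgroup G) [N.Normal] {p q : ℕ} (hp : p.Prime) (hq : q.Prime)
    (h2 : ¬ p ^ 2 ∣ Nat.card G) (hpN : p ∣ Nat.card N) (hqN : ¬ q ∣ Nat.card N) (hqG : q ∣ Nat.card G) (hqp : ¬ q ∣ p - 1) :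
    ∃ g : G, orderOf g = p * q := by
  haveI := Fact.mk hp
  haveI := Fact.mk hq
  obtain ⟨x, hx⟩ := exists_prime_orderOf_dvd_card' p hpN
  have hx' : orderOf (x : G) = p := by rw [Subgroup.orderOf_coe, hx]
  have hf : (Nat.card G).factorization p = 1 := by
    have h1 := (hp.pow_dvd_iff_le_factorization (Nat.card_pos (α := G)).ne').not.1 h2
    have h3 := (hp.dvd_iff_one_le_factorization (Nat.card_pos (α := G)).ne').1 (hpN.trans N.card_subgroup_dvd_card)
    omega
  let P : Sylow p G := Sylow.ofCard (Subgroup.zpowers (x : G)) (by rw [Nat.card_zpowers, hx', hf, pow_one])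
  have hP : (P : Subgroup G) = Subgroup.zpowers (x : G) := rfl
  have h1 := Sylow.normalizer_sup_eq_top' P (N := N) (by rw [hP, Subgroup.zpowers_le]; exact x.2)
  have h3 : q ∣ Nat.card (Subgroup.normalizer (Subgroup.zpowers (x : G) : Set G)) := by
    have := H1.card_sup_dvd (H := Subgroup.normalizer (P : Set G)) (N := N) (by rw [Subgroup.normalizer_eq_top]; exact le_top)
    rw [h1, Subgroup.card_top] at this
    exact (hq.dvd_mul.1 (hqG.trans this)).resolve_right hqN
  obtain ⟨y, hy⟩ := exists_prime_orderOf_dvd_card' q h3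
  have h4 : (Subgroup.zpowers (x : G)).normalizerMonoidHom y = 1 := by
    rw [← orderOf_eq_one_iff]
    have a := orderOf_map_dvd (Subgroup.zpowers (x : G)).normalizerMonoidHom y
    have b := orderOf_dvd_natCard ((Subgroup.zpowers (x : G)).normalizerMonoidHom y)
    rw [IsCyclic.card_mulAut, Nat.card_zpowers, hx', Nat.totient_prime hp] at b
    rw [hy] at a
    rcases (Nat.dvd_prime hq).1 a with h | h
    · exact h
    · exact absurd (h ▸ b) hqp
  rw [← MonoidHom.mem_ker, Subgroup.normalizerMonoidHom_ker, Subgroup.mem_subgroupOf, Subgroup.mem_centralizer_iff] at h4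
  have h5 : Commute (x : G) (y : G) := h4 x (Subgroup.mem_zpowers _)
  have hy' : orderOf (y : G) = q := by rw [Subgroup.orderOf_coe, hy]
  refine ⟨x * y, ?_⟩
  rw [h5.orderOf_mul_eq_mul_orderOf_of_coprime, hx', hy']
  rw [hx', hy', Nat.coprime_primes hp hq]
  rintro rfl
  exact hqN hpN

theorem not_sq {n p : ℕ} (hp : p.Prime) (h : n < 2 * p) : ¬ p ^ 2 ∣ Nat.card (alternatingGroup (Fin n)) := by
  intro hd
  have := hd.trans (alternatingGroup (Fin n)).card_subgroup_dvd_card
  rw [Nat.card_perm, Nat.card_eq_fintype_card, Fintype.card_fin] at this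
  rw [Nat.Prime.pow_dvd_factorial_iff hp (b := n + 2) (lt_of_le_of_lt (Nat.log_le_self _ _) (by omega))] at this
  have h1 : ∑ i ∈ Finset.Ico 1 (n + 2), n / p ^ i = n / p ^ 1 := by
    apply Finset.sum_eq_single_of_mem 1 (by simp)
    intro b hb hb1
    rw [Finset.mem_Ico] at hb
    apply Nat.div_eq_of_lt
    calc n < 2 * p := h
      _ ≤ p * p := Nat.mul_le_mul_right _ hp.two_le
      _ = p ^ 2 := by ring
      _ ≤ p ^ b := Nat.pow_le_pow_right hp.pos (by omega)
  rw [h1, pow_one] at this
  have := (Nat.le_div_iff_mul_le hp.pos).1 this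
  omega

theorem dvd_alt {n p : ℕ} (hp : p.Prime) (h2 : p ≠ 2) (h : p ≤ n) : p ∣ Nat.card (alternatingGroup (Fin n)) := by
  haveI : Nontrivial (Fin n) := Fin.nontrivial_iff_two_le.2 (hp.two_le.trans h)
  have h1 := two_mul_nat_card_alternatingGroup (α := Fin n)
  rw [Nat.card_perm, Nat.card_eq_fintype_card (α := Fin n), Fintype.card_fin] at h1
  have h4 := hp.dvd_factorial.2 h
  rw [← h1] at h4
  exact ((Nat.coprime_primes hp Nat.prime_two).2 h2).dvd_of_dvd_mul_left h4

theorem simple_of {Q : Type*} [Group Q] [Finite Q] (K : Subgroup Q) [K.Normal] (hK : K ≠ ⊥)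
    (hmin : ∀ L : Subgroup Q, L.Normal → L ≤ K → L = ⊥ ∨ L = K) {p : ℕ} (hp : p.Prime) (h1 : p ∣ Nat.card K)
    (h2 : ¬ p ^ 2 ∣ Nat.card K) : IsSimpleGroup K := by
  haveI := Fact.mk hp
  haveI : Nontrivial K := (Subgroup.nontrivial_iff_ne_bot K).2 hK
  refine ⟨fun L hL => ?_⟩
  by_cases hpL : p ∣ Nat.card L
  · right
    have hall : ∀ x : K, orderOf x = p → x ∈ L := by
      intro x hx
      have h3 : ¬ p ∣ L.index := by
        intro h
        apply h2
        rw [← L.card_mul_index, pow_two]; exact Nat.mul_dvd_mul hpL h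
      rw [← QuotientGroup.eq_one_iff, ← orderOf_eq_one_iff]
      have a : orderOf (x : K ⧸ L) ∣ p := hx ▸ orderOf_map_dvd (QuotientGroup.mk' L) x
      rcases (Nat.dvd_prime hp).1 a with h | h
      · exact h
      · exact absurd (h ▸ orderOf_dvd_natCard (x : K ⧸ L)) h3
    obtain ⟨x, hx⟩ := exists_prime_orderOf_dvd_card' p h1
    have hle : (L.map K.subtype).normalCore ≤ K := (Subgroup.normalCore_le _).trans (Subgroup.map_subtype_le _)
    rcases hmin _ inferInstance hle with h | h
    · exfalso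
      have : (x : Q) ∈ (L.map K.subtype).normalCore := by
        intro g
        refine ⟨MulAut.conjNormal g x, hall _ (by rw [MulEquiv.orderOf_eq, hx]), rfl⟩
      rw [h, Subgroup.mem_bot] at this
      rw [show x = 1 from Subtype.ext this, orderOf_one] at hx
      exact hp.one_lt.ne hx
    · rw [eq_top_iff]
      intro y _
      obtain ⟨z, hz, hzy⟩ := Subgroup.normalCore_le _ (h.symm ▸ y.2 : (y : Q) ∈ (L.map K.subtype).normalCore)
      exact (Subtype.ext hzy : z = y) ▸ hz
  · left
    obtain ⟨M, hM, hmax⟩ := Finite.exists_le_maximal (p := fun M : Subgroup K => M.Normal ∧ ¬ p ∣ Nat.card M) (a := L) ⟨hL, hpL⟩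
    haveI := hmax.prop.1
    have hchar : ∀ e : K ≃* K, M.map e.toMonoidHom ≤ M := by
      intro e
      haveI : (M.map e.toMonoidHom).Normal := Subgroup.Normal.map inferInstance _ e.surjective
      have h3 : ¬ p ∣ Nat.card ↥(M ⊔ M.map e.toMonoidHom) := by
        intro h
        have := H1.card_sup_dvd (H := M) (N := M.map e.toMonoidHom) (by rw [Subgroup.normalizer_eq_top]; exact le_top)
        rw [Subgroup.card_map_of_injective e.injective] at this
        exact hmax.prop.2 ((hp.dvd_mul.1 (h.trans this)).elim id id)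
      exact le_sup_right.trans (hmax.2 ⟨inferInstance, h3⟩ le_sup_left)
    haveI : M.Characteristic := Subgroup.characteristic_iff_map_le.2 hchar
    rcases hmin (M.map K.subtype) inferInstance (Subgroup.map_subtype_le _) with h | h
    · rw [Subgroup.map_eq_bot_iff_of_injective _ K.subtype_injective] at h
      exact le_bot_iff.1 (h ▸ hM)
    · exfalso
      apply hmax.prop.2
      rw [← Subgroup.card_map_of_injective K.subtype_injective, h]; exact h1

end H7.Spec
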